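import Cfsg.Agent.Lib.ConwayType.InvolutionsModel

/-!
The two standard totally singular four-spaces through `eV`, `e2V`, `e3V` and the isometries fixing one of
them pointwise.
-/

set_option autoImplicit false
set_option maxRecDepth 100000
set_option synthInstance.maxSize 1000
set_option maxHeartbeats 4000000

namespace CfsgLib.ConwayType.Golay

open CfsgLib.ConwayType CfsgLib.ClassicalForms

/-- The fourth basis vector, for either of the two spaces. -/
def xV (i : Bool) : V := bif i then e4V else f4V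

/-- Its partner. -/
def xV' (i : Bool) : V := bif i then f4V else e4V

/-- The elements of the space. -/
def wVec (i : Bool) (c : Fin 4 → ZMod 2) : V := c 0 • eV + c 1 • e2V + c 2 • e3V + c 3 • xV i

/-- The space. -/
def InW (i : Bool) (v : V) : Prop := ∃ c, v = wVec i c

instance (i : Bool) : DecidablePred (InW i) := fun v => by unfold InW; infer_instance

/-- The lines spanned by the basis. -/
def lineA (i : Bool) : Fin 6 → V := fun k => ![eV, eV, eV, e2V, e2V, e3V] k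

/-- The second points of the lines. -/
def lineB (i : Bool) : Fin 6 → V := fun k => ![e2V, e3V, xV i, e3V, xV i, xV i] k

/-- The product of the root maps of the lines, as a function. -/
def prodF (i : Bool) (b : Fin 6 → ZMod 2) (u : V) : V :=
  sgf (lineA i 0) (b 0 • lineB i 0) (sgf (lineA i 1) (b 1 • lineB i 1) (sgf (lineA i 2) (b 2 • lineB i 2)
    (sgf (lineA i 3) (b 3 • lineB i 3) (sgf (lineA i 4) (b 4 • lineB i 4)
      (sgf (lineA i 5) (b 5 • lineB i 5) u)))))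

theorem wVec_spec : ∀ i c, q (wVec i c) = 0 := by decide +kernel

theorem wVec_add : ∀ i c c', wVec i c + wVec i c' = wVec i (c + c') := by decide +kernel

theorem wVec_inj : ∀ i c c', wVec i c = wVec i c' → c = c' := by decide +kernel

theorem bl_wVec : ∀ i c c', bl (wVec i c) (wVec i c') = 0 := by decide +kernel

theorem line_mem : ∀ i k, InW i (lineA i k) ∧ InW i (lineB i k) ∧ lineA i k ≠ 0 := by decide +kernel

theorem basis_mem : ∀ i, InW i eV ∧ InW i e2V ∧ InW i e3V ∧ InW i (xV i) := by decide +kernel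

theorem xV_spec : ∀ i, Mid (xV i) ∧ xV i ≠ 0 ∧ q (xV i) = 0 := by decide +kernel

theorem perp_W : ∀ i, ∀ v : V, bl v eV = 0 → bl v e2V = 0 → bl v e3V = 0 → bl v (xV i) = 0 → InW i v := by
  intro i
  rw [forall_vec]
  cases i <;> decide +kernel

theorem third_class : ∀ v : V, Mid v → q v = 0 → bl v e2V = 0 → bl v e3V = 0 →
    (∃ s t : ZMod 2, v = s • e2V + t • e3V) ∨
      ∃ (i : Bool) (s t : ZMod 2), v = xV i + (s • e2V + t • e3V) := by
  rw [forall_mid]; decide +kernel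

theorem dual_image0 : ∀ i, ∀ v : V, q v = 0 → bl v eV = 1 → bl v e2V = 0 → bl v e3V = 0 →
    bl v (xV i) = 0 → ∃ c : Fin 4 → ZMod 2, c 0 = 0 ∧ v = fV + wVec i c := by
  intro i
  rw [forall_vec]
  cases i <;> decide +kernel

theorem dual_image1 : ∀ i, ∀ v : V, q v = 0 → bl v eV = 0 → bl v e2V = 1 → bl v e3V = 0 →
    bl v (xV i) = 0 → ∃ c : Fin 4 → ZMod 2, c 1 = 0 ∧ v = f2V + wVec i c := by
  intro i
  rw [forall_vec]
  cases i <;> decide +kernel

theorem dual_image2 : ∀ i, ∀ v : V, q v = 0 → bl v eV = 0 → bl v e2V = 0 → bl v e3V = 1 →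
    bl v (xV i) = 0 → ∃ c : Fin 4 → ZMod 2, c 2 = 0 ∧ v = f3V + wVec i c := by
  intro i
  rw [forall_vec]
  cases i <;> decide +kernel

theorem dual_image3 : ∀ i, ∀ v : V, q v = 0 → bl v eV = 0 → bl v e2V = 0 → bl v e3V = 0 →
    bl v (xV i) = 1 → ∃ c : Fin 4 → ZMod 2, c 3 = 0 ∧ v = xV' i + wVec i c := by
  intro i
  rw [forall_vec]
  cases i <;> decide +kernel

/-- The images of the duals under an element fixing the space determine it. -/
theorem dual_table : ∀ (i : Bool) (a0 a1 a2 b0 b1 b2 c0 c1 c2 d0 d1 d2 : ZMod 2),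
    let v0 := fV + wVec i ![0, a0, a1, a2]
    let v1 := f2V + wVec i ![b0, 0, b1, b2]
    let v2 := f3V + wVec i ![c0, c1, 0, c2]
    let v3 := xV' i + wVec i ![d0, d1, d2, 0]
    bl v0 v1 = 0 → bl v0 v2 = 0 → bl v0 v3 = 0 → bl v1 v2 = 0 → bl v1 v3 = 0 → bl v2 v3 = 0 →
      let b : Fin 6 → ZMod 2 := ![a0, a1, a2, b1, b2, c2]
      prodF i b fV = v0 ∧ prodF i b f2V = v1 ∧ prodF i b f3V = v2 ∧
        prodF i b (xV' i) = v3 ∧ prodF i b eV = eV ∧ prodF i b e2V = e2V ∧ prodF i b e3V = e3V ∧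
        prodF i b (xV i) = xV i := by
  decide +kernel

theorem prodF_fix : ∀ (i : Bool) (b : Fin 6 → ZMod 2) (c : Fin 4 → ZMod 2),
    prodF i b (wVec i c) = wVec i c := by decide +kernel

theorem prodF_inj : ∀ (i : Bool) (b b' : Fin 6 → ZMod 2),
    (∀ u ∈ basisList, prodF i b u = prodF i b' u) → b = b' := by
  have h : ∀ (i : Bool) (b : Fin 6 → ZMod 2), b =
      ![(prodF i b fV) (.inl 1), (prodF i b fV) (.inl 2),
        bl (prodF i b fV) (xV' i), (prodF i b f2V) (.inl 2),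
        bl (prodF i b f2V) (xV' i), bl (prodF i b f3V) (xV' i)] := by decide +kernel
  intro i b b' e
  rw [h i b, h i b', e fV (by simp [basisList]), e f2V (by simp [basisList]), e f3V (by simp [basisList])]

theorem cases_basis (i : Bool) {P : V → Prop} (h : P eV ∧ P fV ∧ P e2V ∧ P f2V ∧ P e3V ∧ P f3V ∧
    P (xV i) ∧ P (xV' i)) : ∀ u ∈ basisList, P u := by
  intro u hu
  simp only [basisList, List.mem_cons, List.not_mem_nil, or_false] at hu
  cases i <;> simp only [xV, xV', cond_true, cond_false] at h <;>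
    rcases hu with rfl | rfl | rfl | rfl | rfl | rfl | rfl | rfl <;> tauto

/-- An isometry fixing the space pointwise is a product of the root maps. -/
theorem exists_prod (i : Bool) (g : O) (h : ∀ c, ap g (wVec i c) = wVec i c) :
    ∃ b : Fin 6 → ZMod 2, ∀ u ∈ basisList, ap g u = prodF i b u := by
  have hfix : ∀ {v : V}, InW i v → ap g v = v := by
    rintro _ ⟨c, rfl⟩
    exact h c
  obtain ⟨m0, m1, m2, m3⟩ := basis_mem i
  have hb : ∀ (u p : V), InW i p → bl (ap g u) p = bl u p := fun u p hp => by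
    conv_lhs => rw [← hfix hp]
    exact bl_ap g u p
  have hd : ∀ j : Bool, bl fV eV = 1 ∧ bl fV e2V = 0 ∧ bl fV e3V = 0 ∧ bl fV (xV j) = 0 ∧
      bl f2V eV = 0 ∧ bl f2V e2V = 1 ∧ bl f2V e3V = 0 ∧ bl f2V (xV j) = 0 ∧
      bl f3V eV = 0 ∧ bl f3V e2V = 0 ∧ bl f3V e3V = 1 ∧ bl f3V (xV j) = 0 ∧
      bl (xV' j) eV = 0 ∧ bl (xV' j) e2V = 0 ∧ bl (xV' j) e3V = 0 ∧ bl (xV' j) (xV j) = 1 ∧
      q fV = 0 ∧ q f2V = 0 ∧ q f3V = 0 ∧ q (xV' j) = 0 ∧
      bl fV f2V = 0 ∧ bl fV f3V = 0 ∧ bl fV (xV' j) = 0 ∧ bl f2V f3V = 0 ∧ bl f2V (xV' j) = 0 ∧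
      bl f3V (xV' j) = 0 := by decide
  obtain ⟨a1, a2, a3, a4, b1, b2, b3, b4, c1, c2, c3, c4, d1, d2, d3, d4, q0, q1, q2, q3,
    e01, e02, e03, e12, e13, e23⟩ := hd i
  obtain ⟨x, hx0, hx⟩ := dual_image0 i (ap g fV) (by rw [q_ap]; exact q0)
    (by rw [hb _ _ m0, a1]) (by rw [hb _ _ m1, a2]) (by rw [hb _ _ m2, a3]) (by rw [hb _ _ m3, a4])
  obtain ⟨y, hy0, hy⟩ := dual_image1 i (ap g f2V) (by rw [q_ap]; exact q1)
    (by rw [hb _ _ m0, b1]) (by rw [hb _ _ m1, b2]) (by rw [hb _ _ m2, b3]) (by rw [hb _ _ m3, b4])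
  obtain ⟨w, hw0, hw⟩ := dual_image2 i (ap g f3V) (by rw [q_ap]; exact q2)
    (by rw [hb _ _ m0, c1]) (by rw [hb _ _ m1, c2]) (by rw [hb _ _ m2, c3]) (by rw [hb _ _ m3, c4])
  obtain ⟨t, ht0, ht⟩ := dual_image3 i (ap g (xV' i)) (by rw [q_ap]; exact q3)
    (by rw [hb _ _ m0, d1]) (by rw [hb _ _ m1, d2]) (by rw [hb _ _ m2, d3]) (by rw [hb _ _ m3, d4])
  have ex : x = ![0, x 1, x 2, x 3] := by funext j; fin_cases j <;> simp [hx0]
  have ey : y = ![y 0, 0, y 2, y 3] := by funext j; fin_cases j <;> simp [hy0]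
  have ew : w = ![w 0, w 1, 0, w 3] := by funext j; fin_cases j <;> simp [hw0]
  have et : t = ![t 0, t 1, t 2, 0] := by funext j; fin_cases j <;> simp [ht0]
  rw [ex] at hx; rw [ey] at hy; rw [ew] at hw; rw [et] at ht
  have ho : ∀ {u v : V}, bl u v = 0 → bl (ap g u) (ap g v) = 0 := fun e => by rw [bl_ap, e]
  obtain ⟨r0, r1, r2, r3, r4, r5, r6, r7⟩ := dual_table i _ _ _ _ _ _ _ _ _ _ _ _
    (hx ▸ hy ▸ ho e01) (hx ▸ hw ▸ ho e02) (hx ▸ ht ▸ ho e03) (hy ▸ hw ▸ ho e12) (hy ▸ ht ▸ ho e13)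
    (hw ▸ ht ▸ ho e23)
  refine ⟨![x 1, x 2, x 3, y 2, y 3, w 3],
    cases_basis i (P := fun u => ap g u = prodF i ![x 1, x 2, x 3, y 2, y 3, w 3] u) ?_⟩
  exact ⟨by rw [hfix m0, r4], by rw [hx, r0], by rw [hfix m1, r5], by rw [hy, r1], by rw [hfix m2, r6],
    by rw [hw, r2], by rw [hfix m3, r7], by rw [ht, r3]⟩

end CfsgLib.ConwayType.Golay
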