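import Cfsg.Agent.Lib.ConwayType.Golay.Good
import Cfsg.Agent.Lib.ConwayType.Golay.Space
import Cfsg.Prelude.Def_Transfer

/-!
The elementary abelian group of order `2^11` over a totally singular four-space: the centraliser of the
lifts of the space in the extraspecial group.
-/

set_option autoImplicit false
set_option linter.unusedSectionVars false
set_option maxRecDepth 100000
set_option synthInstance.maxSize 1000
set_option maxHeartbeats 4000000

namespace CfsgLib.ConwayType.Golay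

open CfsgLib.ExtraspecialLarge CfsgLib.ConwayType

variable {G : Type*} [Group G] [Finite G]

/-- The centraliser of the lifts of a set of vectors. -/
def AU (z : G) (Qf : G → Subgroup G) (θ : G → V) (U : V → Prop) : Subgroup G :=
  Subgroup.centralizer {x | x ∈ Qf z ∧ U (θ x)}

variable {z : G} {Qf : G → Subgroup G} {θ : G → V} {ρ : G → O} {J : Subgroup O} {y h : G}

theorem mem_AU {U : V → Prop} {a : G} :
    a ∈ AU z Qf θ U ↔ ∀ x, x ∈ Qf z → U (θ x) → x * a = a * x :=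
  ⟨fun ha x hx hU => Subgroup.mem_centralizer_iff.1 ha x ⟨hx, hU⟩,
    fun H => Subgroup.mem_centralizer_iff.2 fun x hx => H x hx.1 hx.2⟩

theorem InW.zero (i : Bool) : InW i 0 := ⟨0, by simp [wVec]⟩

theorem InW.add {i : Bool} {u v : V} : InW i u → InW i v → InW i (u + v) := by
  rintro ⟨c, rfl⟩ ⟨c', rfl⟩
  exact ⟨c + c', wVec_add i c c'⟩

theorem InW.sing {i : Bool} {u : V} : InW i u → q u = 0 := by
  rintro ⟨c, rfl⟩
  exact wVec_spec i c

theorem InW.perp {i : Bool} {u v : V} : InW i u → InW i v → bl u v = 0 := by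
  rintro ⟨c, rfl⟩ ⟨c', rfl⟩
  exact bl_wVec i c c'

section Setting

variable (S : Setting z Qf θ ρ J)
include S

theorem comm_z_of_mem {i : Bool} {a : G} (ha : a ∈ AU z Qf θ (InW i)) : a * z = z * a :=
  (mem_AU.1 ha z S.z_mem (by rw [S.θ_z]; exact InW.zero i)).symm

theorem ρ_fix {i : Bool} {a : G} (ha : a ∈ AU z Qf θ (InW i)) (c : Fin 4 → ZMod 2) :
    ap (ρ a) (wVec i c) = wVec i c := by
  obtain ⟨x, hx, hθ⟩ := S.θ_surj (wVec i c)
  have h1 := mem_AU.1 ha x hx ⟨c, hθ⟩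
  rw [← hθ, ← S.ρ_act a (comm_z_of_mem S ha) x hx, conj_fix_iff.2 h1.symm]

theorem mem_AU_Q {i : Bool} {x : G} (hx : x ∈ Qf z) : x ∈ AU z Qf θ (InW i) ↔ InW i (θ x) := by
  constructor
  · intro ha
    have hb : ∀ v, InW i v → bl (θ x) v = 0 := by
      intro v hv
      obtain ⟨w, hw, rfl⟩ := S.θ_surj v
      exact S.bl_of_comm hx hw (mem_AU.1 ha w hw hv).symm
    obtain ⟨m0, m1, m2, m3⟩ := basis_mem i
    exact perp_W i _ (hb _ m0) (hb _ m1) (hb _ m2) (hb _ m3)
  · intro h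
    exact mem_AU.2 fun w hw hU => S.comm_of_bl hw hx (hU.perp h)

theorem Q_central {i : Bool} {x a : G} (hx : x ∈ Qf z) (hW : InW i (θ x))
    (ha : a ∈ AU z Qf θ (InW i)) : Commute x a := mem_AU.1 ha x hx hW

theorem exists_mul_of_ρ {i : Bool} {a b : G} (ha : a ∈ AU z Qf θ (InW i)) (hb : b ∈ AU z Qf θ (InW i))
    (h : ρ a = ρ b) : ∃ e ∈ Qf z, InW i (θ e) ∧ a = b * e := by
  have haz := comm_z_of_mem S ha
  have hbz := comm_z_of_mem S hb
  have he : b⁻¹ * a ∈ Qf z := by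
    refine (S.ρ_ker _ (comm_mul (comm_inv hbz) haz)).1 ?_
    rw [S.ρ_mul (comm_inv hbz) haz, S.ρ_inv hbz, h, inv_mul_cancel]
  exact ⟨_, he, (mem_AU_Q S he).1 (mul_mem (inv_mem hb) ha), by group⟩

/-- Commutation depends only on the images. -/
theorem commute_congr {i : Bool} {a a' b b' : G} (ha : a ∈ AU z Qf θ (InW i))
    (ha' : a' ∈ AU z Qf θ (InW i)) (hb : b ∈ AU z Qf θ (InW i)) (hb' : b' ∈ AU z Qf θ (InW i))
    (h1 : ρ a = ρ a') (h2 : ρ b = ρ b') (h : Commute a' b') : Commute a b := by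
  obtain ⟨e, he, heW, rfl⟩ := exists_mul_of_ρ S ha ha' h1
  obtain ⟨f, hf, hfW, rfl⟩ := exists_mul_of_ρ S hb hb' h2
  refine Commute.mul_left (Commute.mul_right h (Q_central S hf hfW ha').symm) ?_
  exact Commute.mul_right (Q_central S he heW hb') (Q_central S he heW ((mem_AU_Q S hf).2 hfW))

/-- Conjugation by elements of the centraliser of `z`. -/
theorem AU_map {U : V → Prop} {c : G} (hc : c * z = z * c) :
    (AU z Qf θ U).map (MulAut.conj c).toMonoidHom =
      AU z Qf θ (fun v => U (ap (ρ c)⁻¹ v)) := by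
  have hθ : ∀ x ∈ Qf z, θ (c⁻¹ * x * c) = ap (ρ c)⁻¹ (θ x) := by
    intro x hx
    have := S.ρ_act c⁻¹ (comm_inv hc) x hx
    rw [inv_inv, S.ρ_inv hc] at this
    exact this
  ext a
  rw [Subgroup.mem_map]
  constructor
  · rintro ⟨b, hb, rfl⟩
    refine mem_AU.2 fun x hx hU => ?_
    have hx' : c⁻¹ * x * c ∈ Qf z := by
      have := S.conj_mem_Q (comm_inv hc) hx
      rwa [inv_inv] at this
    have h1 := mem_AU.1 hb _ hx' (by rw [hθ x hx]; exact hU)
    show x * (c * b * c⁻¹) = c * b * c⁻¹ * x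
    calc x * (c * b * c⁻¹) = c * ((c⁻¹ * x * c) * b) * c⁻¹ := by group
      _ = c * (b * (c⁻¹ * x * c)) * c⁻¹ := by rw [h1]
      _ = _ := by group
  · intro ha
    refine ⟨c⁻¹ * a * c, mem_AU.2 fun x hx hU => ?_, by show c * (c⁻¹ * a * c) * c⁻¹ = a; group⟩
    have hx' := S.conj_mem_Q hc hx
    have h1 := mem_AU.1 ha _ hx' (by rw [S.ρ_act c hc x hx, ap_inv_ap]; exact hU)
    calc x * (c⁻¹ * a * c) = c⁻¹ * ((c * x * c⁻¹) * a) * c := by group
      _ = c⁻¹ * (a * (c * x * c⁻¹)) * c := by rw [h1]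
      _ = _ := by group

end Setting

variable (P : PairSetting z Qf θ ρ J y h)
include P

/-- A lift of a root map of the space in the centraliser. -/
theorem exists_root_AU {i : Bool} {a b : V} (ha : InW i a) (ha0 : a ≠ 0) (hb : InW i b) :
    ∃ y₂ s, IsRoot z Qf θ ρ a b y₂ s ∧ s ∈ AU z Qf θ (InW i) ∧ ρ s = T a b ha.sing (ha.perp hb) ∧
      s * s = 1 := by
  obtain ⟨y₂, s, R⟩ := P.exists_root ha.sing ha0 (ha.perp hb)
  refine ⟨y₂, s, R, mem_AU.2 fun x hx hU => ?_, ?_, by rw [R.sq, hb.sing, zp_zero]⟩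
  · have e := R.pairing x hx (ha.perp hU)
    rw [hU.perp hb, zp_zero, zp_zero, mul_one, mul_inv_eq_one] at e
    exact (mul_inv_eq_iff_eq_mul.1 e).symm
  · exact CfsgLib.ClassicalForms.orth_ext fun x => by
      change ap (ρ s) x = ap (T _ _ _ _) x
      rw [R.act, ap_T]

omit P in
/-- Every two elements of the centraliser over two isometries commute. -/
def Cm (z : G) (Qf : G → Subgroup G) (θ : G → V) (ρ : G → O) (i : Bool) (g g' : O) : Prop :=
  ∀ a b, a ∈ AU z Qf θ (InW i) → b ∈ AU z Qf θ (InW i) → ρ a = g → ρ b = g' → Commute a b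

theorem cm_symm {i : Bool} {g g' : O} (H : Cm z Qf θ ρ i g g') : Cm z Qf θ ρ i g' g :=
  fun a b ha hb e e' => (H b a hb ha e' e).symm

theorem T_add {a b b' : V} (hqa : q a = 0) (hb : bl a b = 0) (hb' : bl a b' = 0) (hbb : bl a (b + b') = 0) :
    T a b hqa hb * T a b' hqa hb' = T a (b + b') hqa hbb := T_mul hqa hb hb'

/-- Root maps with a common point have commuting lifts. -/
theorem cm_point {i : Bool} {a b b' : V} (ha : InW i a) (ha0 : a ≠ 0) (hb : InW i b) (hb' : InW i b') :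
    Cm z Qf θ ρ i (T a b ha.sing (ha.perp hb)) (T a b' ha.sing (ha.perp hb')) := by
  intro u v hu hv hρu hρv
  have S := P.toSetting
  obtain ⟨y₂, s, R, hs, hρs, hs2⟩ := exists_root_AU P ha ha0 hb
  obtain ⟨y₃, t, R', ht, hρt, ht2⟩ := exists_root_AU P ha ha0 hb'
  refine commute_congr S hu hs hv ht (hρu.trans hρs.symm) (hρv.trans hρt.symm) ?_
  obtain ⟨y₄, r, R'', hr, hρr, hr2⟩ := exists_root_AU P ha ha0 (hb.add hb')
  have hst : s * t ∈ AU z Qf θ (InW i) := mul_mem hs ht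
  obtain ⟨e, he, heW, hde⟩ := exists_mul_of_ρ S hst hr (by
    rw [S.ρ_mul R.comm R'.comm, hρs, hρt, hρr]; exact T_add P _ _ _ _)
  have hee : e * e = 1 := (S.θ_sq e he).2 heW.sing
  have hsq : s * t * (s * t) = 1 := by
    rw [hde]
    calc r * e * (r * e) = r * (e * r) * e := by group
      _ = r * (r * e) * e := by rw [(Q_central S he heW hr).eq]
      _ = (r * r) * (e * e) := by group
      _ = 1 := by rw [hr2, hee, mul_one]
  calc s * t = s * t * (s * t * (s * t))⁻¹ := by rw [hsq, inv_one, mul_one]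
    _ = t⁻¹ * s⁻¹ := by group
    _ = t * s := by rw [inv_eq_of_mul_eq_one_right ht2, inv_eq_of_mul_eq_one_right hs2]

/-- Root maps with a common second point have commuting lifts. -/
theorem cm_meet {i : Bool} {a b a' : V} (ha : InW i a) (hb : InW i b) (hb0 : b ≠ 0) (ha' : InW i a') :
    Cm z Qf θ ρ i (T a b ha.sing (ha.perp hb)) (T a' b ha'.sing (ha'.perp hb)) := by
  have e1 : T a b ha.sing (ha.perp hb) = T b a hb.sing (hb.perp ha) := T_symm ha.sing hb.sing _
  have e2 : T a' b ha'.sing (ha'.perp hb) = T b a' hb.sing (hb.perp ha') := T_symm ha'.sing hb.sing _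
  rw [e1, e2]
  exact cm_point P hb hb0 ha ha'

/-- The root maps along the six lines. -/
theorem line_spec (i : Bool) (k : Fin 6) :
    InW i (lineA i k) ∧ InW i (lineB i k) ∧ lineA i k ≠ 0 := line_mem i k

omit P in
/-- The root map of a line. -/
noncomputable def lineT (i : Bool) (k : Fin 6) : O :=
  T (lineA i k) (lineB i k) (line_mem i k).1.sing ((line_mem i k).1.perp (line_mem i k).2.1)

omit P in
/-- The two root maps of complementary lines used as hypothesis. -/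
def Skew (z : G) (Qf : G → Subgroup G) (θ : G → V) (ρ : G → O) (i : Bool) : Prop :=
  Cm z Qf θ ρ i (lineT i 2) (lineT i 3)

/-- The six lifts commute. -/
theorem cm_lines {i : Bool} (H : Skew z Qf θ ρ i) (k l : Fin 6) : Cm z Qf θ ρ i (lineT i k) (lineT i l) := by
  have S := P.toSetting
  obtain ⟨m0, m1, m2, m3⟩ := basis_mem i
  have n0 : eV ≠ (0 : V) := by decide
  have n1 : e2V ≠ (0 : V) := by decide
  have n2 : e3V ≠ (0 : V) := by decide
  have n3 : xV i ≠ (0 : V) := (xV_spec i).2.1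
  -- the six pairs at each point
  have sw : ∀ {a b : V} (ha : InW i a) (hb : InW i b),
      T a b ha.sing (ha.perp hb) = T b a hb.sing (hb.perp ha) := fun ha hb => T_symm ha.sing hb.sing _
  have h01 : Cm z Qf θ ρ i (lineT i 0) (lineT i 1) := cm_point P m0 n0 m1 m2
  have h02 : Cm z Qf θ ρ i (lineT i 0) (lineT i 2) := cm_point P m0 n0 m1 m3
  have h12 : Cm z Qf θ ρ i (lineT i 1) (lineT i 2) := cm_point P m0 n0 m2 m3
  have h03 : Cm z Qf θ ρ i (lineT i 0) (lineT i 3) := by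
    show Cm z Qf θ ρ i (T eV e2V _ _) (T e2V e3V _ _)
    rw [sw m0 m1]; exact cm_point P m1 n1 m0 m2
  have h04 : Cm z Qf θ ρ i (lineT i 0) (lineT i 4) := by
    show Cm z Qf θ ρ i (T eV e2V _ _) (T e2V (xV i) _ _)
    rw [sw m0 m1]; exact cm_point P m1 n1 m0 m3
  have h13 : Cm z Qf θ ρ i (lineT i 1) (lineT i 3) := cm_meet P m0 m2 n2 m1
  have h15 : Cm z Qf θ ρ i (lineT i 1) (lineT i 5) := by
    show Cm z Qf θ ρ i (T eV e3V _ _) (T e3V (xV i) _ _)
    rw [sw m0 m2]; exact cm_point P m2 n2 m0 m3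
  have h24 : Cm z Qf θ ρ i (lineT i 2) (lineT i 4) := cm_meet P m0 m3 n3 m1
  have h25 : Cm z Qf θ ρ i (lineT i 2) (lineT i 5) := cm_meet P m0 m3 n3 m2
  have h34 : Cm z Qf θ ρ i (lineT i 3) (lineT i 4) := cm_point P m1 n1 m2 m3
  have h35 : Cm z Qf θ ρ i (lineT i 3) (lineT i 5) := by
    show Cm z Qf θ ρ i (T e2V e3V _ _) (T e3V (xV i) _ _)
    rw [sw m1 m2]; exact cm_point P m2 n2 m1 m3
  have h45 : Cm z Qf θ ρ i (lineT i 4) (lineT i 5) := cm_meet P m1 m3 n3 m2
  have h23 : Cm z Qf θ ρ i (lineT i 2) (lineT i 3) := H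
  -- the two other pairs of complementary lines
  have lift : ∀ {a b : V} (ha : InW i a) (ha0 : a ≠ 0) (hb : InW i b),
      ∃ s ∈ AU z Qf θ (InW i), ρ s = T a b ha.sing (ha.perp hb) := fun ha ha0 hb => by
    obtain ⟨_, s, _, hs, hρ, -⟩ := exists_root_AU P ha ha0 hb
    exact ⟨s, hs, hρ⟩
  obtain ⟨L0, hL0, e0⟩ := lift m0 n0 m1
  obtain ⟨L1, hL1, e1⟩ := lift m0 n0 m2
  obtain ⟨L2, hL2, e2⟩ := lift m0 n0 m3
  obtain ⟨L3, hL3, e3⟩ := lift m1 n1 m2
  obtain ⟨L4, hL4, e4⟩ := lift m1 n1 m3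
  obtain ⟨L5, hL5, e5⟩ := lift m2 n2 m3
  have hz : ∀ {a : G}, a ∈ AU z Qf θ (InW i) → a * z = z * a := fun ha => comm_z_of_mem S ha
  have h14 : Cm z Qf θ ρ i (lineT i 1) (lineT i 4) := by
    have hp := m2.add m3
    have hp0 : e3V + xV i ≠ 0 := by cases i <;> decide
    have c : Commute (L1 * L2) (L3 * L4) := by
      refine cm_meet P m0 hp hp0 m1 _ _ (mul_mem hL1 hL2) (mul_mem hL3 hL4) ?_ ?_
      · rw [S.ρ_mul (hz hL1) (hz hL2), e1, e2]; exact T_add P _ _ _ _
      · rw [S.ρ_mul (hz hL3) (hz hL4), e3, e4]; exact T_add P _ _ _ _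
    have c23 : Commute L2 L3 := h23 _ _ hL2 hL3 e2 e3
    have c13 : Commute L1 L3 := h13 _ _ hL1 hL3 e1 e3
    have c24 : Commute L2 L4 := h24 _ _ hL2 hL4 e2 e4
    intro a b ha hb ea eb
    refine commute_congr S ha hL1 hb hL4 (ea.trans e1.symm) (eb.trans e4.symm) ?_
    have c1 : Commute L1 (L3 * L4) := by
      have := c.mul_left ((c23.mul_right c24).inv_left)
      rwa [mul_inv_cancel_right] at this
    have := c13.inv_right.mul_right c1
    rwa [inv_mul_cancel_left] at this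
  have h05 : Cm z Qf θ ρ i (lineT i 0) (lineT i 5) := by
    have hp := m1.add m3
    have hp0 : e2V + xV i ≠ 0 := by cases i <;> decide
    have c : Commute (L0 * L2) (L3 * L5) := by
      refine cm_meet P m0 hp hp0 m2 _ _ (mul_mem hL0 hL2) (mul_mem hL3 hL5) ?_ ?_
      · rw [S.ρ_mul (hz hL0) (hz hL2), e0, e2]; exact T_add P _ _ _ _
      · rw [S.ρ_mul (hz hL3) (hz hL5), e3, e5, sw m1 m2]; exact T_add P _ _ _ _
    have c23 : Commute L2 L3 := h23 _ _ hL2 hL3 e2 e3
    have c03 : Commute L0 L3 := h03 _ _ hL0 hL3 e0 e3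
    have c25 : Commute L2 L5 := h25 _ _ hL2 hL5 e2 e5
    intro a b ha hb ea eb
    refine commute_congr S ha hL0 hb hL5 (ea.trans e0.symm) (eb.trans e5.symm) ?_
    have c1 : Commute L0 (L3 * L5) := by
      have := c.mul_left ((c23.mul_right c25).inv_left)
      rwa [mul_inv_cancel_right] at this
    have := c03.inv_right.mul_right c1
    rwa [inv_mul_cancel_left] at this
  have hsame : ∀ k, Cm z Qf θ ρ i (lineT i k) (lineT i k) := fun k =>
    cm_point P (line_mem i k).1 (line_mem i k).2.2 (line_mem i k).2.1 (line_mem i k).2.1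
  exact match k, l with
  | 0, 0 => hsame _
  | 0, 1 => h01
  | 0, 2 => h02
  | 0, 3 => h03
  | 0, 4 => h04
  | 0, 5 => h05
  | 1, 0 => cm_symm P h01
  | 1, 1 => hsame _
  | 1, 2 => h12
  | 1, 3 => h13
  | 1, 4 => h14
  | 1, 5 => h15
  | 2, 0 => cm_symm P h02
  | 2, 1 => cm_symm P h12
  | 2, 2 => hsame _
  | 2, 3 => h23
  | 2, 4 => h24
  | 2, 5 => h25
  | 3, 0 => cm_symm P h03
  | 3, 1 => cm_symm P h13
  | 3, 2 => cm_symm P h23
  | 3, 3 => hsame _
  | 3, 4 => h34
  | 3, 5 => h35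
  | 4, 0 => cm_symm P h04
  | 4, 1 => cm_symm P h14
  | 4, 2 => cm_symm P h24
  | 4, 3 => cm_symm P h34
  | 4, 4 => hsame _
  | 4, 5 => h45
  | 5, 0 => cm_symm P h05
  | 5, 1 => cm_symm P h15
  | 5, 2 => cm_symm P h25
  | 5, 3 => cm_symm P h35
  | 5, 4 => cm_symm P h45
  | 5, 5 => hsame _

omit P in
/-- The product of the root maps with given exponents. -/
noncomputable def prodT (i : Bool) (b : Fin 6 → ZMod 2) : O :=
  zp (lineT i 0) (b 0) * (zp (lineT i 1) (b 1) * (zp (lineT i 2) (b 2) * (zp (lineT i 3) (b 3) *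
    (zp (lineT i 4) (b 4) * zp (lineT i 5) (b 5)))))

omit P in
theorem ap_zp_lineT (i : Bool) (k : Fin 6) (t : ZMod 2) (u : V) :
    ap (zp (lineT i k) t) u = sgf (lineA i k) (t • lineB i k) u := by
  rcases z2_cases t with rfl | rfl
  · rw [zp_zero, ap_one, zero_smul, sgf_eq, bl_zero_right, q_zero, zero_mul, add_zero, smul_zero,
      zero_smul, add_zero, add_zero]
  · rw [zp_one, one_smul, lineT, ap_T]

omit P in
theorem ap_prodT (i : Bool) (b : Fin 6 → ZMod 2) (u : V) : ap (prodT i b) u = prodF i b u := by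
  simp only [prodT, ap_mul, ap_zp_lineT, prodF]

/-- Elements over all products of root maps, built from the six lifts. -/
theorem exists_lifts (i : Bool) : ∃ L : Fin 6 → G,
    (∀ k, L k ∈ AU z Qf θ (InW i) ∧ ρ (L k) = lineT i k ∧ L k * L k = 1) ∧
      ∀ g : O, (∀ c, ap g (wVec i c) = wVec i c) →
        ∃ a ∈ Subgroup.closure (Set.range L), ρ a = g := by
  have hL := fun k => exists_root_AU P (line_mem i k).1 (line_mem i k).2.2 (line_mem i k).2.1
  choose y₂ L R hmem hρ hsq using hL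
  refine ⟨L, fun k => ⟨hmem k, hρ k, hsq k⟩, fun g hg => ?_⟩
  obtain ⟨b, hb⟩ := exists_prod i g hg
  have hgb : g = prodT i b := O_ext_basis fun u hu => by rw [hb u hu, ap_prodT]
  have hz : ∀ (k : Fin 6) (t : ZMod 2), zp (L k) t * z = z * zp (L k) t := fun k t =>
    (zp_comm ((comm_z_of_mem P.toSetting (hmem k)).symm) t).symm
  have hρz : ∀ (k : Fin 6) (t : ZMod 2), ρ (zp (L k) t) = zp (lineT i k) t := fun k t => by
    rcases z2_cases t with rfl | rfl
    · exact P.toSetting.ρ_one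
    · exact hρ k
  have hcl : ∀ (k : Fin 6) (t : ZMod 2), zp (L k) t ∈ Subgroup.closure (Set.range L) := fun k t =>
    zp_mem (Subgroup.subset_closure (Set.mem_range_self k)) t
  refine ⟨zp (L 0) (b 0) * (zp (L 1) (b 1) * (zp (L 2) (b 2) * (zp (L 3) (b 3) *
    (zp (L 4) (b 4) * zp (L 5) (b 5))))),
    mul_mem (hcl _ _) (mul_mem (hcl _ _) (mul_mem (hcl _ _) (mul_mem (hcl _ _)
      (mul_mem (hcl _ _) (hcl _ _))))), ?_⟩
  have c4 := comm_mul (hz 4 (b 4)) (hz 5 (b 5))
  have c3 := comm_mul (hz 3 (b 3)) c4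
  have c2 := comm_mul (hz 2 (b 2)) c3
  have c1 := comm_mul (hz 1 (b 1)) c2
  rw [hgb, P.toSetting.ρ_mul (hz 0 _) c1, P.toSetting.ρ_mul (hz 1 _) c2, P.toSetting.ρ_mul (hz 2 _) c3,
    P.toSetting.ρ_mul (hz 3 _) c4, P.toSetting.ρ_mul (hz 4 _) (hz 5 _), prodT, hρz, hρz, hρz, hρz, hρz, hρz]

/-- The centraliser is elementary abelian when the complementary pair commutes. -/
theorem elementary_of_skew {i : Bool} (H : Skew z Qf θ ρ i) :
    Cfsg.IsElementaryAbelian 2 (AU z Qf θ (InW i)) := by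
  have S := P.toSetting
  obtain ⟨L, hL, hgen⟩ := exists_lifts P i
  set E : Set G := {x | x ∈ Qf z ∧ InW i (θ x)} with hE
  set gens : Set G := Set.range L ∪ E with hgens
  have hle : AU z Qf θ (InW i) ≤ Subgroup.closure gens := by
    intro a ha
    obtain ⟨b, hb, e⟩ := hgen (ρ a) (ρ_fix S ha)
    have hbA : b ∈ AU z Qf θ (InW i) :=
      (Subgroup.closure_le (AU z Qf θ (InW i))).2 (by rintro _ ⟨k, rfl⟩; exact (hL k).1) hb
    obtain ⟨x, hx, hxW, rfl⟩ := exists_mul_of_ρ S ha hbA e.symm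
    exact mul_mem (Subgroup.closure_mono Set.subset_union_left hb)
      (Subgroup.subset_closure (Or.inr ⟨hx, hxW⟩))
  have hcomm : ∀ s ∈ gens, ∀ t ∈ gens, Commute s t := by
    rintro s (⟨k, rfl⟩ | ⟨hx, hxW⟩) t (⟨l, rfl⟩ | ⟨hy, hyW⟩)
    · exact cm_lines P H k l _ _ (hL k).1 (hL l).1 (hL k).2.1 (hL l).2.1
    · exact (Q_central S hy hyW (hL k).1).symm
    · exact Q_central S hx hxW (hL l).1
    · exact Q_central S hx hxW ((mem_AU_Q S hy).2 hyW)
  have hsq : ∀ s ∈ gens, s * s = 1 := by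
    rintro s (⟨k, rfl⟩ | ⟨hx, hxW⟩)
    · exact (hL k).2.2
    · exact (S.θ_sq s hx).2 hxW.sing
  have h1 : ∀ a ∈ Subgroup.closure gens, ∀ t ∈ gens, Commute a t := by
    intro a ha t ht
    induction ha using Subgroup.closure_induction with
    | mem x hx => exact hcomm x hx t ht
    | one => exact Commute.one_left t
    | mul x y _ _ ihx ihy => exact ihx.mul_left ihy
    | inv x _ ihx => exact ihx.inv_left
  have h2 : ∀ a ∈ Subgroup.closure gens, ∀ b ∈ Subgroup.closure gens, Commute a b := by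
    intro a ha b hb
    induction hb using Subgroup.closure_induction with
    | mem x hx => exact h1 a ha x hx
    | one => exact Commute.one_right a
    | mul x y _ _ ihx ihy => exact ihx.mul_right ihy
    | inv x _ ihx => exact ihx.inv_right
  refine ⟨IsMulCommutative.mk ⟨fun a b => Subtype.ext (h2 _ (hle a.2) _ (hle b.2)).eq⟩, fun a ha => ?_⟩
  have key : ∀ a ∈ Subgroup.closure gens, a * a = 1 := by
    intro a ha
    induction ha using Subgroup.closure_induction with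
    | mem x hx => exact hsq x hx
    | one => exact one_mul 1
    | mul x y hx hy ihx ihy =>
      rw [(h2 x hx y hy).symm.mul_mul_mul_comm, ihx, ihy, one_mul]
    | inv x _ ihx => rw [← mul_inv_rev, ihx, inv_one]
  rw [pow_two]
  exact key a (hle ha)

end CfsgLib.ConwayType.Golay
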