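import Cfsg.Agent.Lib.ConwayType.Golay.Stab
import Cfsg.Agent.Lib.ConwayType.NotConj

/-!
Transitivity of the stabiliser of the four-space on flags, lifts normalising the group compatibly with a
section, conjugation of root lifts by the extraspecial group, and the order of the normaliser from the
orbit of `z`.
-/

set_option autoImplicit false
set_option linter.unusedSectionVars false
set_option maxRecDepth 100000
set_option synthInstance.maxSize 1000
set_option maxHeartbeats 4000000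

namespace CfsgLib.ConwayType.Golay

open CfsgLib.ExtraspecialLarge CfsgLib.ConwayType

theorem wVec_single : ∀ (i : Bool) (j : Fin 4), wVec i (Pi.single j 1) = basV i j := by decide +kernel

theorem bl_dual_sum : ∀ (i : Bool) (μ w : Fin 4 → ZMod 2),
    bl (μ 0 • dualV i 0 + μ 1 • dualV i 1 + μ 2 • dualV i 2 + μ 3 • dualV i 3) (wVec i w) =
      w 0 * μ 0 + w 1 * μ 1 + w 2 * μ 2 + w 3 * μ 3 := by decide +kernel

theorem exists_separating : ∀ a b : Fin 4 → ZMod 2, a ≠ 0 → b ≠ 0 → a ≠ b →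
    ∃ μ : Fin 4 → ZMod 2, a 0 * μ 0 + a 1 * μ 1 + a 2 * μ 2 + a 3 * μ 3 = 1 ∧
      b 0 * μ 0 + b 1 * μ 1 + b 2 * μ 2 + b 3 * μ 3 = 0 := by decide +kernel

/-- An additive function on the space is pairing with a vector. -/
theorem exists_pairing (i : Bool) (κ : (Fin 4 → ZMod 2) → ZMod 2) (hκ : ∀ u v, κ (u + v) = κ u + κ v) :
    ∃ v : V, ∀ w, bl v (wVec i w) = κ w := by
  refine ⟨κ (Pi.single 0 1) • dualV i 0 + κ (Pi.single 1 1) • dualV i 1 + κ (Pi.single 2 1) • dualV i 2 +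
    κ (Pi.single 3 1) • dualV i 3, fun w => ?_⟩
  let f : (Fin 4 → ZMod 2) →+ ZMod 2 := AddMonoidHom.mk' κ hκ
  have hw : w = ∑ j, Pi.single j (w j) := (Finset.univ_sum_single w).symm
  have key : κ w = ∑ j, w j * κ (Pi.single j 1) := by
    show f w = _
    conv_lhs => rw [hw, map_sum]
    refine Finset.sum_congr rfl fun j _ => ?_
    rcases z2_cases (w j) with e | e <;> rw [e]
    · rw [Pi.single_zero, map_zero, zero_mul]
    · rw [one_mul]; rfl
  have h0 := bl_dual_sum i (fun k => κ (Pi.single k 1)) w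
  beta_reduce at h0
  rw [h0, key, Fin.sum_univ_four]

/-- Three independent vectors extend to a basis. -/
theorem exists_fourth (c : Fin 3 → Fin 4 → ZMod 2) (hc : ∀ d : Fin 3 → ZMod 2, ∑ j, d j • c j = 0 → d = 0) :
    ∃ c' : Fin 4 → Fin 4 → ZMod 2, (∀ j : Fin 3, c' (Fin.castSucc j) = c j) ∧
      ∀ d : Fin 4 → ZMod 2, ∑ j, d j • c' j = 0 → d = 0 := by
  classical
  obtain ⟨x, hx⟩ : ∃ x, ∀ d : Fin 3 → ZMod 2, ∑ j, d j • c j ≠ x := by
    by_contra h
    simp only [not_exists, not_forall, not_not] at h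
    have := Fintype.card_le_of_surjective (fun d : Fin 3 → ZMod 2 => ∑ j, d j • c j) h
    simp at this
  refine ⟨Fin.snoc c x, fun j => Fin.snoc_castSucc _ _ _, fun d hd => ?_⟩
  rw [Fin.sum_univ_castSucc] at hd
  simp only [Fin.snoc_castSucc, Fin.snoc_last] at hd
  rcases z2_cases (d (Fin.last 3)) with e | e <;> rw [e] at hd
  · rw [zero_smul, add_zero] at hd
    have h0 := hc _ hd
    funext j
    refine Fin.lastCases e (fun k => congrFun h0 k) j
  · rw [one_smul] at hd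
    refine absurd (?_ : ∑ j, d (Fin.castSucc j) • c j = x) (hx _)
    funext l
    exact CharTwo.add_eq_zero.1 (congrFun hd l)

section Half

variable {J : Subgroup O} (hJ : Half J)
include hJ

/-- The stabiliser is transitive on ordered bases of the space. -/
theorem exists_stab_basis (i : Bool) (c : Fin 4 → Fin 4 → ZMod 2)
    (hc : ∀ d : Fin 4 → ZMod 2, ∑ j, d j • c j = 0 → d = 0) :
    ∃ g ∈ stabW J i, ∀ j, ap g (basV i j) = wVec i (c j) := by
  let A : Matrix (Fin 4) (Fin 4) (ZMod 2) := Matrix.of fun l j => c j l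
  have hA : ∀ d, A.mulVec d = ∑ j, d j • c j := fun d => by
    funext l
    simp [A, Matrix.mulVec, dotProduct, Finset.sum_apply, mul_comm]
  have hdet : A.det = 1 := by
    refine (z2_cases _).resolve_left fun h0 => ?_
    obtain ⟨v, hv, hv0⟩ := Matrix.exists_mulVec_eq_zero_iff.2 h0
    exact hv (hc v (by rw [← hA]; exact hv0))
  obtain ⟨g, hg, hgw⟩ := exists_stab_map hJ i ⟨A, hdet⟩
  refine ⟨g, hg, fun j => ?_⟩
  rw [← wVec_single, hgw]
  congr 1
  funext l
  show A.mulVec (Pi.single j 1) l = c j l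
  rw [Matrix.mulVec_single_one]
  rfl

/-- The stabiliser is transitive on point, line, plane flags of the space. -/
theorem exists_stab_flag (i : Bool) (c : Fin 3 → Fin 4 → ZMod 2)
    (hc : ∀ d : Fin 3 → ZMod 2, ∑ j, d j • c j = 0 → d = 0) :
    ∃ g ∈ stabW J i, ∀ j : Fin 3, ap g (basV i (Fin.castSucc j)) = wVec i (c j) := by
  obtain ⟨c', h1, h2⟩ := exists_fourth c hc
  obtain ⟨g, hg, hgc⟩ := exists_stab_basis hJ i c' h2
  exact ⟨g, hg, fun j => by rw [hgc, h1]⟩

end Half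

variable {G : Type*} [Group G] [Finite G]
variable {z : G} {Qf : G → Subgroup G} {θ : G → V} {ρ : G → O} {J : Subgroup O} {y h : G}

section Setting

variable (S : Setting z Qf θ ρ J)
include S

theorem res_add {i : Bool} (g : ↥(stabW J i)) (u v : Fin 4 → ZMod 2) :
    res J i g (u + v) = res J i g u + res J i g v :=
  wVec_inj i _ _ (by rw [← res_spec, ← wVec_add, ← wVec_add, ap_add, res_spec, res_spec])

/-- A lift normalising the group and compatible with a section of the coordinates. -/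
theorem exists_lift_section {i : Bool} (Y : (Fin 4 → ZMod 2) → G) (hY : ∀ v, Y v ∈ Qf z)
    (hYθ : ∀ v, θ (Y v) = wVec i v) (hYadd : ∀ u v, Y (u + v) = Y u * Y v) (g : ↥(stabW J i)) :
    ∃ c, c * z = z * c ∧ ρ c = (g : O) ∧ c ∈ Subgroup.normalizer (AU z Qf θ (InW i) : Set G) ∧
      ∀ v, c * Y v * c⁻¹ = Y (res J i g v) := by
  obtain ⟨c₀, hc₀, hρ₀⟩ := S.ρ_surj (g : O) g.2.1
  have hθ : ∀ v, θ (c₀ * Y v * c₀⁻¹) = θ (Y (res J i g v)) := fun v => by
    rw [S.ρ_act c₀ hc₀ _ (hY v), hρ₀, hYθ, hYθ, res_spec]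
  have hex : ∀ v, ∃ t : ZMod 2, c₀ * Y v * c₀⁻¹ = zp z t * Y (res J i g v) := fun v => by
    rcases S.eq_or_of_θ (S.conj_mem_Q hc₀ (hY v)) (hY _) (hθ v) with e | e
    · exact ⟨0, by rw [zp_zero, one_mul]; exact e⟩
    · exact ⟨1, by rw [zp_one]; exact e⟩
  choose lam hlam using hex
  have hinj : ∀ {s t : ZMod 2}, zp z s = zp z t → s = t := by
    intro s t e
    rcases z2_cases s with rfl | rfl <;> rcases z2_cases t with rfl | rfl
    · rfl
    · exact absurd e.symm S.z_ne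
    · exact absurd e S.z_ne
    · rfl
  have hladd : ∀ u v, lam (u + v) = lam u + lam v := by
    intro u v
    have e := hlam (u + v)
    have hc : Commute (Y (res J i g u)) (zp z (lam v)) := zp_comm (S.comm_z (hY _)) _
    rw [hYadd, res_add S, hYadd, show c₀ * (Y u * Y v) * c₀⁻¹ = c₀ * Y u * c₀⁻¹ * (c₀ * Y v * c₀⁻¹) by group,
      hlam, hlam, hc.mul_mul_mul_comm, ← zp_add S.z_sq] at e
    exact (hinj (mul_right_cancel e)).symm
  have hres : Function.Bijective (res J i g) := (res J i g).bijective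
  let κ : (Fin 4 → ZMod 2) → ZMod 2 := fun w => lam ((res J i g).symm w)
  have hκ : ∀ u v, κ (u + v) = κ u + κ v := fun u v => by
    show lam _ = lam _ + lam _
    rw [← hladd]
    congr 1
    apply (res J i g).injective
    rw [res_add S, Equiv.apply_symm_apply, Equiv.apply_symm_apply, Equiv.apply_symm_apply]
  obtain ⟨v₀, hv₀⟩ := exists_pairing i κ hκ
  obtain ⟨r, hr, hθr⟩ := S.θ_surj v₀
  have hrz := S.comm_z hr
  have hρ : ρ (r * c₀) = (g : O) := by rw [S.ρ_mul hrz hc₀, S.ρ_of_mem hr, one_mul, hρ₀]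
  have hcz := comm_mul hrz hc₀
  refine ⟨r * c₀, hcz, hρ, (normalizer_iff S hcz).2 (hρ ▸ g.2), fun v => ?_⟩
  rw [show r * c₀ * Y v * (r * c₀)⁻¹ = r * (c₀ * Y v * c₀⁻¹) * r⁻¹ by group, hlam,
    show r * (zp z (lam v) * Y (res J i g v)) * r⁻¹ =
      (r * zp z (lam v) * r⁻¹) * (r * Y (res J i g v) * r⁻¹) by group,
    conj_fix_iff.2 (zp_comm hrz _), S.conj_eq hr (hY _), hθr, hYθ, hv₀, ← mul_assoc, ← zp_add S.z_sq]
  rw [show κ (res J i g v) = lam v by simp [κ], CharTwo.add_self_eq_zero, zp_zero, one_mul]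

/-- Conjugation of a root lift by an element of the extraspecial group. -/
theorem conj_root {i : Bool} {a b : V} (ha : InW i a) (hb : InW i b) (ha0 : a ≠ 0) (hb0 : b ≠ 0)
    (hab : a ≠ b) {ya yb t r : G} (R : IsRoot z Qf θ ρ a b ya t) (R' : IsRoot z Qf θ ρ b a yb t)
    (hr : r ∈ Qf z) :
    r * t * r⁻¹ = zp z (bl b (θ r) + bl a (θ r) + bl b (θ r) * bl a (θ r)) * zp ya (bl b (θ r)) *
      zp yb (bl a (θ r)) * t := by
  obtain ⟨ca, rfl⟩ := ha
  obtain ⟨cb, rfl⟩ := hb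
  have hz : ∀ {x}, x ∈ Qf z → ∀ s, Commute x (zp z s) := fun hx s => zp_comm (S.comm_z hx) s
  have h0 : ∀ {c : Fin 4 → ZMod 2}, wVec i c ≠ 0 → c ≠ 0 := fun h e => h (by rw [e]; simp [wVec])
  obtain ⟨μ, h1, h2⟩ := exists_separating ca cb (h0 ha0) (h0 hb0) fun e => hab (by rw [e])
  set v : V := μ 0 • dualV i 0 + μ 1 • dualV i 1 + μ 2 • dualV i 2 + μ 3 • dualV i 3
  have hva : bl v (wVec i ca) = 1 := by rw [bl_dual_sum]; exact h1
  have hvb : bl v (wVec i cb) = 0 := by rw [bl_dual_sum]; exact h2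
  set a := wVec i ca
  set b := wVec i cb
  set γ := bl a (θ r) with hγ
  set β := bl b (θ r) with hβ
  obtain ⟨r1, hr1, hθ1⟩ := S.θ_surj (γ • v)
  have hr' : r1⁻¹ * r ∈ Qf z := (Qf z).mul_mem ((Qf z).inv_mem hr1) hr
  have hθ' : θ (r1⁻¹ * r) = γ • v + θ r := by
    rw [S.θ_mul _ ((Qf z).inv_mem hr1) _ hr, S.θ_inv hr1, hθ1]
  have ha' : bl a (θ (r1⁻¹ * r)) = 0 := by
    rw [hθ', bl_add_right, bl_smul_right, bl_comm a v, hva, mul_one, ← hγ, CharTwo.add_self_eq_zero]
  have hb' : bl (θ (r1⁻¹ * r)) b = β := by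
    rw [hθ', bl_add_left, bl_smul_left, hvb, mul_zero, zero_add, bl_comm]
  have e1 := R.pairing _ hr' ha'
  rw [hb'] at e1
  have hb1 : bl b (θ r1) = 0 := by rw [hθ1, bl_smul_right, bl_comm, hvb, mul_zero]
  have ha1 : bl (θ r1) a = γ := by rw [hθ1, bl_smul_left, hva, mul_one]
  have e2 := R'.pairing _ hr1 hb1
  rw [ha1] at e2
  have hyaz : Commute ya z := S.comm_z R.memQ
  have hinv : ∀ {x : G}, x * x = 1 → Commute x z → ∀ s, (zp z s * zp x s)⁻¹ = zp z s * zp x s := by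
    intro x hx hxz s
    refine inv_eq_of_mul_eq_one_right ?_
    rcases z2_cases s with rfl | rfl
    · simp
    · rw [zp_one, zp_one, hxz.mul_mul_mul_comm, S.z_sq, hx, one_mul]
  have hmove : ∀ {x P : G}, t * x * t⁻¹ * x⁻¹ = P → x * t * x⁻¹ = P⁻¹ * t := by
    intro x P e
    rw [← e]; group
  have c1 := hmove e1
  have c2 := hmove e2
  rw [hinv R.good.sq_u hyaz] at c1
  rw [hinv R'.good.sq_u (S.comm_z R'.memQ)] at c2
  have hya : r1 * zp ya β * r1⁻¹ = zp z (γ * β) * zp ya β := by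
    rcases z2_cases β with e | e <;> rw [e]
    · simp
    · rw [zp_one, mul_one, S.conj_eq hr1 R.memQ, R.θy, ha1]
  rw [show r * t * r⁻¹ = r1 * ((r1⁻¹ * r) * t * (r1⁻¹ * r)⁻¹) * r1⁻¹ by group, c1,
    show r1 * (zp z β * zp ya β * t) * r1⁻¹ = (r1 * zp z β * r1⁻¹) * (r1 * zp ya β * r1⁻¹) * (r1 * t * r1⁻¹) by
      group, conj_fix_iff.2 (hz hr1 β), hya, c2]
  have hc : Commute (zp ya β) (zp z γ) := hz (zp_mem R.memQ β) γ
  calc zp z β * (zp z (γ * β) * zp ya β) * (zp z γ * zp yb γ * t)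
      = zp z β * zp z (γ * β) * (zp ya β * zp z γ) * zp yb γ * t := by group
    _ = zp z β * zp z (γ * β) * zp z γ * zp ya β * zp yb γ * t := by rw [hc.eq]; group
    _ = _ := by
      rw [← zp_add S.z_sq, ← zp_add S.z_sq]
      congr 4
      ring

/-- The order of the normaliser from the orbit of `z`. -/
theorem card_normalizer_of_orbit {i : Bool} (n : ℕ)
    (hn : {x : G | ∃ g ∈ Subgroup.normalizer (AU z Qf θ (InW i) : Set G), g * z * g⁻¹ = x}.ncard = n) :
    Nat.card ↥(Subgroup.normalizer (AU z Qf θ (InW i) : Set G)) = n * (512 * (64 * 20160)) := by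
  classical
  set N := Subgroup.normalizer (AU z Qf θ (InW i) : Set G) with hN
  set H := N ⊓ Subgroup.centralizer ({z} : Set G) with hH
  have hmem : ∀ g g' : ↥N, (g : G) * z * (g : G)⁻¹ = g' * z * (g' : G)⁻¹ ↔ g⁻¹ * g' ∈ H.subgroupOf N := by
    intro g g'
    rw [Subgroup.mem_subgroupOf, hH, Subgroup.mem_inf, Subgroup.mem_centralizer_singleton_iff]
    constructor
    · intro e
      refine ⟨(g⁻¹ * g').2, ?_⟩
      calc ((g⁻¹ * g' : ↥N) : G) * z = (g : G)⁻¹ * (g' * z * (g' : G)⁻¹) * g' := by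
            rw [Subgroup.coe_mul, Subgroup.coe_inv]; group
        _ = (g : G)⁻¹ * (g * z * (g : G)⁻¹) * g' := by rw [e]
        _ = _ := by rw [Subgroup.coe_mul, Subgroup.coe_inv]; group
    · rintro ⟨-, e⟩
      rw [Subgroup.coe_mul, Subgroup.coe_inv] at e
      calc (g : G) * z * (g : G)⁻¹ = g * (z * ((g : G)⁻¹ * g')) * (g' : G)⁻¹ := by group
        _ = g * ((g : G)⁻¹ * g' * z) * (g' : G)⁻¹ := by rw [e]
        _ = _ := by group
  have hidx : (H.subgroupOf N).index = n := by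
    rw [← hn, ← Nat.card_coe_set_eq]
    refine Nat.card_eq_of_bijective (Quotient.lift
      (fun g : ↥N => (⟨(g : G) * z * (g : G)⁻¹, g, g.2, rfl⟩ :
        ↥{x : G | ∃ g ∈ N, g * z * g⁻¹ = x}))
      fun g g' e => Subtype.ext ((hmem g g').2 (QuotientGroup.leftRel_apply.1 e))) ⟨?_, ?_⟩
    · rintro ⟨g⟩ ⟨g'⟩ e
      exact Quotient.sound (QuotientGroup.leftRel_apply.2 ((hmem g g').1 (congrArg Subtype.val e)))
    · rintro ⟨_, g, hg, rfl⟩
      exact ⟨Quotient.mk _ ⟨g, hg⟩, rfl⟩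
  have := Subgroup.index_mul_card (H.subgroupOf N)
  rw [hidx, Nat.card_congr (Subgroup.subgroupOfEquivOfLe (inf_le_left : H ≤ N)).toEquiv,
    card_normalizer_inf S i, S.card_Q] at this
  exact this.symm

/-- The order of the quotient when the orbit has `759` members. -/
theorem card_quotient_of_orbit {i : Bool} (hA : Nat.card ↥(AU z Qf θ (InW i)) = 2 ^ 11)
    (hn : {x : G | ∃ g ∈ Subgroup.normalizer (AU z Qf θ (InW i) : Set G), g * z * g⁻¹ = x}.ncard = 759) :
    Nat.card (↥(Subgroup.normalizer (AU z Qf θ (InW i) : Set G)) ⧸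
      (AU z Qf θ (InW i)).subgroupOf (Subgroup.normalizer (AU z Qf θ (InW i) : Set G))) = 244823040 := by
  have h1 := card_normalizer_of_orbit S 759 hn
  rw [Subgroup.card_eq_card_quotient_mul_card_subgroup
    ((AU z Qf θ (InW i)).subgroupOf (Subgroup.normalizer (AU z Qf θ (InW i) : Set G))),
    Nat.card_congr (Subgroup.subgroupOfEquivOfLe Subgroup.le_normalizer).toEquiv, hA] at h1
  omega

end Setting

variable (P : PairSetting z Qf θ ρ J y h)
include P

/-- A multiplicative section of the coordinates with value `y` at `eV`. -/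
theorem exists_section (i : Bool) : ∃ Y : (Fin 4 → ZMod 2) → G, (∀ v, Y v ∈ Qf z) ∧
    (∀ v, θ (Y v) = wVec i v) ∧ (∀ u v, Y (u + v) = Y u * Y v) ∧ Y (Pi.single 0 1) = y := by
  choose L₀ hL₀ hLθ₀ using fun j : Fin 4 => P.θ_surj (basV i j)
  let L : Fin 4 → G := fun j => if j = 0 then y else L₀ j
  have hL : ∀ j, L j ∈ Qf z := fun j => by
    by_cases hj : j = 0
    · simp only [L, hj, if_true]; exact P.y_mem
    · simp only [L, hj, if_false]; exact hL₀ j
  have hLθ : ∀ j, θ (L j) = basV i j := fun j => by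
    by_cases hj : j = 0
    · subst hj; simp only [L, if_true]; rw [P.θy]; rfl
    · simp only [L, hj, if_false]; exact hLθ₀ j
  have hsq : ∀ j, L j * L j = 1 := fun j => (P.θ_sq _ (hL j)).2 (by rw [hLθ]; exact (basV_spec i j).1)
  have hbl : ∀ (i : Bool) (j k : Fin 4), bl (basV i j) (basV i k) = 0 := by decide +kernel
  have hc : ∀ j k s t, Commute (zp (L j) s) (zp (L k) t) := fun j k s t =>
    zp_comm (zp_comm (P.toSetting.comm_of_bl (hL k) (hL j) (by rw [hLθ, hLθ]; exact hbl i k j)) s).symm t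
  refine ⟨fun v => zp (L 0) (v 0) * zp (L 1) (v 1) * zp (L 2) (v 2) * zp (L 3) (v 3), fun v => ?_,
    fun v => ?_, fun u v => ?_, ?_⟩
  · exact (Qf z).mul_mem ((Qf z).mul_mem ((Qf z).mul_mem (zp_mem (hL 0) _) (zp_mem (hL 1) _))
      (zp_mem (hL 2) _)) (zp_mem (hL 3) _)
  · have hz : ∀ j t, θ (zp (L j) t) = t • basV i j := fun j t => by
      rcases z2_cases t with rfl | rfl
      · rw [zp_zero, P.toSetting.θ_one, zero_smul]
      · rw [zp_one, one_smul, hLθ]
    show θ (_ * _ * _ * _) = _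
    rw [P.θ_mul _ ((Qf z).mul_mem ((Qf z).mul_mem (zp_mem (hL 0) _) (zp_mem (hL 1) _)) (zp_mem (hL 2) _)) _
      (zp_mem (hL 3) _), P.θ_mul _ ((Qf z).mul_mem (zp_mem (hL 0) _) (zp_mem (hL 1) _)) _ (zp_mem (hL 2) _),
      P.θ_mul _ (zp_mem (hL 0) _) _ (zp_mem (hL 1) _), hz, hz, hz, hz]
    rfl
  · simp only [Pi.add_apply, zp_add (hsq _)]
    rw [(hc 0 1 _ _).mul_mul_mul_comm, ((hc 0 2 _ _).mul_left (hc 1 2 _ _)).mul_mul_mul_comm,
      (((hc 0 3 _ _).mul_left (hc 1 3 _ _)).mul_left (hc 2 3 _ _)).mul_mul_mul_comm]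
  · simp [L]

end CfsgLib.ConwayType.Golay
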