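import Cfsg.Agent.Lib.ConwayType.Golay.Incidence
import Cfsg.Agent.Lib.ConwayType.Golay.Flags

/-!
The exchanging element can be chosen to normalise the elementary abelian group over the first standard
four-space and to act as the identity on the three-dimensional middle part of that space.
-/

set_option autoImplicit false
set_option linter.unusedSectionVars false
set_option maxRecDepth 100000
set_option synthInstance.maxSize 1000
set_option maxHeartbeats 4000000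

namespace CfsgLib.ConwayType.Golay

open CfsgLib.ExtraspecialLarge CfsgLib.ConwayType

theorem line_perp_check : ∀ m : V, Mid m → bl m e2V = 0 → bl m e3V = 0 → bl m e4V = 0 → bl m f4V = 0 →
    ∃ u v : ZMod 2, m = u • e2V + v • e3V := by
  rw [forall_mid]; decide +kernel

theorem wVec_mid : ∀ (i : Bool) (c : Fin 4 → ZMod 2),
    md (wVec i c) = c 1 • e2V + c 2 • e3V + c 3 • xV i := by decide +kernel

theorem wVec_split : ∀ (i : Bool) (s t r : ZMod 2),
    s • e2V + t • e3V + r • xV i = wVec i ![0, s, t, r] := by decide +kernel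

variable {G : Type*} [Group G] [Finite G]
variable {z : G} {Qf : G → Subgroup G} {θ : G → V} {ρ : G → O} {J : Subgroup O} {y h : G}

/-- The map between the middle parts induced by the exchanging element. -/
structure Phi (z : G) (Qf : G → Subgroup G) (θ : G → V) (ρ : G → O) (y h : G) (φ ψ : V → V) : Prop where
  mid : ∀ v, Mid v → Mid (φ v) ∧ Mid (ψ v) ∧ φ (ψ v) = v ∧ ψ (φ v) = v
  add : ∀ u v, Mid u → Mid v → φ (u + v) = φ u + φ v
  q_eq : ∀ v, Mid v → q (φ v) = q v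
  bl_eq : ∀ u v, Mid u → Mid v → bl (φ u) (φ v) = bl u v
  toW : ∀ x, inW z Qf y x → wS ρ (h * x * h⁻¹) = φ (md (θ x))
  toZ : ∀ s, inWy z Qf y s → md (θ (h * s * h⁻¹)) = φ (wS ρ s)

theorem Phi.zero {φ ψ : V → V} (F : Phi z Qf θ ρ y h φ ψ) : φ 0 = 0 := by
  have := F.add 0 0 mid_zero mid_zero
  rwa [add_zero, left_eq_add] at this

theorem Phi.smul {φ ψ : V → V} (F : Phi z Qf θ ρ y h φ ψ) (c : ZMod 2) {v : V} (hv : Mid v) :
    Mid (c • v) ∧ φ (c • v) = c • φ v := by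
  rcases z2_cases c with rfl | rfl
  · rw [zero_smul, zero_smul]; exact ⟨mid_zero, F.zero⟩
  · rw [one_smul, one_smul]; exact ⟨hv, rfl⟩

theorem Phi.eq_of {φ ψ : V → V} (F : Phi z Qf θ ρ y h φ ψ) {u v : V} (hu : Mid u) (hv : Mid v)
    (e : φ u = φ v) : u = v := by rw [← (F.mid u hu).2.2.2, e, (F.mid v hv).2.2.2]

variable (P : PairSetting z Qf θ ρ J y h)
include P

theorem exists_phi : ∃ φ ψ, Phi z Qf θ ρ y h φ ψ := by
  obtain ⟨A, B, hAB, hadd, hA⟩ := P.exists_A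
  have hq : ∀ v, Mid v → q (A v) = q v := by
    intro v hv
    obtain ⟨x, hx, rfl⟩ := P.exists_W v hv
    have e := P.sq_wS (P.W_to_Wy hx)
    rw [hA x hx, P.sq_h hx, md_of_mid hv] at e
    exact (P.zp_y_inj e).symm
  have hb : ∀ u v, Mid u → Mid v → bl (A u) (A v) = bl u v := by
    intro u v hu hv
    have e := hq _ (hu.add hv)
    rw [(hadd u v hu hv).1, q_add, q_add, hq u hu, hq v hv] at e
    exact add_left_cancel e
  refine ⟨A, B, hAB, fun u v hu hv => (hadd u v hu hv).1, hq, hb, hA, fun s hs => ?_⟩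
  obtain ⟨hw, -⟩ := P.wS_spec hs
  have hx' := P.Wy_to_W hs
  have hm : Mid (md (θ (h * s * h⁻¹))) := mid_md ((P.W_iff hx'.1).1 hx')
  refine vadd_eq_zero.1 (mid_nondeg _ (hm.add (hAB _ hw).1) fun v hv => ?_)
  have hBv := (hAB v hv).2.1
  obtain ⟨x, hx, hθx⟩ := P.exists_W _ hBv
  have hws : wS ρ (h * x * h⁻¹) = v := by
    rw [hA x hx, hθx, md_of_mid hBv, (hAB v hv).2.2.1]
  have hs' := P.W_to_Wy hx
  have e1 := P.comm_eq hs hx
  have e2 := P.comm_eq hs' hx'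
  set c := bl (θ x) (wS ρ s)
  set c' := bl (θ (h * s * h⁻¹)) (wS ρ (h * x * h⁻¹))
  have e3 : h * x * h⁻¹ * (h * s * h⁻¹) * (h * x * h⁻¹)⁻¹ * (h * s * h⁻¹)⁻¹ =
      (zp y c * zp z c)⁻¹ := by
    have hz : h * zp z c * h⁻¹ = zp y c := by
      rcases z2_cases c with a | a <;> rw [a]
      · simp
      · exact P.hz
    have hy' : h * zp y c * h⁻¹ = zp z c := by
      rcases z2_cases c with a | a <;> rw [a]
      · simp
      · exact P.hy
    calc h * x * h⁻¹ * (h * s * h⁻¹) * (h * x * h⁻¹)⁻¹ * (h * s * h⁻¹)⁻¹ =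
        (h * (s * x * s⁻¹ * x⁻¹) * h⁻¹)⁻¹ := by group
      _ = ((h * zp z c * h⁻¹) * (h * zp y c * h⁻¹))⁻¹ := by rw [e1]; group
      _ = _ := by rw [hz, hy']
  rw [e2] at e3
  have e4 := congrArg θ e3
  rw [P.θ_zp_mul, P.toSetting.θ_inv ((Qf z).mul_mem (zp_mem P.y_mem _) (zp_mem P.toSetting.z_mem _)),
    P.θ_mul _ (zp_mem P.y_mem _) _ (zp_mem P.toSetting.z_mem _)] at e4
  have hcc : c' = c := by
    have h5 := congrFun e4 (.inl 0)
    rcases z2_cases c with a | a <;> rw [a] at h5 ⊢ <;>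
      simpa [P.toSetting.θ_one, P.toSetting.θ_z, P.θy, eV, vec] using h5
  have h6 : bl (md (θ (h * s * h⁻¹))) v = c := by
    rw [bl_md_left hv.bl_eV, ← hws]; exact hcc
  have h7 : bl (A (wS ρ s)) v = c := by
    conv_lhs => rw [← (hAB v hv).2.2.1]
    rw [hb _ _ hw hBv, bl_comm]
    show bl (B v) (wS ρ s) = bl (θ x) (wS ρ s)
    rw [hθx]
  rw [bl_add_left, h6, h7, CharTwo.add_self_eq_zero]

/-- A further exchanging element. -/
theorem pair_mul {c : G} (hcz : c * z = z * c) (hcy : c * y = y * c) :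
    PairSetting z Qf θ ρ J y (c * h) where
  toSetting := P.toSetting
  y_mem := P.y_mem
  θy := P.θy
  hz := by
    calc c * h * z * (c * h)⁻¹ = c * (h * z * h⁻¹) * c⁻¹ := by group
      _ = y := by rw [P.hz, conj_fix_iff.2 hcy]
  hy := by
    calc c * h * y * (c * h)⁻¹ = c * (h * y * h⁻¹) * c⁻¹ := by group
      _ = z := by rw [P.hy, conj_fix_iff.2 hcz]

theorem phi_mul {φ ψ : V → V} (F : Phi z Qf θ ρ y h φ ψ) {c : G} (hcz : c * z = z * c)
    (hcy : c * y = y * c) :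
    Phi z Qf θ ρ y (c * h) (fun v => md (ap (ρ c) (φ v))) (fun v => ψ (md (ap (ρ c)⁻¹ v))) := by
  have hge := P.ρy hcz hcy
  have hgi : ap (ρ c)⁻¹ eV = eV := by conv_lhs => rw [← hge]; rw [ap_inv_ap]
  refine ⟨fun v hv => ?_, fun u v hu hv => ?_, fun v hv => ?_, fun u v hu hv => ?_, fun x hx => ?_,
    fun s hs => ?_⟩
  · have h1 : Mid (md (ap (ρ c) (φ v))) := mid_md (bl_eV_ap hge (F.mid v hv).1.bl_eV)
    have h2 : Mid (md (ap (ρ c)⁻¹ v)) := mid_md (bl_eV_ap hgi hv.bl_eV)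
    refine ⟨h1, (F.mid _ h2).2.1, ?_, ?_⟩
    · beta_reduce
      rw [(F.mid _ h2).2.2.1, md_ap hge, ap_ap_inv, md_of_mid hv]
    · beta_reduce
      rw [md_ap hgi, ap_inv_ap, md_of_mid (F.mid v hv).1, (F.mid v hv).2.2.2]
  · beta_reduce
    rw [F.add u v hu hv, ap_add, md_add]
  · beta_reduce
    rw [q_md (bl_eV_ap hge (F.mid v hv).1.bl_eV), q_ap, F.q_eq v hv]
  · beta_reduce
    rw [bl_md_md (bl_eV_ap hge (F.mid u hu).1.bl_eV) (bl_eV_ap hge (F.mid v hv).1.bl_eV), bl_ap,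
      F.bl_eq u v hu hv]
  · have hs := P.W_to_Wy hx
    rw [show c * h * x * (c * h)⁻¹ = c * (h * x * h⁻¹) * c⁻¹ by group, (P.wS_conj hcz hcy hs).2,
      F.toW x hx]
  · have hx := P.Wy_to_W hs
    rw [show c * h * s * (c * h)⁻¹ = c * (h * s * h⁻¹) * c⁻¹ by group, P.ρ_act c hcz _ hx.1,
      ← md_ap hge, F.toZ s hs]

/-- An element acting trivially on the middle part does not change the map. -/
theorem phi_congr {φ ψ φ' ψ' : V → V} (F : Phi z Qf θ ρ y h φ ψ)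
    (h1 : ∀ v, Mid v → φ' v = φ v) (h2 : ∀ v, Mid v → ψ' v = ψ v) : Phi z Qf θ ρ y h φ' ψ' where
  mid v hv := by
    obtain ⟨a, b, c, d⟩ := F.mid v hv
    rw [h1 v hv, h2 v hv, h1 _ b, h2 _ a]
    exact ⟨a, b, c, d⟩
  add u v hu hv := by rw [h1 u hu, h1 v hv, h1 _ (hu.add hv)]; exact F.add u v hu hv
  q_eq v hv := by rw [h1 v hv]; exact F.q_eq v hv
  bl_eq u v hu hv := by rw [h1 u hu, h1 v hv]; exact F.bl_eq u v hu hv
  toW x hx := by rw [h1 _ (mid_md ((P.W_iff hx.1).1 hx))]; exact F.toW x hx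
  toZ s hs := by rw [h1 _ (P.wS_spec hs).1]; exact F.toZ s hs

/-- A root lift at orthogonal vectors lies in the centraliser. -/
theorem root_mem_AU {i : Bool} {a b : V} {y₂ s : G} (R : IsRoot z Qf θ ρ a b y₂ s)
    (ha : ∀ v, InW i v → bl a v = 0) (hb : ∀ v, InW i v → bl b v = 0) : s ∈ AU z Qf θ (InW i) :=
  mem_AU.2 fun x hx hU => by
    have e := R.pairing x hx (ha _ hU)
    rw [bl_comm, hb _ hU, zp_zero, zp_zero, mul_one, mul_inv_eq_one] at e
    exact (mul_inv_eq_iff_eq_mul.1 e).symm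

theorem inWy_mem_AU {i : Bool} {s : G} (hs : inWy z Qf y s) (hw : InW i (wS ρ s)) :
    s ∈ AU z Qf θ (InW i) := mem_AU.2 fun x hx hU => by
  have hxW : inW z Qf y x := (P.W_iff hx).2 ((basis_mem i).1.perp hU)
  have e := P.comm_eq hs hxW
  rw [hU.perp hw, zp_zero, zp_zero, mul_one, mul_inv_eq_one] at e
  exact (mul_inv_eq_iff_eq_mul.1 e).symm

theorem comm_y_of_mem {i : Bool} {a : G} (ha : a ∈ AU z Qf θ (InW i)) : a * y = y * a :=
  (mem_AU.1 ha y P.y_mem (by rw [P.θy]; exact (basis_mem i).1)).symm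

/-- The transferred image of a lift of a root map. -/
theorem transfer {φ ψ : V → V} (F : Phi z Qf θ ρ y h φ ψ) {a b : V} (ha : Mid a) (hb : Mid b)
    (hqa : q a = 0) (hqb : q b = 0) (hab : bl a b = 0) {s : G} (hsz : s * z = z * s) (hsy : s * y = y * s)
    (hρ : ρ s = T a b hqa hab) :
    (h * s * h⁻¹) * z = z * (h * s * h⁻¹) ∧
    ∃ (m : V) (hm : Mid m) (hφ : bl eV (φ m) = 0) (hq' : q (φ a) = 0) (hb' : bl (φ a) (φ b) = 0),
      ρ (h * s * h⁻¹) = Te (φ m) hφ * T (φ a) (φ b) hq' hb' ∧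
      ∀ τ, inWy z Qf y τ → Commute s τ → bl a (wS ρ τ) = 0 → bl b (wS ρ τ) = 0 → bl m (wS ρ τ) = 0 := by
  set K := h * s * h⁻¹ with hK
  have hKz : K * z = z * K := PairSetting.conj_comm (g := h) rfl P.hy hsy
  have hKy : K * y = y * K := PairSetting.conj_comm (g := h) rfl P.hz hsz
  have hKe : ap (ρ K) eV = eV := P.ρy hKz hKy
  have hφa := (F.mid a ha).1
  have hφb := (F.mid b hb).1
  have hq' : q (φ a) = 0 := by rw [F.q_eq a ha, hqa]
  have hqb' : q (φ b) = 0 := by rw [F.q_eq b hb, hqb]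
  have hb' : bl (φ a) (φ b) = 0 := by rw [F.bl_eq a b ha hb, hab]
  have hr : ∀ v, Mid v → Mid (sgf a b v) ∧ md (sgf (φ a) (φ b) (φ v)) = φ (sgf a b v) ∧
      sgf a b (sgf a b v) = v := by
    intro v hv
    have h1 := F.smul (bl v a) hb
    have h2 := F.smul (bl v b) ha
    have e : sgf a b v = v + bl v a • b + bl v b • a := by
      rw [sgf_eq, hqb, zero_mul, add_zero]
    refine ⟨by rw [e]; exact (hv.add h1.1).add h2.1, ?_, ?_⟩
    · rw [e, F.add _ _ (hv.add h1.1) h2.1, F.add _ _ hv h1.1, h1.2, h2.2, sgf_eq, hqb', zero_mul, add_zero,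
        F.bl_eq _ _ hv ha, F.bl_eq _ _ hv hb, md_add, md_add, md_smul, md_smul, md_of_mid (F.mid v hv).1,
        md_of_mid hφa, md_of_mid hφb]
    · rw [← ap_T a b hqa hab, ← ap_T a b hqa hab, ← ap_mul, T_mul_self, ap_one]
  have hG : ∀ v, Mid v → md (ap (ρ K) (φ v)) = φ (sgf a b v) := by
    intro v hv
    obtain ⟨τ, hτ, rfl⟩ := P.exists_Wy hv
    obtain ⟨hτ', hτw⟩ := P.wS_conj hsz hsy hτ
    rw [hρ, ap_T, md_of_mid (hr _ hv).1] at hτw
    have hx := P.Wy_to_W hτ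
    rw [← hτw, ← F.toZ _ hτ', ← F.toZ _ hτ, md_ap hKe, ← P.ρ_act K hKz _ hx.1]
    congr 2
    rw [hK]; group
  set R' := T (φ a) (φ b) hq' hb' with hR'
  have hR'e : ap R' eV = eV := by
    simp only [hR', ap_T, sgf_eq, hφa.bl_eV, hφb.bl_eV, zero_smul, mul_zero, add_zero]
  obtain ⟨w, hw, hwM, hX, -⟩ := eq_Te (g := ρ K * R') (by rw [ap_mul, hR'e, hKe]) fun v hv => by
    obtain ⟨u, hu, rfl⟩ : ∃ u, Mid u ∧ φ u = v := ⟨ψ v, (F.mid v hv).2.1, (F.mid v hv).2.2.1⟩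
    rw [ap_mul, ← md_ap hKe, hR', ap_T, (hr u hu).2.1, hG _ (hr u hu).1, (hr u hu).2.2]
  obtain ⟨m, hm, rfl⟩ : ∃ m, Mid m ∧ φ m = w := ⟨ψ w, (F.mid w hwM).2.1, (F.mid w hwM).2.2.1⟩
  have hρK : ρ K = Te (φ m) hw * R' := by rw [← hX, hR', mul_assoc, T_mul_self, mul_one]
  refine ⟨hKz, m, hm, hw, hq', hb', hρK, fun τ hτ hc ha1 hb1 => ?_⟩
  have hM := (P.wS_spec hτ).1
  have hx := P.Wy_to_W hτ
  have hbx := (P.W_iff hx.1).1 hx
  have e1 : ap (ρ K) (θ (h * τ * h⁻¹)) = θ (h * τ * h⁻¹) := by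
    rw [← P.ρ_act K hKz _ hx.1]
    congr 1
    calc K * (h * τ * h⁻¹) * K⁻¹ = h * (s * τ * s⁻¹) * h⁻¹ := by rw [hK]; group
      _ = _ := by rw [hc.eq, mul_inv_cancel_right]
  have h1 : bl (θ (h * τ * h⁻¹)) (φ a) = 0 := by
    rw [← bl_md_left hφa.bl_eV, F.toZ τ hτ, F.bl_eq _ _ hM ha, bl_comm, ha1]
  have h2 : bl (θ (h * τ * h⁻¹)) (φ b) = 0 := by
    rw [← bl_md_left hφb.bl_eV, F.toZ τ hτ, F.bl_eq _ _ hM hb, bl_comm, hb1]
  rw [hρK, ap_mul, show ap R' (θ (h * τ * h⁻¹)) = θ (h * τ * h⁻¹) by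
    simp only [hR', ap_T, sgf_eq, h1, h2, zero_smul, mul_zero, add_zero],
    Te, ap_T, sgf_eq, bl_comm (θ _) eV, hbx, zero_smul, mul_zero, add_zero, add_zero, add_eq_left] at e1
  rw [← F.bl_eq _ _ hm hM, bl_comm, ← F.toZ τ hτ, bl_md_left hw]
  rcases z2_cases (bl (θ (h * τ * h⁻¹)) (φ m)) with a1 | a1
  · exact a1
  · rw [a1, one_smul] at e1; exact absurd e1 (by decide)

omit [Finite G] P in
/-- The property of the exchanging element that separates the two families. -/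
def Quad (z : G) (Qf : G → Subgroup G) (θ : G → V) (ρ : G → O) (h : G) (φ : V → V) : Prop :=
  ∀ t, t ∈ AU z Qf θ (InW true) → t ∈ AU z Qf θ (InW false) →
    ρ t = T e2V e3V q_e2V (by decide) → ∀ (u v : ZMod 2) (hl : bl eV (u • φ e2V + v • φ e3V) = 0)
      (hq : q (φ e2V) = 0) (hb : bl (φ e2V) (φ e3V) = 0),
      ρ (h * t * h⁻¹) ≠ Te (u • φ e2V + v • φ e3V) hl * T (φ e2V) (φ e3V) hq hb

/-- At most one of the two spaces is good. -/
theorem not_both {φ ψ : V → V} (F : Phi z Qf θ ρ y h φ ψ) (hquad : Quad z Qf θ ρ h φ)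
    (hT : IsMulCommutative ↥(AU z Qf θ (InW true))) (hF : IsMulCommutative ↥(AU z Qf θ (InW false))) :
    False := by
  obtain ⟨y₂, s, R⟩ := P.exists_root (a := e2V) (p := e3V) q_e2V (by decide) (by decide)
  have hmem : ∀ i, s ∈ AU z Qf θ (InW i) := fun i =>
    root_mem_AU P R (fun v hv => (basis_mem i).2.1.perp hv) (fun v hv => (basis_mem i).2.2.1.perp hv)
  have hρ : ρ s = T e2V e3V q_e2V (by decide) := CfsgLib.ClassicalForms.orth_ext fun x => by
    change ap (ρ s) x = ap (T _ _ _ _) x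
    rw [R.act, ap_T]
  obtain ⟨-, m, hm, hφm, hq', hb', hK, hfix⟩ := transfer P F mid_e2V mid_e3V q_e2V q_e3V (by decide)
    R.comm (comm_y_of_mem P (hmem true)) hρ
  have hcom : ∀ i, IsMulCommutative ↥(AU z Qf θ (InW i)) := fun i => by
    cases i
    · exact hF
    · exact hT
  have key : ∀ (i : Bool) (w : V), Mid w → InW i w → bl e2V w = 0 → bl e3V w = 0 → bl m w = 0 := by
    intro i w hw hwW h2 h3
    obtain ⟨τ, hτ, hτw⟩ := P.exists_Wy hw
    have hτA := inWy_mem_AU P hτ (i := i) (by rw [hτw]; exact hwW)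
    have hc : Commute s τ := congrArg Subtype.val
      ((hcom i).is_comm.comm (⟨s, hmem i⟩ : ↥(AU z Qf θ (InW i))) ⟨τ, hτA⟩)
    have := hfix τ hτ hc (by rw [hτw]; exact h2) (by rw [hτw]; exact h3)
    rwa [hτw] at this
  obtain ⟨u, v, hm'⟩ := line_perp_check m hm
    (key true _ mid_e2V (basis_mem true).2.1 (by decide) (by decide))
    (key true _ mid_e3V (basis_mem true).2.2.1 (by decide) (by decide))
    (key true _ mid_e4V (basis_mem true).2.2.2 (by decide) (by decide))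
    (key false _ mid_f4V (basis_mem false).2.2.2 (by decide) (by decide))
  have hφ : φ m = u • φ e2V + v • φ e3V := by
    rw [hm', F.add _ _ (F.smul u mid_e2V).1 (F.smul v mid_e3V).1, (F.smul u mid_e2V).2, (F.smul v mid_e3V).2]
  refine hquad s (hmem true) (hmem false) hρ u v (hφ ▸ hφm) hq' hb' ?_
  rw [hK, Te_congr hφ hφm (hφ ▸ hφm)]

omit [Finite G] P in
/-- Three independent orthogonal singular vectors of the middle part have a standard position. -/
theorem exists_std (hJ : Half J) {a b c : V} (T' : Triple a b c) :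
    ∃ (i : Bool) (g : O), g ∈ J ∧ ap g eV = eV ∧ md (ap g a) = e2V ∧ md (ap g b) = e3V ∧
      md (ap g c) = xV i := by
  obtain ⟨p, hp, hpe⟩ := orbit_sing a T'.ha T'.a0 T'.qa
  obtain ⟨g₁, hg₁, hge₁, hgx₁⟩ := hJ.exists_stab hp
  have hgi : ap g₁⁻¹ eV = eV := by conv_lhs => rw [← hge₁]; rw [ap_inv_ap]
  have hma : md (ap g₁⁻¹ a) = e2V := by
    rw [← hpe, ← hgx₁, md_ap hgi, ap_inv_ap, md_of_mid mid_e2V]
  have hbe : bl eV (ap g₁⁻¹ b) = 0 := bl_eV_ap hgi T'.hb.bl_eV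
  have hae : bl eV (ap g₁⁻¹ a) = 0 := bl_eV_ap hgi T'.ha.bl_eV
  have hxb : bl (md (ap g₁⁻¹ b)) e2V = 0 := by rw [← hma, bl_md_md hbe hae, bl_ap, bl_comm, T'.ab]
  have hxq : q (md (ap g₁⁻¹ b)) = 0 := by rw [q_md hbe, q_ap, T'.qb]
  have hne : ∀ u v : V, Mid u → Mid v → md (ap g₁⁻¹ u) = md (ap g₁⁻¹ v) → u = v := by
    intro u v hu hv e
    have h1 := congrArg (fun w => md (ap g₁ w)) e
    simp only [md_ap hge₁, ap_ap_inv, md_of_mid hu, md_of_mid hv] at h1
    exact h1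
  rcases line_class _ (mid_md hbe) hxb hxq with h0 | h0 | ⟨p', hp', h2, h3⟩
  · exfalso
    rw [show (0 : V) = md (ap g₁⁻¹ 0) by rw [ap_zero, md_zero]] at h0
    have hb0 := hne _ _ T'.hb mid_zero h0
    have := T'.indep 1 0 0 (by rw [hb0, one_smul, zero_smul, zero_smul, add_zero])
    exact one_ne_zero this.1
  · exfalso
    rw [← hma] at h0
    have hb0 := hne _ _ T'.hb T'.ha h0
    have := T'.indep 1 1 0 (by rw [hb0, one_smul, zero_smul, vadd_self])
    exact one_ne_zero this.1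
  obtain ⟨g₂, hg₂, hge₂, hgx₂⟩ := hJ.exists_stab hp'
  rw [← hgx₂] at h2 h3
  set g := g₂ * g₁⁻¹ with hg_def
  have hg : g ∈ J := J.mul_mem hg₂ (J.inv_mem hg₁)
  have hge : ap g eV = eV := by rw [hg_def, ap_mul, hgi, hge₂]
  have hga : md (ap g a) = e2V := by rw [hg_def, ap_mul, ← md_ap hge₂, hma]; exact h2
  have hgb : md (ap g b) = e3V := by rw [hg_def, ap_mul, ← md_ap hge₂]; exact h3
  have hec := bl_eV_ap hge T'.hc.bl_eV
  have hgi' : ap g⁻¹ eV = eV := by conv_lhs => rw [← hge]; rw [ap_inv_ap]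
  rcases third_class (md (ap g c)) (mid_md hec) (by rw [q_md hec, q_ap, T'.qc])
    (by rw [← hga, bl_md_md hec (bl_eV_ap hge T'.ha.bl_eV), bl_ap, T'.ca])
    (by rw [← hgb, bl_md_md hec (bl_eV_ap hge T'.hb.bl_eV), bl_ap, T'.cb]) with
    ⟨u, v, e⟩ | ⟨i, u, v, e⟩
  · exfalso
    have h1 := congrArg (fun w => md (ap g⁻¹ w)) e
    rw [← hga, ← hgb] at h1
    simp only [ap_add, ap_smul, md_add, md_smul, md_ap hgi', ap_inv_ap, md_of_mid T'.ha, md_of_mid T'.hb,
      md_of_mid T'.hc] at h1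
    have := T'.indep v u 1 (by rw [one_smul, h1, add_comm])
    exact one_ne_zero this.2.2
  · have hind : ∀ (j : Bool) (u v : ZMod 2) (d : Fin 4 → ZMod 2),
        d 0 • (![1, 0, 0, 0] : Fin 4 → ZMod 2) + d 1 • ![0, 1, 0, 0] + d 2 • ![0, 0, 1, 0] +
          d 3 • ![0, u, v, 1] = 0 → d = 0 := by decide +kernel
    obtain ⟨g', hg', hb'⟩ := exists_stab_basis hJ i
      ![![1, 0, 0, 0], ![0, 1, 0, 0], ![0, 0, 1, 0], ![0, u, v, 1]] fun d hd => hind i u v d (by
        rw [Fin.sum_univ_four] at hd; exact hd)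
    have hbas : ∀ (j : Bool) (u v : ZMod 2), wVec j ![1, 0, 0, 0] = eV ∧ wVec j ![0, 1, 0, 0] = e2V ∧
        wVec j ![0, 0, 1, 0] = e3V ∧ wVec j ![0, u, v, 1] = xV j + (u • e2V + v • e3V) := by decide +kernel
    obtain ⟨w0, w1, w2, w3⟩ := hbas i u v
    have b0 : ap g' eV = eV := (hb' 0).trans w0
    have b1 : ap g' e2V = e2V := (hb' 1).trans w1
    have b2 : ap g' e3V = e3V := (hb' 2).trans w2
    have b3 : ap g' (xV i) = xV i + (u • e2V + v • e3V) := (hb' 3).trans w3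
    have b0' : ap g'⁻¹ eV = eV := by conv_lhs => rw [← b0]; rw [ap_inv_ap]
    refine ⟨i, g'⁻¹ * g, J.mul_mem (J.inv_mem hg'.1) hg, by rw [ap_mul, hge, b0'], ?_, ?_, ?_⟩
    · rw [ap_mul, ← md_ap b0', hga, show ap g'⁻¹ e2V = e2V by conv_lhs => rw [← b1]; rw [ap_inv_ap],
        md_of_mid mid_e2V]
    · rw [ap_mul, ← md_ap b0', hgb, show ap g'⁻¹ e3V = e3V by conv_lhs => rw [← b2]; rw [ap_inv_ap],
        md_of_mid mid_e3V]
    · rw [ap_mul, ← md_ap b0', e, ← b3, ap_inv_ap, md_of_mid (xV_spec i).1]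

/-- An exchanging element normalising the group and fixing the middle part of the space. -/
theorem exists_swap_normalizer (hA : Cfsg.IsElementaryAbelian 2 (AU z Qf θ (InW true)))
    (hnot : IsMulCommutative ↥(AU z Qf θ (InW false)) → False) :
    ∃ h' φ' ψ', PairSetting z Qf θ ρ J y h' ∧ Phi z Qf θ ρ y h' φ' ψ' ∧
      h' ∈ Subgroup.normalizer (AU z Qf θ (InW true) : Set G) ∧
      φ' e2V = e2V ∧ φ' e3V = e3V ∧ φ' e4V = e4V := by
  obtain ⟨φ, ψ, F⟩ := exists_phi P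
  have T' : Triple (φ e2V) (φ e3V) (φ e4V) := by
    refine ⟨(F.mid _ mid_e2V).1, (F.mid _ mid_e3V).1, (F.mid _ mid_e4V).1, by rw [F.q_eq _ mid_e2V, q_e2V],
      by rw [F.q_eq _ mid_e3V, q_e3V], by rw [F.q_eq _ mid_e4V]; decide,
      by rw [F.bl_eq _ _ mid_e2V mid_e3V]; decide, by rw [F.bl_eq _ _ mid_e4V mid_e2V]; decide,
      by rw [F.bl_eq _ _ mid_e4V mid_e3V]; decide, ?_, ?_⟩
    · rw [← F.zero]; exact fun e => absurd (F.eq_of mid_e2V mid_zero e) (by decide)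
    · intro s t r e
      rw [← (F.smul s mid_e3V).2, ← (F.smul t mid_e2V).2, ← (F.smul r mid_e4V).2,
        ← F.add _ _ (F.smul s mid_e3V).1 (F.smul t mid_e2V).1] at e
      have h' := F.eq_of ((F.smul s mid_e3V).1.add (F.smul t mid_e2V).1) (F.smul r mid_e4V).1 e
      have hd : ∀ s t r : ZMod 2, s • e3V + t • e2V = r • e4V → s = 0 ∧ t = 0 ∧ r = 0 := by decide
      exact hd s t r h'
  obtain ⟨i, g, hg, hge, g2, g3, g4⟩ := exists_std P.half T'
  obtain ⟨k, hkz, hky, hρk⟩ := P.exists_lift hg hge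
  have P' := pair_mul P hkz hky
  have F' := phi_mul P F hkz hky
  set φ' : V → V := fun v => md (ap (ρ k) (φ v)) with hφ'
  set ψ' : V → V := fun v => ψ (md (ap (ρ k)⁻¹ v)) with hψ'
  have e2' : φ' e2V = e2V := by simp only [hφ', hρk]; exact g2
  have e3' : φ' e3V = e3V := by simp only [hφ', hρk]; exact g3
  have e4' : φ' e4V = xV i := by simp only [hφ', hρk]; exact g4
  set h' := k * h with hh'
  -- the conjugate of the group
  set A := AU z Qf θ (InW true) with hA_def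
  have hle : A.map (MulAut.conj h').toMonoidHom ≤ AU z Qf θ (InW i) := by
    rintro _ ⟨a, ha, rfl⟩
    refine mem_AU.2 fun x hx hU => ?_
    show x * (h' * a * h'⁻¹) = h' * a * h'⁻¹ * x
    have hxW : inW z Qf y x := (P.W_iff hx).2 ((basis_mem i).1.perp hU)
    have hs : inWy z Qf y (h'⁻¹ * x * h') := by
      refine ⟨P'.conj_Qz' hx, ?_⟩
      exact PairSetting.conj_comm (g := h'⁻¹) (by rw [inv_inv]) (by rw [inv_inv, P'.hz']) hxW.2
    obtain ⟨c, hc⟩ := hU
    have hv : md (θ x) = φ' (c 1 • e2V + c 2 • e3V + c 3 • e4V) := by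
      rw [hc, wVec_mid, F'.add _ _ ((F'.smul _ mid_e2V).1.add (F'.smul _ mid_e3V).1) (F'.smul _ mid_e4V).1,
        F'.add _ _ (F'.smul _ mid_e2V).1 (F'.smul _ mid_e3V).1, (F'.smul _ mid_e2V).2, (F'.smul _ mid_e3V).2,
        (F'.smul _ mid_e4V).2, e2', e3', e4']
    have hmid : Mid (c 1 • e2V + c 2 • e3V + c 3 • e4V) :=
      ((F'.smul _ mid_e2V).1.add (F'.smul _ mid_e3V).1).add (F'.smul _ mid_e4V).1
    have hws : wS ρ (h'⁻¹ * x * h') = c 1 • e2V + c 2 • e3V + c 3 • e4V := by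
      refine F'.eq_of (P'.wS_spec hs).1 hmid ?_
      rw [← F'.toZ _ hs, show h' * (h'⁻¹ * x * h') * h'⁻¹ = x by group, hv]
    have hsA : h'⁻¹ * x * h' ∈ A := inWy_mem_AU P hs
      ⟨![0, c 1, c 2, c 3], by rw [hws, ← wVec_split]; rfl⟩
    have hcm : h'⁻¹ * x * h' * a = a * (h'⁻¹ * x * h') := congrArg Subtype.val
      (hA.1.is_comm.comm (⟨_, hsA⟩ : ↥A) ⟨a, ha⟩)
    calc x * (h' * a * h'⁻¹) = h' * (h'⁻¹ * x * h' * a) * h'⁻¹ := by group
      _ = h' * (a * (h'⁻¹ * x * h')) * h'⁻¹ := by rw [hcm]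
      _ = _ := by group
  have heq : A.map (MulAut.conj h').toMonoidHom = AU z Qf θ (InW i) := by
    refine Subgroup.eq_of_le_of_card_ge hle ?_
    rw [Subgroup.card_map_of_injective (MulAut.conj h').injective, hA_def, card_AU P true, card_AU P i]
  cases i with
  | false =>
    refine (hnot (IsMulCommutative.mk ⟨fun p q => Subtype.ext ?_⟩)).elim
    have hp : (p : G) ∈ A.map (MulAut.conj h').toMonoidHom := by rw [heq]; exact p.2
    have hq : (q : G) ∈ A.map (MulAut.conj h').toMonoidHom := by rw [heq]; exact q.2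
    obtain ⟨a, ha, ea⟩ := hp
    obtain ⟨b, hb, eb⟩ := hq
    show (p : G) * q = q * p
    rw [← ea, ← eb, ← map_mul, ← map_mul]
    exact congrArg _ (congrArg Subtype.val (hA.1.is_comm.comm (⟨a, ha⟩ : ↥A) ⟨b, hb⟩))
  | true =>
    refine ⟨h', φ', ψ', P', F', Subgroup.mem_normalizer_iff.2 fun a => ⟨fun ha => ?_, fun ha => ?_⟩,
      e2', e3', e4'⟩
    · have h1 : h' * a * h'⁻¹ ∈ A.map (MulAut.conj h').toMonoidHom := ⟨a, ha, rfl⟩
      rw [heq] at h1
      exact h1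
    · have h1 : h' * a * h'⁻¹ ∈ A.map (MulAut.conj h').toMonoidHom := by rw [heq]; exact ha
      obtain ⟨b, hb, e⟩ := h1
      have : b = a := (MulAut.conj h').injective e
      exact this ▸ hb

/-- Some element of the normaliser moves `z`. -/
theorem exists_normalizer_move (hA : Cfsg.IsElementaryAbelian 2 (AU z Qf θ (InW true)))
    (hnot : IsMulCommutative ↥(AU z Qf θ (InW false)) → False) :
    ∃ n ∈ Subgroup.normalizer (AU z Qf θ (InW true) : Set G), n * z * n⁻¹ ≠ z := by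
  obtain ⟨h', -, -, P', -, hn, -⟩ := exists_swap_normalizer P hA hnot
  refine ⟨h', hn, fun e => ?_⟩
  have := P'.θy
  rw [← P'.hz, e, P'.toSetting.θ_z] at this
  exact absurd this (by decide)

theorem commutator_Wy {σ t : G} (hσ : inWy z Qf y σ) (ht : inWy z Qf y t) :
    σ * t * σ⁻¹ = zp y (bl (wS ρ σ) (wS ρ t)) * t := by
  have e1 := P.sq_wS (P.Wy_mul hσ ht)
  rw [P.wS_mul hσ ht, q_add] at e1
  have e2 := P.sq_wS hσ
  have e3 := P.sq_wS ht
  set a := q (wS ρ σ)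
  set b := q (wS ρ t)
  set c := bl (wS ρ σ) (wS ρ t)
  have hσy : ∀ s, Commute σ (zp y s) := fun s => zp_comm (P.goody.comm σ hσ.1) s
  have hty : ∀ s, Commute t (zp y s) := fun s => zp_comm (P.goody.comm t ht.1) s
  have i1 : σ⁻¹ = σ * zp y a := by
    refine inv_eq_of_mul_eq_one_right ?_
    rw [← mul_assoc, e2, ← zp_add P.y_sq, CharTwo.add_self_eq_zero, zp_zero]
  calc σ * t * σ⁻¹ = σ * t * σ * zp y a := by rw [i1]; group
    _ = (σ * t * (σ * t)) * (t⁻¹ * zp y a) := by group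
    _ = zp y (a + b + c) * (t * zp y b)⁻¹⁻¹ * zp y a := by
      rw [e1, inv_inv]
      rw [show t⁻¹ = t * zp y b from inv_eq_of_mul_eq_one_right (by
        rw [← mul_assoc, e3, ← zp_add P.y_sq, CharTwo.add_self_eq_zero, zp_zero])]
      group
    _ = zp y (a + b + c) * (zp y b * zp y a) * t := by
      rw [inv_inv, (hty b).eq, mul_assoc (zp y (a + b + c)), mul_assoc (zp y b) t, (hty a).eq]; group
    _ = _ := by
      rw [← zp_add P.y_sq, ← zp_add P.y_sq]
      congr 2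
      linear_combination CharTwo.add_self_eq_zero a + CharTwo.add_self_eq_zero b

theorem conj_inW {r t : G} (hr : inW z Qf y r) (ht : inWy z Qf y t) :
    r * t * r⁻¹ = zp z (bl (θ r) (wS ρ t)) * zp y (bl (θ r) (wS ρ t)) * t := by
  have e := P.comm_eq ht hr
  set b := bl (θ r) (wS ρ t)
  have hinv : (zp z b * zp y b)⁻¹ = zp z b * zp y b := by
    rcases z2_cases b with a | a <;> rw [a]
    · simp
    · rw [zp_one, zp_one, mul_inv_rev, inv_eq_of_mul_eq_one_right P.y_sq,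
        inv_eq_of_mul_eq_one_right P.toSetting.z_sq, P.yz_comm]
  rw [← hinv, ← e]
  group

theorem sq_one_of_θ {x : G} (hx : x ∈ Qf z) {i : Bool} (hW : InW i (θ x)) : x * x = 1 :=
  (P.θ_sq x hx).2 hW.sing

/-- The exchanging element can moreover map three lifts into their own groups. -/
theorem exists_gauge {φ ψ : V → V} (F : Phi z Qf θ ρ y h φ ψ)
    (hn : h ∈ Subgroup.normalizer (AU z Qf θ (InW true) : Set G))
    (hφ : φ e2V = e2V ∧ φ e3V = e3V ∧ φ e4V = e4V) (Y : Fin 4 → G) (hY : ∀ j, Y j ∈ Qf z)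
    (hYθ : ∀ j, θ (Y j) = basV true j) :
    ∃ r, inW z Qf y r ∧ PairSetting z Qf θ ρ J y (r * h) ∧ Phi z Qf θ ρ y (r * h) φ ψ ∧
      r * h ∈ Subgroup.normalizer (AU z Qf θ (InW true) : Set G) ∧
      ∀ j : Fin 4, j ≠ 0 → r * h * Y j * (r * h)⁻¹ ∈ Qf (Y j) := by
  classical
  have hmid : ∀ j : Fin 4, j ≠ 0 → Mid (basV true j) ∧ φ (basV true j) = basV true j ∧ basV true j ≠ 0 := by
    intro j hj
    fin_cases j
    · exact absurd rfl hj
    · exact ⟨mid_e2V, hφ.1, by decide⟩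
    · exact ⟨mid_e3V, hφ.2.1, by decide⟩
    · exact ⟨mid_e4V, hφ.2.2, by decide⟩
  have hex : ∀ j : Fin 4, ∃ ε : ZMod 2, j ≠ 0 → inW z Qf y (Y j) ∧
      h * Y j * h⁻¹ ∈ Qf (zp z ε * Y j) := by
    intro j
    by_cases hj : j = 0
    · exact ⟨0, fun h0 => absurd hj h0⟩
    obtain ⟨hm, hφj, hne⟩ := hmid j hj
    have hxW : inW z Qf y (Y j) := (P.W_iff (hY j)).2 (by rw [hYθ]; exact hm.bl_eV)
    have hs := P.W_to_Wy hxW
    have hw : wS ρ (h * Y j * h⁻¹) = basV true j := by rw [F.toW _ hxW, hYθ, md_of_mid hm, hφj]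
    have hs2 : h * Y j * h⁻¹ * (h * Y j * h⁻¹) = 1 := by
      rw [P.sq_h hxW, hYθ, (basV_spec true j).1, zp_zero]
    have hsQ : h * Y j * h⁻¹ ∉ Qf z := fun e => hne (by rw [← hw]; exact P.wS_of_mem e)
    rcases line_lift P hs hs2 hsQ (hY j) (by rw [hYθ, md_of_mid hm, hw]) with e | e
    · exact ⟨0, fun _ => ⟨hxW, by rw [zp_zero, one_mul]; exact e⟩⟩
    · exact ⟨1, fun _ => ⟨hxW, by rw [zp_one]; exact e⟩⟩
  choose ε hε using hex
  obtain ⟨v, hv⟩ := exists_pairing true (fun w => w 1 * ε 1 + w 2 * ε 2 + w 3 * ε 3)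
    (fun u w => by simp only [Pi.add_apply]; ring)
  obtain ⟨r, hr, hθr⟩ := P.θ_surj v
  have hbe : bl v eV = 0 := by
    rw [show eV = wVec true (Pi.single 0 1) by rw [wVec_single]; rfl, hv]
    simp
  have hrW : inW z Qf y r := (P.W_iff hr).2 (by rw [hθr, bl_comm]; exact hbe)
  have hrz := P.toSetting.comm_z hr
  have P' := pair_mul P hrz hrW.2
  have F' := phi_congr P' (phi_mul P F hrz hrW.2) (φ' := φ) (ψ' := ψ)
    (fun w hw => by
      beta_reduce
      rw [P.toSetting.ρ_of_mem hr, ap_one, md_of_mid (F.mid w hw).1])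
    (fun w hw => by
      beta_reduce
      rw [P.toSetting.ρ_of_mem hr, inv_one, ap_one, md_of_mid hw])
  have hrn : r ∈ Subgroup.normalizer (AU z Qf θ (InW true) : Set G) :=
    (normalizer_iff P.toSetting hrz).2 (by rw [P.toSetting.ρ_of_mem hr]; exact one_mem _)
  refine ⟨r, hrW, P', F', mul_mem hrn hn, fun j hj => ?_⟩
  obtain ⟨hm, hφj, hne⟩ := hmid j hj
  obtain ⟨hxW, hmem⟩ := hε j hj
  set t := h * Y j * h⁻¹ with ht
  have hs : inWy z Qf y t := P.W_to_Wy hxW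
  have hw : wS ρ t = basV true j := by rw [ht, F.toW _ hxW, hYθ, md_of_mid hm, hφj]
  have hb : bl (θ r) (wS ρ t) = ε j := by
    rw [hw, hθr, ← wVec_single, hv]
    fin_cases j
    · exact absurd rfl hj
    all_goals simp [Pi.single_apply]
  rw [show r * h * Y j * (r * h)⁻¹ = r * t * r⁻¹ by rw [ht]; group, conj_inW P hrW hs, hb]
  rcases z2_cases (ε j) with a | a <;> rw [a] at hmem ⊢
  · simpa using hmem
  rw [zp_one] at hmem
  rw [zp_one, zp_one]
  have hxW' : InW true (θ (Y j)) := ⟨Pi.single j 1, by rw [hYθ, wVec_single]⟩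
  have hzx : z * Y j ∈ Qf z := (Qf z).mul_mem P.toSetting.z_mem (hY j)
  have hzx2 : z * Y j * (z * Y j) = 1 :=
    (P.θ_sq _ hzx).2 (by rw [P.toSetting.θ_z_mul (hY j)]; exact hxW'.sing)
  have hs2 : t * t = 1 := by rw [ht, P.sq_h hxW, hYθ, (basV_spec true j).1, zp_zero]
  have hsQ : t ∉ Qf z := fun e => hne (by rw [← hw]; exact P.wS_of_mem e)
  obtain ⟨-, -, h3⟩ := second_point P hs hs2 hsQ hzx hzx2
    (by rw [P.toSetting.θ_z_mul (hY j), hYθ, md_of_mid hm]; exact hne) hmem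
  rw [← mul_assoc z z, P.toSetting.z_sq, one_mul] at h3
  have hp : Pt z (Y j) := pt_of_mem_z P (hY j) (sq_one_of_θ P (hY j) hxW') fun e => hne (by
    rw [← hYθ, e, P.toSetting.θ_one])
  have hzm : z ∈ Qf (Y j) := pt_symm P pt_self hp (hY j)
  rw [mul_assoc, ← P.goody.comm t hs.1]
  exact (Qf (Y j)).mul_mem hzm h3

/-- An element shifting the parameter of the images of the root lifts. -/
theorem exists_shift {m : V} (hm : Mid m) :
    ∃ c, c * z = z * c ∧ c * y = y * c ∧ ρ c = Te m hm.bl_eV ∧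
      c ∈ Subgroup.normalizer (AU z Qf θ (InW true) : Set G) ∧
      ∀ t x, inWy z Qf y t → x ∈ Qf z → InW true (θ x) → Pt z x → t ∈ Qf x → c * t * c⁻¹ ∈ Qf x := by
  obtain ⟨σ, hσ, hσw⟩ := P.exists_Wy hm
  obtain ⟨r, hrW, hθr⟩ := P.exists_W m hm
  have hrz := P.toSetting.comm_z hrW.1
  have hcz := comm_mul hrz hσ.2
  have hcy := comm_mul hrW.2 (P.goody.comm σ hσ.1)
  obtain ⟨hwσ, eσ⟩ := P.wS_spec hσ
  have hρ : ρ (r * σ) = Te m hm.bl_eV := by
    rw [P.toSetting.ρ_mul hrz hσ.2, P.toSetting.ρ_of_mem hrW.1, one_mul, eσ]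
    exact Te_congr hσw _ _
  refine ⟨r * σ, hcz, hcy, hρ, (normalizer_iff P.toSetting hcz).2
    (mem_stabW_iff.2 ⟨P.toSetting.ρ_mem _ hcz, fun c => ?_⟩), fun t x ht hx hxW hp htx => ?_⟩
  · have hee := (basis_mem true).1
    rw [hρ, Te, ap_T, sgf_eq, bl_comm (wVec true c) eV, hee.perp ⟨c, rfl⟩, zero_smul, mul_zero, add_zero,
      add_zero]
    rcases z2_cases (bl (wVec true c) m) with a | a <;> rw [a]
    · rw [zero_smul, add_zero]; exact ⟨c, rfl⟩
    · rw [one_smul]; exact InW.add ⟨c, rfl⟩ hee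
  · set b := bl m (wS ρ t)
    have h1 : σ * t * σ⁻¹ = zp y b * t := by rw [commutator_Wy P hσ ht, hσw]
    have h2 : r * t * r⁻¹ = zp z b * zp y b * t := by rw [conj_inW P hrW ht, hθr]
    have hry : r * zp y b * r⁻¹ = zp y b := conj_fix_iff.2 (zp_comm hrW.2 b)
    have e : r * σ * t * (r * σ)⁻¹ = zp z b * t := by
      calc r * σ * t * (r * σ)⁻¹ = r * (σ * t * σ⁻¹) * r⁻¹ := by group
        _ = (r * zp y b * r⁻¹) * (r * t * r⁻¹) := by rw [h1]; group
        _ = zp y b * (zp z b * zp y b) * t := by rw [hry, h2]; group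
        _ = zp z b * t := by
          have hc : Commute (zp y b) (zp z b) := zp_comm (zp_comm P.yz_comm.symm b).symm b
          rw [← mul_assoc, hc.eq, mul_assoc (zp z b), ← zp_add P.y_sq, CharTwo.add_self_eq_zero, zp_zero,
            mul_one]
    rw [e]
    exact (Qf x).mul_mem (zp_mem (pt_symm P pt_self hp hx) b) htx

/-- The effect of the shift on the parameter. -/
theorem ρ_shift {a b w m : V} (ha : Mid a) (hb : Mid b) (hqa : q a = 0) (hab : bl a b = 0) (hw : Mid w)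
    (hm : Mid m) (hTm : Mid (sgf a b m)) {c K : G} (hc : c * z = z * c) (hK : K * z = z * K)
    (hρc : ρ c = Te m hm.bl_eV) (hρK : ρ K = Te w hw.bl_eV * T a b hqa hab) :
    ρ (c * K * c⁻¹) = Te (w + (m + sgf a b m)) ((hw.add (hm.add hTm)).bl_eV) * T a b hqa hab := by
  set R' := T a b hqa hab with hR'
  have hR'e : ap R' eV = eV := by
    simp only [hR', ap_T, sgf_eq, ha.bl_eV, hb.bl_eV, zero_smul, mul_zero, add_zero]
  have h1 : R' * Te m hm.bl_eV * R'⁻¹ = Te (sgf a b m) hTm.bl_eV := by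
    rw [conj_Te hR'e hm.bl_eV]
    refine Te_congr ?_ _ _
    rw [hR', ap_T, md_of_mid hTm]
  have hinv : (Te m hm.bl_eV)⁻¹ = Te m hm.bl_eV := inv_eq_of_mul_eq_one_right (T_mul_self _ _)
  rw [P.toSetting.ρ_conj hc hK, hρc, hρK, hinv]
  calc Te m hm.bl_eV * (Te w hw.bl_eV * R') * Te m hm.bl_eV
      = Te m hm.bl_eV * Te w hw.bl_eV * (R' * Te m hm.bl_eV * R'⁻¹) * R' := by group
    _ = _ := by
      rw [h1, Te_mul, Te_mul]
      congr 1
      refine Te_congr ?_ _ _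
      rw [add_comm m w, add_assoc]

/-- The image of a root lift inside the group. -/
theorem exists_w {φ ψ : V → V} (F : Phi z Qf θ ρ y h φ ψ)
    (hn : h ∈ Subgroup.normalizer (AU z Qf θ (InW true) : Set G)) {a b : V} (ha : Mid a) (hb : Mid b)
    (haW : InW true a) (hbW : InW true b) (hφa : φ a = a) (hφb : φ b = b) {t : G}
    (ht : t ∈ AU z Qf θ (InW true)) (hρ : ρ t = T a b haW.sing (haW.perp hbW)) :
    ∃ (w : V) (hw : Mid w), InW true w ∧
      ρ (h * t * h⁻¹) = Te w hw.bl_eV * T a b haW.sing (haW.perp hbW) := by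
  obtain ⟨-, m, hm, hφm, hq', hb', hK, -⟩ := transfer P F ha hb haW.sing hbW.sing (haW.perp hbW)
    (comm_z_of_mem P.toSetting ht) (comm_y_of_mem P ht) hρ
  have hw : Mid (φ m) := (F.mid m hm).1
  have hK' : ρ (h * t * h⁻¹) = Te (φ m) hw.bl_eV * T a b haW.sing (haW.perp hbW) := by
    rw [hK, T_congr hφa hφb hq' hb']
  refine ⟨φ m, hw, ?_, hK'⟩
  have hmem : h * t * h⁻¹ ∈ AU z Qf θ (InW true) := (Subgroup.mem_normalizer_iff.1 hn t).1 ht
  have hbl : ∀ x, InW true x → bl (φ m) x = 0 := by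
    intro x hx
    obtain ⟨c, rfl⟩ := hx
    have h1 := ρ_fix P.toSetting hmem c
    have h2 := ρ_fix P.toSetting ht c
    rw [hρ] at h2
    rw [hK', ap_mul, h2, Te, ap_T, sgf_eq, bl_comm (wVec true c) eV, (basis_mem true).1.perp ⟨c, rfl⟩,
      zero_smul, mul_zero, add_zero, add_zero, add_eq_left] at h1
    rw [bl_comm]
    rcases z2_cases (bl (wVec true c) (φ m)) with a1 | a1
    · exact a1
    · rw [a1, one_smul] at h1; exact absurd h1 (by decide)
  obtain ⟨m0, m1, m2, m3⟩ := basis_mem true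
  exact perp_W true _ (hbl _ m0) (hbl _ m1) (hbl _ m2) (hbl _ m3)

end CfsgLib.ConwayType.Golay
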