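import Cfsg.Agent.Lib.ConwayType.Golay.Coords

/-!
Finite facts about the table of the octad images, in coordinates `n < 2 ^ 11` (bit `0` central, bits `1-4`
the four-space `W`, bits `5-10` its exterior square in the order `01, 02, 03, 12, 13, 23`), and about
the linear maps given by the images of the eleven bits.
-/

set_option autoImplicit false
set_option maxRecDepth 100000
set_option exponentiation.threshold 4096

namespace CfsgLib.ConwayType.GolayTable

open CfsgLib.ConwayType.GolayModel (octTable)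

/-- The linear map with the given images of the bits. -/
def lin : List ℕ → ℕ → ℕ
  | [], _ => 0
  | x :: l, n => (bif n % 2 == 1 then x else 0) ^^^ lin l (n / 2)

theorem lin_zero : ∀ H : List ℕ, lin H 0 = 0
  | [] => rfl
  | x :: l => by simp [lin, lin_zero l]

/-- `lin H` is additive. -/
theorem lin_xor : ∀ (H : List ℕ) (a b : ℕ), lin H (a ^^^ b) = lin H a ^^^ lin H b
  | [], _, _ => by simp [lin]
  | x :: l, a, b => by
    have h1 : (a ^^^ b) / 2 = a / 2 ^^^ b / 2 := Nat.xor_div_two
    have h2 : (a ^^^ b) % 2 = (a % 2 + b % 2) % 2 := by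
      have := Nat.xor_mod_two_eq_one (a := a) (b := b)
      omega
    rw [lin, lin, lin, h1, lin_xor l, h2]
    rcases Nat.mod_two_eq_zero_or_one a with ha | ha <;>
      rcases Nat.mod_two_eq_zero_or_one b with hb | hb <;> rw [ha, hb] <;> simp [Nat.xor_assoc] <;>
      first | rfl | (rw [Nat.xor_left_comm (lin l (a / 2)) x, ← Nat.xor_assoc x x, Nat.xor_self, Nat.zero_xor]) |
        rw [Nat.xor_left_comm]

/-- Membership in the image of the octads. -/
def inO (n : ℕ) : Bool := octTable.testBit n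

/-- The exterior part is decomposable. -/
def dec (n : ℕ) : Bool :=
  ((n.testBit 5 && n.testBit 10) ^^ (n.testBit 6 && n.testBit 9) ^^ (n.testBit 7 && n.testBit 8)) == false

/-- Conjugation by an element over the `k`-th of `fV, f2V, f3V, f4V`. -/
def rMap : ℕ → List ℕ
  | 0 => [1, 3, 4, 8, 16, 37, 73, 145, 256, 512, 1024]
  | 1 => [1, 2, 5, 8, 16, 35, 64, 128, 265, 529, 1024]
  | 2 => [1, 2, 4, 9, 16, 32, 67, 128, 261, 512, 1041]
  | 3 => [1, 2, 4, 8, 17, 32, 64, 131, 256, 517, 1033]
  | _ => [1, 2, 4, 8, 16, 32, 64, 128, 256, 512, 1024]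

/-- The possible conjugations by the exchanging element. -/
def hMap (j u₁ u₂ u₃ : ℕ) : List ℕ :=
  [2, 1, 32, 64, 128, 4 ^^^ (bif j.testBit 0 then 2 else 0), 8 ^^^ (bif j.testBit 1 then 2 else 0),
    16 ^^^ (bif j.testBit 2 then 2 else 0), (u₃ <<< 1) ^^^ 480, (u₂ <<< 1) ^^^ 608, (u₁ <<< 1) ^^^ 1056]

/-- The one of them preserving the table. -/
def hGood : List ℕ := [2, 1, 32, 64, 128, 6, 10, 18, 496, 634, 1084]

theorem hGood_eq : hMap 7 14 13 8 = hGood := rfl

/-- The inverse of `hGood`. -/
def hGoodInv : List ℕ := [2, 1, 33, 65, 129, 4, 8, 16, 413, 717, 1253]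

theorem checks :
    ((List.range 2048).all fun n => (List.range 4).all fun k =>
      inO (lin (rMap k) n) == inO n && lin (rMap k) (lin (rMap k) n) == n) = true ∧
    ((List.range 2048).all fun n => inO (lin hGood n) == inO n && lin hGood (lin hGoodInv n) == n &&
      lin hGoodInv (lin hGood n) == n) = true ∧
    ((List.range 2048).all fun n => dec n || (inO (n ^^^ 1) == !inO n)) = true := by
  decide +kernel

theorem inO_rMap {k n : ℕ} (hk : k < 4) (hn : n < 2048) : inO (lin (rMap k) n) = inO n := by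
  have h := List.all_eq_true.1 (List.all_eq_true.1 checks.1 n (List.mem_range.2 hn)) k (List.mem_range.2 hk)
  simp only [Bool.and_eq_true, beq_iff_eq] at h
  exact h.1

theorem rMap_rMap {k n : ℕ} (hk : k < 4) (hn : n < 2048) : lin (rMap k) (lin (rMap k) n) = n := by
  have h := List.all_eq_true.1 (List.all_eq_true.1 checks.1 n (List.mem_range.2 hn)) k (List.mem_range.2 hk)
  simp only [Bool.and_eq_true, beq_iff_eq] at h
  exact h.2

theorem inO_hGood {n : ℕ} (hn : n < 2048) : inO (lin hGood n) = inO n := by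
  have h := List.all_eq_true.1 checks.2.1 n (List.mem_range.2 hn)
  simp only [Bool.and_eq_true, beq_iff_eq] at h
  exact h.1.1

theorem hGood_hGoodInv {n : ℕ} (hn : n < 2048) :
    lin hGood (lin hGoodInv n) = n ∧ lin hGoodInv (lin hGood n) = n := by
  have h := List.all_eq_true.1 checks.2.1 n (List.mem_range.2 hn)
  simp only [Bool.and_eq_true, beq_iff_eq] at h
  exact ⟨h.1.2, h.2⟩

theorem inO_zflip {n : ℕ} (hn : n < 2048) (hd : dec n = false) : inO (n ^^^ 1) = !inO n := by
  have h := List.all_eq_true.1 checks.2.2 n (List.mem_range.2 hn)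
  simpa [hd] using h

/-- The value tested by `(r, v)`: `r = 9` stands for the swap alone. -/
def testImg (H : List ℕ) (r v : ℕ) : ℕ := bif r == 9 then lin H v else lin H (lin (rMap r) (lin H v))

/-- The eighteen tests. -/
def tests : List (ℕ × ℕ) :=
  [(9, 1244), (1, 1032), (9, 1245), (1, 1024), (2, 1024), (3, 1040), (1, 1040), (1, 516), (9, 568), (9, 569),
    (9, 1637), (1, 512), (3, 512), (9, 272), (9, 273), (1, 256), (9, 776), (9, 1284)]

theorem tests_spec : ∀ t ∈ tests, t.2 < 2048 ∧ dec t.2 = true ∧ (t.1 = 9 ∨ t.1 < 4) := by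
  decide +kernel

/-- A test passes: if the value is decomposable then membership agrees. -/
def passes (H : List ℕ) (t : ℕ × ℕ) : Bool :=
  (fun w => !dec w || inO t.2 == inO w) (testImg H t.1 t.2)

theorem lin_hMap_no3 (j a b c : ℕ) {x : ℕ} (h : x.testBit 8 = false) :
    lin (hMap j a b c) x = lin (hMap j a b 0) x := by
  rw [Nat.testBit_eq_decide_div_mod_eq, decide_eq_false_iff_not] at h
  simp only [hMap, lin, Nat.div_div_eq_div_mul]
  norm_num
  norm_num at h
  simp [h]

theorem lin_hMap_no23 (j a b c : ℕ) {x : ℕ} (h8 : x.testBit 8 = false) (h9 : x.testBit 9 = false) :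
    lin (hMap j a b c) x = lin (hMap j a 0 0) x := by
  rw [lin_hMap_no3 j a b c h8]
  rw [Nat.testBit_eq_decide_div_mod_eq, decide_eq_false_iff_not] at h9
  simp only [hMap, lin, Nat.div_div_eq_div_mul]
  norm_num
  norm_num at h9
  simp [h9]

/-- The images needed by the test avoid the given bits. -/
def avoids (H : List ℕ) (t : ℕ × ℕ) (b : ℕ) : Bool :=
  !t.2.testBit b && (t.1 == 9 || !(lin (rMap t.1) (lin H t.2)).testBit b)

theorem passes_congr {H H' : List ℕ} {t : ℕ × ℕ} (h1 : lin H t.2 = lin H' t.2)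
    (h2 : t.1 ≠ 9 → lin H (lin (rMap t.1) (lin H' t.2)) = lin H' (lin (rMap t.1) (lin H' t.2))) :
    passes H t = passes H' t := by
  have : testImg H t.1 t.2 = testImg H' t.1 t.2 := by
    unfold testImg
    by_cases h : t.1 = 9
    · simp [h, h1]
    · simp [h, h1, h2]
  simp [passes, this]

theorem stage_checks :
    ((List.range 8).all fun j => (List.range 16).all fun a =>
      ((tests.take 7).all fun t => avoids (hMap j a 0 0) t 8 && avoids (hMap j a 0 0) t 9) &&
      (!((tests.take 7).all fun t => passes (hMap j a 0 0) t) || (j == 6 && a == 15) || (j == 7 && a == 14))) =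
      true ∧
    ([(6, 15), (7, 14)].all fun p => (List.range 16).all fun b =>
      (((tests.drop 7).take 6).all fun t => avoids (hMap p.1 p.2 b 0) t 8) &&
      (!(((tests.drop 7).take 6).all fun t => passes (hMap p.1 p.2 b 0) t) ||
        (p.1 == 7 && p.2 == 14 && b == 13))) = true ∧
    ((List.range 16).all fun c => !(tests.all fun t => passes (hMap 7 14 13 c) t) || c == 8) = true := by
  decide +kernel

/-- Only `hGood` passes the eighteen tests. -/
theorem hMap_unique {j u₁ u₂ u₃ : ℕ} (hj : j < 8) (h₁ : u₁ < 16) (h₂ : u₂ < 16) (h₃ : u₃ < 16)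
    (h : ∀ t ∈ tests, dec (testImg (hMap j u₁ u₂ u₃) t.1 t.2) = true →
      inO t.2 = inO (testImg (hMap j u₁ u₂ u₃) t.1 t.2)) :
    j = 7 ∧ u₁ = 14 ∧ u₂ = 13 ∧ u₃ = 8 := by
  have hp : ∀ t ∈ tests, passes (hMap j u₁ u₂ u₃) t = true := fun t ht => by
    have := h t ht
    rw [passes]
    cases hd : dec (testImg (hMap j u₁ u₂ u₃) t.1 t.2)
    · simp [hd]
    · simp [this hd]
  have hA := List.all_eq_true.1 (List.all_eq_true.1 stage_checks.1 j (List.mem_range.2 hj)) u₁
    (List.mem_range.2 h₁)
  rw [Bool.and_eq_true, List.all_eq_true] at hA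
  have hAp : ((tests.take 7).all fun t => passes (hMap j u₁ 0 0) t) = true := List.all_eq_true.2 fun t ht => by
    have e := hA.1 t ht
    simp only [avoids, Bool.and_eq_true, Bool.not_eq_true', Bool.or_eq_true, beq_iff_eq] at e
    rw [← hp t (List.mem_of_mem_take ht)]
    exact (passes_congr (lin_hMap_no23 _ _ _ _ e.1.1 e.2.1) fun h9 =>
      lin_hMap_no23 _ _ _ _ (e.1.2.resolve_left h9) (e.2.2.resolve_left h9)).symm
  have hA2 := hA.2
  rw [hAp] at hA2
  simp only [Bool.not_true, Bool.false_or, Bool.or_eq_true, Bool.and_eq_true, beq_iff_eq] at hA2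
  have hmem : (j, u₁) ∈ [(6, 15), (7, 14)] := by
    rcases hA2 with ⟨rfl, rfl⟩ | ⟨rfl, rfl⟩ <;> simp
  have hB := List.all_eq_true.1 (List.all_eq_true.1 stage_checks.2.1 _ hmem) u₂ (List.mem_range.2 h₂)
  rw [Bool.and_eq_true, List.all_eq_true] at hB
  have hBp : (((tests.drop 7).take 6).all fun t => passes (hMap j u₁ u₂ 0) t) = true :=
    List.all_eq_true.2 fun t ht => by
      have e := hB.1 t ht
      simp only [avoids, Bool.and_eq_true, Bool.not_eq_true', Bool.or_eq_true, beq_iff_eq] at e
      rw [← hp t (List.mem_of_mem_drop (List.mem_of_mem_take ht))]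
      exact (passes_congr (lin_hMap_no3 _ _ _ _ e.1) fun h9 => lin_hMap_no3 _ _ _ _ (e.2.resolve_left h9)).symm
  have hB2 := hB.2
  simp only at hB2
  rw [hBp] at hB2
  simp only [Bool.not_true, Bool.false_or, Bool.and_eq_true, beq_iff_eq] at hB2
  obtain ⟨⟨rfl, rfl⟩, rfl⟩ := hB2
  have hC := List.all_eq_true.1 stage_checks.2.2 u₃ (List.mem_range.2 h₃)
  rw [List.all_eq_true.2 hp] at hC
  simp only [Bool.not_true, Bool.false_or, beq_iff_eq] at hC
  exact ⟨rfl, rfl, rfl, hC⟩

/-- The composite of the `rMap k`, `k` a bit of `s`. -/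
def rSet (s n : ℕ) : ℕ :=
  (fun n => bif s.testBit 3 then lin (rMap 3) n else n)
    ((fun n => bif s.testBit 2 then lin (rMap 2) n else n)
      ((fun n => bif s.testBit 1 then lin (rMap 1) n else n)
        ((fun n => bif s.testBit 0 then lin (rMap 0) n else n) n)))

theorem reach_check : ((List.range 2048).all fun n => dec n || (List.range 16).any fun s =>
    (fun m => dec m && Nat.blt m 2048 && rSet s (lin hGood m) == n) (lin hGoodInv (rSet s n))) = true := by
  decide +kernel

/-- A vector which is not decomposable comes from a decomposable one by `hGood` and maps `rMap`. -/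
theorem exists_dec_reach {n : ℕ} (hn : n < 2048) (hd : dec n = false) :
    ∃ m < 2048, dec m = true ∧ ∃ s < 16, rSet s (lin hGood m) = n := by
  have h := List.all_eq_true.1 reach_check n (List.mem_range.2 hn)
  rw [hd, Bool.false_or, List.any_eq_true] at h
  obtain ⟨s, hs, h⟩ := h
  simp only [Bool.and_eq_true, beq_iff_eq, Nat.blt_eq] at h
  exact ⟨_, h.1.2, h.1.1, s, List.mem_range.1 hs, h.2⟩

/-- `w` lies in the line spanned by `a` and `b`. -/
def inLine (w a b : ℕ) : Bool := w == 0 || w == a || w == b || w == a ^^^ b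

/-- The contraction of the line spanned by `a` and `b` with the functional `m`, on coordinate vectors. -/
def iota (m a b : ℕ) : ℕ := (bif m &&& a != 0 then b else 0) ^^^ (bif m &&& b != 0 then a else 0)

theorem diag_checks :
    ((List.range 8).all fun x => (List.range 8).all fun y => (List.range 8).all fun z =>
      (inLine x 2 4 || inLine y 1 4 || inLine z 1 2 || inLine (x ^^^ y ^^^ 4) 4 3 ||
        inLine (x ^^^ z ^^^ 2) 2 5 || inLine (y ^^^ z ^^^ 1) 1 6 || inLine (x ^^^ y ^^^ z ^^^ 7) 3 5) ||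
      (List.range 8).any fun m => x == 1 ^^^ iota m 2 4 && y == 3 ^^^ iota m 1 4 && z == 7 ^^^ iota m 1 2) =
      true ∧
    ((List.range 8).all fun x => (List.range 8).all fun y => (List.range 8).all fun z =>
      inLine x 2 4 || inLine y 1 4 || inLine z 1 2 || inLine (x ^^^ y) 4 3 ||
        inLine (x ^^^ z) 2 5 || inLine (y ^^^ z) 1 6 || inLine (x ^^^ y ^^^ z) 3 5) = true := by
  decide +kernel

/-- The maps sending the seven lines of the plane outside themselves, affine along pencils. -/
theorem diag_unique {x y z : ℕ} (hx : x < 8) (hy : y < 8) (hz : z < 8)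
    (h₁ : inLine x 2 4 = false) (h₂ : inLine y 1 4 = false) (h₃ : inLine z 1 2 = false)
    (h₄ : inLine (x ^^^ y ^^^ 4) 4 3 = false) (h₅ : inLine (x ^^^ z ^^^ 2) 2 5 = false)
    (h₆ : inLine (y ^^^ z ^^^ 1) 1 6 = false) (h₇ : inLine (x ^^^ y ^^^ z ^^^ 7) 3 5 = false) :
    ∃ m < 8, x = 1 ^^^ iota m 2 4 ∧ y = 3 ^^^ iota m 1 4 ∧ z = 7 ^^^ iota m 1 2 := by
  have h := List.all_eq_true.1 (List.all_eq_true.1 (List.all_eq_true.1 diag_checks.1 x (List.mem_range.2 hx)) y
    (List.mem_range.2 hy)) z (List.mem_range.2 hz)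
  simp only [h₁, h₂, h₃, h₄, h₅, h₆, h₇, Bool.false_or, List.any_eq_true, Bool.and_eq_true, beq_iff_eq] at h
  obtain ⟨m, hm, h⟩ := h
  exact ⟨m, List.mem_range.1 hm, h.1.1, h.1.2, h.2⟩

/-- No linear such map exists. -/
theorem diag_linear_impossible {x y z : ℕ} (hx : x < 8) (hy : y < 8) (hz : z < 8)
    (h₁ : inLine x 2 4 = false) (h₂ : inLine y 1 4 = false) (h₃ : inLine z 1 2 = false)
    (h₄ : inLine (x ^^^ y) 4 3 = false) (h₅ : inLine (x ^^^ z) 2 5 = false)
    (h₆ : inLine (y ^^^ z) 1 6 = false) (h₇ : inLine (x ^^^ y ^^^ z) 3 5 = false) : False := by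
  have h := List.all_eq_true.1 (List.all_eq_true.1 (List.all_eq_true.1 diag_checks.2 x (List.mem_range.2 hx)) y
    (List.mem_range.2 hy)) z (List.mem_range.2 hz)
  simp [h₁, h₂, h₃, h₄, h₅, h₆, h₇] at h

end CfsgLib.ConwayType.GolayTable
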