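import Cfsg.Agent.Lib.ConwayType.Golay.Incidence2
import Cfsg.Agent.Lib.ConwayType.Golay.Swap2
import Cfsg.Agent.Lib.ConwayType.Golay.Table

/-!
The rule of the pencils: the product of two lifts on lines through a point is the lift on the third line,
up to the central involution, and the sign is the same and nontrivial for all pencils. At most one family
of four-spaces is good.
-/

set_option autoImplicit false
set_option linter.unusedSectionVars false
set_option maxRecDepth 100000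
set_option synthInstance.maxSize 1000
set_option maxHeartbeats 4000000

namespace CfsgLib.ConwayType.Golay

open CfsgLib.ExtraspecialLarge CfsgLib.ConwayType

/-- A root map on a line times the Siegel map at `eV` of one of its vectors. -/
theorem T_point {a b : V} (ha : q a = 0) (hb : q b = 0) (hab : bl a b = 0) (hae : bl eV a = 0)
    (hbe : bl eV b = 0) (μ ν : ZMod 2) :
    ∀ (hl : bl eV (μ • b + ν • a) = 0) (hp : q (a + μ • eV) = 0) (hpp : bl (a + μ • eV) (b + ν • eV) = 0),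
      Te (μ • b + ν • a) hl * T a b ha hab = T (a + μ • eV) (b + ν • eV) hp hpp := by
  intro hl hp hpp
  have hea : bl a eV = 0 := by rw [bl_comm]; exact hae
  have heb : bl b eV = 0 := by rw [bl_comm]; exact hbe
  have hba : bl b a = 0 := by rw [bl_comm]; exact hab
  rcases z2_cases μ with rfl | rfl <;> rcases z2_cases ν with rfl | rfl
  · rw [Te_congr (show (0 : ZMod 2) • b + (0 : ZMod 2) • a = 0 by simp) hl (bl_zero_right eV), Te_zero, one_mul]
    exact T_congr (by simp) (by simp) _ _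
  · rw [Te_congr (show (0 : ZMod 2) • b + (1 : ZMod 2) • a = a by simp) hl hae, Te, T_symm q_eV ha hae,
      T_mul ha hea hab]
    exact T_congr (by simp) (by simp [add_comm]) _ _
  · rw [Te_congr (show (1 : ZMod 2) • b + (0 : ZMod 2) • a = b by simp) hl hbe, Te, T_symm q_eV hb hbe,
      T_symm ha hb hab, T_mul hb heb hba,
      T_symm hb (show q (eV + a) = 0 by rw [q_add, q_eV, ha, hae, add_zero, add_zero])]
    exact T_congr (by simp [add_comm]) (by simp) _ _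
  · have hqs : q (a + b) = 0 := by rw [q_add, ha, hb, hab, add_zero, add_zero]
    have hse : bl (a + b) eV = 0 := by rw [bl_add_left, hea, heb, add_zero]
    have hsb : bl (a + b) b = 0 := by rw [bl_add_left, hab, bl_self, add_zero]
    have hes : bl eV (a + b) = 0 := by rw [bl_comm]; exact hse
    have e : T a b ha hab = T (a + b) b hqs hsb := by
      rw [T_symm ha hb hab, T_shift hb hba, T_symm hb hqs]
    have hqp : q (eV + b) = 0 := by rw [q_add, q_eV, hb, hbe, add_zero, add_zero]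
    have hsp : bl (eV + b) (a + b) = 0 := by rw [bl_add_left, hes, bl_comm b, hsb, add_zero]
    rw [Te_congr (show (1 : ZMod 2) • b + (1 : ZMod 2) • a = a + b by simp [add_comm]) hl hes, Te,
      T_symm q_eV hqs hes, e, T_mul hqs hse hsb, T_symm hqs hqp, T_shift hqp hsp]
    have hap : a + b + (eV + b) = a + eV := by
      rw [show a + b + (eV + b) = a + eV + (b + b) by abel, vadd_self, add_zero]
    rw [T_symm hqp (show q (a + b + (eV + b)) = 0 by rw [hap]; simpa using hp)]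
    exact T_congr (by rw [hap, one_smul]) (by rw [one_smul, add_comm]) _ _

/-- Coordinates of the numbered points of the plane of middle vectors. -/
def cN (n : ℕ) : Fin 4 → ZMod 2 :=
  ![0, bif n.testBit 0 then 1 else 0, bif n.testBit 1 then 1 else 0, bif n.testBit 2 then 1 else 0]

theorem cN_xor (a b : ℕ) : cN (a ^^^ b) = cN a + cN b := by
  have h : ∀ x y : Bool, (bif xor x y then (1 : ZMod 2) else 0) =
      (bif x then 1 else 0) + (bif y then 1 else 0) := by decide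
  funext j
  fin_cases j <;> simp [cN, Nat.testBit_xor, h, -Nat.testBit_zero]

theorem cN_spec : ∀ n : Fin 8, Mid (wVec true (cN n)) := by decide +kernel

theorem cN_surj : ∀ c : Fin 4 → ZMod 2, Mid (wVec true c) → ∃ n : Fin 8, c = cN n := by decide +kernel

theorem mid_coord : ∀ c : Fin 4 → ZMod 2, Mid (wVec true c) → c 0 = 0 := by decide +kernel

theorem wVec_mid_eq : ∀ c : Fin 4 → ZMod 2, c 0 = 0 →
    wVec true c = c 1 • e2V + c 2 • e3V + c 3 • e4V := by decide +kernel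

theorem both_coord : ∀ c c' : Fin 4 → ZMod 2, wVec true c = wVec false c' → c 3 = 0 := by decide +kernel

theorem inLine_span : ∀ x a b : Fin 8, GolayTable.inLine x a b = true →
    ∃ μ ν : ZMod 2, cN x = μ • cN b + ν • cN a := by decide +kernel

theorem single_sum : ∀ (d : Fin 3 → ZMod 2),
    ∑ j, d j • ![(Pi.single 0 1 : Fin 4 → ZMod 2), Pi.single 1 1, Pi.single 2 1] j = 0 → d = 0 := by
  decide +kernel

variable {G : Type*} [Group G] [Finite G]
variable {z : G} {Qf : G → Subgroup G} {θ : G → V} {ρ : G → O} {J : Subgroup O} {y h : G}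
variable (P : PairSetting z Qf θ ρ J y h)
include P

theorem OctLift.zmul {Xa Xb t : G} (L : LinePair z Qf θ Xa Xb) (T' : OctLift z Qf Xa Xb t) :
    OctLift z Qf Xa Xb (z * t) := by
  obtain ⟨-, -, -, hpa⟩ := lift_spec P L.ma L.qa L.a0
  obtain ⟨-, -, -, hpb⟩ := lift_spec P L.mb L.qb L.b0
  refine ⟨comm_mul rfl T'.comm, ?_, fun e => T'.notMem ?_,
    (Qf Xa).mul_mem (pt_symm P pt_self hpa L.ma) T'.memA,
    (Qf Xb).mul_mem (pt_symm P pt_self hpb L.mb) T'.memB⟩
  · rw [(show Commute t z from T'.comm).mul_mul_mul_comm, T'.sq, P.toSetting.z_sq, one_mul]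
  · have := (Qf z).mul_mem P.toSetting.z_mem e
    rwa [← mul_assoc, P.toSetting.z_sq, one_mul] at this

theorem OctLift.conj {Xa Xb t c : G} (hc : c * z = z * c) (T' : OctLift z Qf Xa Xb t) :
    OctLift z Qf (c * Xa * c⁻¹) (c * Xb * c⁻¹) (c * t * c⁻¹) :=
  ⟨comm_mul (comm_mul hc T'.comm) (comm_inv hc),
    by rw [show c * t * c⁻¹ * (c * t * c⁻¹) = c * (t * t) * c⁻¹ by group, T'.sq]; group,
    frame_notMem P hc T'.notMem, conj_mem_Qf P T'.memA, conj_mem_Qf P T'.memB⟩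

theorem OctLift.line_prod {Xa Xb t : G} (L : LinePair z Qf θ Xa Xb) (T' : OctLift z Qf Xa Xb t) :
    OctLift z Qf Xa (Xa * Xb) t := by
  obtain ⟨-, -, -, hpa⟩ := lift_spec P L.ma L.qa L.a0
  obtain ⟨-, -, -, hpb⟩ := lift_spec P L.mb L.qb L.b0
  have L' := L.prod P
  obtain ⟨-, -, -, hpc⟩ := lift_spec P L'.mb L'.qb L'.b0
  have hpt : Pt z t := pt_of_mem P hpa T'.memA T'.sq fun e => T'.notMem (e ▸ one_mem _)
  exact ⟨T'.comm, T'.sq, T'.notMem, T'.memA, pt_symm P hpt hpc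
    ((Qf t).mul_mem (pt_symm P hpa hpt T'.memA) (pt_symm P hpb hpt T'.memB))⟩

/-- A lift on a line of the space lies in the group over it. -/
theorem octLift_mem_AU {i : Bool} {Xa Xb t : G} (L : LinePair z Qf θ Xa Xb)
    (ha : InW i (θ Xa)) (hb : InW i (θ Xb)) (T' : OctLift z Qf Xa Xb t) :
    t ∈ AU z Qf θ (InW i) :=
  mem_AU.2 fun _ hx hU => (octLift_comm P L T' hx (hU.perp ha) (hU.perp hb)).symm

/-- The exchanging element separates the two families. -/
theorem quad_holds {φ ψ : V → V} (F : Phi z Qf θ ρ y h φ ψ) : Quad z Qf θ ρ h φ := by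
  intro t htT htF hρt u v hl hq hb hbad
  obtain ⟨Xa, hXa, hθa⟩ := P.θ_surj e2V
  obtain ⟨Xb, hXb, hθb⟩ := P.θ_surj e3V
  have L : LinePair z Qf θ Xa Xb := ⟨hXa, hXb, by rw [hθa]; exact q_e2V, by rw [hθb]; exact q_e3V,
    by rw [hθa, hθb]; decide, by rw [hθa]; decide, by rw [hθb]; decide, by rw [hθa, hθb]; decide⟩
  obtain ⟨t₀, T₀⟩ := octLift_exists P L
  have h0 : ∀ i, t₀ ∈ AU z Qf θ (InW i) := fun i =>
    octLift_mem_AU P L (hθa ▸ (basis_mem i).2.1) (hθb ▸ (basis_mem i).2.2.1) T₀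
  have hρ₀ : ρ t₀ = ρ t := by
    rw [hρt, octLift_ρ P L T₀]
    exact T_congr hθa hθb _ _
  obtain ⟨e, he, ⟨c, hc⟩, het⟩ := exists_mul_of_ρ P.toSetting htT (h0 true) hρ₀.symm
  obtain ⟨e', -, ⟨c', hc'⟩, het'⟩ := exists_mul_of_ρ P.toSetting htF (h0 false) hρ₀.symm
  have hee : e' = e := mul_left_cancel (het'.symm.trans het)
  rw [hee] at hc'
  have hc3 : c 3 = 0 := both_coord c c' (hc.symm.trans hc')
  have hmd : md (θ e) = c 1 • e2V + c 2 • e3V := by
    rw [hc, wVec_mid, hc3, zero_smul, add_zero]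
  have heW : inW z Qf y e := (P.W_iff he).2 ((basis_mem true).1.perp ⟨c, hc⟩)
  have hWa : inW z Qf y Xa := (P.W_iff hXa).2 (by rw [hθa]; exact mid_e2V.bl_eV)
  have hWb : inW z Qf y Xb := (P.W_iff hXb).2 (by rw [hθb]; exact mid_e3V.bl_eV)
  obtain ⟨m2, -, -, i2⟩ := F.mid _ mid_e2V
  obtain ⟨m3, -, -, i3⟩ := F.mid _ mid_e3V
  have hinj : ∀ {a b : V}, Mid a → Mid b → φ a = φ b → a = b := fun ha hb e' => F.eq_of ha hb e'
  have ha' : wS ρ (h * Xa * h⁻¹) = φ e2V := by rw [F.toW _ hWa, hθa, md_of_mid mid_e2V]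
  have hb' : wS ρ (h * Xb * h⁻¹) = φ e3V := by rw [F.toW _ hWb, hθb, md_of_mid mid_e3V]
  have hne2 : φ e2V ≠ 0 := fun e' => (show e2V ≠ (0 : V) by decide)
    (hinj mid_e2V mid_zero (e'.trans F.zero.symm))
  have hne3 : φ e3V ≠ 0 := fun e' => (show e3V ≠ (0 : V) by decide)
    (hinj mid_e3V mid_zero (e'.trans F.zero.symm))
  have hne : φ e2V ≠ φ e3V := fun e' => (show e2V ≠ e3V by decide) (hinj mid_e2V mid_e3V e')
  have hKe := P.W_to_Wy heW
  obtain ⟨hMe, hρe⟩ := P.wS_spec hKe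
  have hwe : wS ρ (h * e * h⁻¹) = c 1 • φ e2V + c 2 • φ e3V := by
    rw [F.toW _ heW, hmd, F.add _ _ (F.smul _ mid_e2V).1 (F.smul _ mid_e3V).1, (F.smul _ mid_e2V).2,
      (F.smul _ mid_e3V).2]
  set a' := φ e2V with ha'd
  set b' := φ e3V with hb'd
  set lam : V := u • a' + v • b' with hlam
  set lam' : V := c 1 • a' + c 2 • b' with hlam'
  have hl' : bl eV lam' = 0 := by
    rw [hlam', bl_add_right, bl_smul_right, bl_smul_right, m2.bl_eV, m3.bl_eV, mul_zero, mul_zero, add_zero]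
  have hk0 : h * t₀ * h⁻¹ * z = z * (h * t₀ * h⁻¹) :=
    PairSetting.conj_comm (g := h) rfl P.hy (comm_y_of_mem P (h0 true))
  have hprod : ρ (h * t₀ * h⁻¹) * Te lam' hl' = Te lam hl * T a' b' hq hb := by
    rw [← hbad, het, show h * (t₀ * e) * h⁻¹ = h * t₀ * h⁻¹ * (h * e * h⁻¹) by group,
      P.toSetting.ρ_mul hk0 hKe.2, hρe]
    exact congrArg _ (Te_congr hwe.symm _ _)
  have hq3 : q b' = 0 := by rw [hb'd, F.q_eq _ mid_e3V, q_e3V]
  have heq : bl eV a' = 0 := m2.bl_eV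
  have heq' : bl eV b' = 0 := m3.bl_eV
  have hTe : ap (T a' b' hq hb) eV = eV := by
    rw [ap_T, sgf_eq, heq, heq', mul_zero, zero_smul, add_zero, zero_add, zero_smul, add_zero]
  have hperp : bl lam' a' = 0 ∧ bl lam' b' = 0 := by
    constructor
    · rw [hlam', bl_add_left, bl_smul_left, bl_smul_left, bl_self, bl_comm b', hb, mul_zero, mul_zero, add_zero]
    · rw [hlam', bl_add_left, bl_smul_left, bl_smul_left, bl_self, hb, mul_zero, mul_zero, add_zero]
  have hmid' : Mid lam' := by rw [← hwe]; exact hMe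
  have hTl : md (ap (T a' b' hq hb) lam') = lam' := by
    rw [ap_T, sgf_eq, hperp.1, hperp.2, mul_zero, zero_smul, add_zero, zero_add, zero_smul, add_zero,
      md_of_mid hmid']
  have hcomm : T a' b' hq hb * Te lam' hl' = Te lam' hl' * T a' b' hq hb := by
    have := conj_Te (g := T a' b' hq hb) hTe hl'
    rw [mul_inv_eq_iff_eq_mul] at this
    rw [this]
    exact congrArg (· * _) (Te_congr hTl _ _)
  have hK0 : ρ (h * t₀ * h⁻¹) = Te (lam + lam') (by rw [bl_add_right, hl, hl', add_zero]) *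
      T a' b' hq hb := by
    have hinv : (Te lam' hl')⁻¹ = Te lam' hl' := inv_eq_of_mul_eq_one_right (T_mul_self _ _)
    rw [eq_mul_inv_iff_mul_eq.2 hprod, hinv, mul_assoc, hcomm, ← mul_assoc, Te_mul]
  set μ := v + c 2 with hμ
  set ν := u + c 1 with hν
  have hqp : q (a' + μ • eV) = 0 := by
    rw [q_add, hq, bl_smul_right, bl_comm, heq, mul_zero]
    rcases z2_cases μ with e' | e' <;> rw [e'] <;> simp [q_eV]
  have hpp : bl (a' + μ • eV) (b' + ν • eV) = 0 := by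
    rw [bl_add_left, bl_smul_left, bl_add_right, bl_add_right, bl_smul_right, bl_smul_right, hb, bl_comm a',
      heq, heq', bl_self]
    simp
  refine quadrangle P L T₀ hWa hWb ha' hb' hne2 hne3 hne μ ν hqp hpp ?_
  rw [hK0, ← T_point hq hq3 hb heq heq' μ ν (by
    rw [bl_add_right, bl_smul_right, bl_smul_right, heq, heq', mul_zero, mul_zero, add_zero]) hqp hpp]
  refine congrArg (· * _) (Te_congr ?_ _ _)
  rw [hlam, hlam', hμ, hν, add_smul, add_smul]
  abel

/-- At most one of the two families is good. -/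
theorem not_both' (hT : IsMulCommutative ↥(AU z Qf θ (InW true)))
    (hF : IsMulCommutative ↥(AU z Qf θ (InW false))) : False := by
  obtain ⟨φ, ψ, F⟩ := exists_phi P
  exact not_both P F (quad_holds P F) hT hF

/-- An element of the normaliser moves the central involution. -/
theorem exists_move (hA : Cfsg.IsElementaryAbelian 2 (AU z Qf θ (InW true))) :
    ∃ n ∈ Subgroup.normalizer (AU z Qf θ (InW true) : Set G), n * z * n⁻¹ ≠ z :=
  exists_normalizer_move P hA (not_both' P hA.1)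

/-- An exchanging element in the normaliser fixing the plane of middle vectors. -/
theorem exists_swap (hA : Cfsg.IsElementaryAbelian 2 (AU z Qf θ (InW true))) :
    ∃ h' φ ψ, PairSetting z Qf θ ρ J y h' ∧ Phi z Qf θ ρ y h' φ ψ ∧
      h' ∈ Subgroup.normalizer (AU z Qf θ (InW true) : Set G) ∧
      φ e2V = e2V ∧ φ e3V = e3V ∧ φ e4V = e4V :=
  exists_swap_normalizer P hA (not_both' P hA.1)

section Sections

variable {Y : (Fin 4 → ZMod 2) → G} (hY : ∀ v, Y v ∈ Qf z) (hYθ : ∀ v, θ (Y v) = wVec true v)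
include hY hYθ

theorem linePair_Y {a b : Fin 4 → ZMod 2} (ha : a ≠ 0) (hb : b ≠ 0) (hab : a ≠ b) :
    LinePair z Qf θ (Y a) (Y b) := by
  have h0 : ∀ {c}, c ≠ 0 → wVec true c ≠ 0 := fun hc e =>
    hc (wVec_inj true _ _ (e.trans (by simp [wVec])))
  refine ⟨hY a, hY b, ?_, ?_, ?_, ?_, ?_, ?_⟩ <;> simp only [hYθ]
  · exact wVec_spec true a
  · exact wVec_spec true b
  · exact bl_wVec true a b
  · exact h0 ha
  · exact h0 hb
  · exact fun e => hab (wVec_inj true _ _ e)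

/-- The product of two lifts through a point is a lift on the third line for one of the two signs. -/
theorem exists_third (hA : Cfsg.IsElementaryAbelian 2 (AU z Qf θ (InW true)))
    {p a b : Fin 4 → ZMod 2} (hp : p ≠ 0) (ha : a ≠ 0) (hb : b ≠ 0) (hpa : p ≠ a) (hpb : p ≠ b)
    (hab : a + b ≠ 0) (hpab : p ≠ a + b) {t₁ t₂ : G} (T₁ : OctLift z Qf (Y p) (Y a) t₁)
    (T₂ : OctLift z Qf (Y p) (Y b) t₂) :
    ∃ β : ZMod 2, OctLift z Qf (Y p) (zp z β * Y (a + b)) (t₁ * t₂) := by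
  have L₁ := linePair_Y P hY hYθ hp ha hpa
  have L₂ := linePair_Y P hY hYθ hp hb hpb
  have L := linePair_Y P hY hYθ hp hab hpab
  have m₁ := octLift_mem_AU P L₁ ⟨p, hYθ p⟩ ⟨a, hYθ a⟩ T₁
  have m₂ := octLift_mem_AU P L₂ ⟨p, hYθ p⟩ ⟨b, hYθ b⟩ T₂
  have hc : Commute t₁ t₂ := congrArg Subtype.val (hA.1.is_comm.comm (⟨t₁, m₁⟩ : ↥(AU z Qf θ (InW true))) ⟨t₂, m₂⟩)
  have htz := comm_mul T₁.comm T₂.comm
  have hsq : t₁ * t₂ * (t₁ * t₂) = 1 := by rw [hc.symm.mul_mul_mul_comm, T₁.sq, T₂.sq, one_mul]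
  have hρ : ρ (t₁ * t₂) = CfsgLib.ConwayType.T (θ (Y p)) (θ (Y (a + b))) L.qa L.orth := by
    rw [P.toSetting.ρ_mul T₁.comm T₂.comm, octLift_ρ P L₁ T₁, octLift_ρ P L₂ T₂, T_mul L₁.qa L₁.orth L₂.orth]
    exact T_congr rfl (by rw [hYθ, hYθ, hYθ, wVec_add]) _ _
  have hQ : t₁ * t₂ ∉ Qf z := fun e => T_ne_one P L.qa L.orth L.a0 L.b0 L.ne
    (hρ.symm.trans (P.toSetting.ρ_of_mem e))
  have hm := (Qf (Y p)).mul_mem T₁.memA T₂.memA
  rcases lift_or P L htz hsq hQ hm hρ with e | e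
  · exact ⟨0, htz, hsq, hQ, hm, by rw [zp_zero, one_mul]; exact e⟩
  · exact ⟨1, htz, hsq, hQ, hm, by rw [zp_one]; exact e⟩

omit hY hYθ in
/-- The sign of the pencils. -/
def Pencil (z : G) (Qf : G → Subgroup G) (Y : (Fin 4 → ZMod 2) → G) (β : ZMod 2) : Prop :=
  ∀ p a b : Fin 4 → ZMod 2, (∀ d : Fin 3 → ZMod 2, ∑ j, d j • ![p, a, b] j = 0 → d = 0) →
    ∀ t₁ t₂, OctLift z Qf (Y p) (Y a) t₁ → OctLift z Qf (Y p) (Y b) t₂ →
      OctLift z Qf (Y p) (zp z β * Y (a + b)) (t₁ * t₂)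

/-- The sign is the same for all pencils. -/
theorem exists_pencil (hYadd : ∀ u v, Y (u + v) = Y u * Y v)
    (hA : Cfsg.IsElementaryAbelian 2 (AU z Qf θ (InW true))) : ∃ β, Pencil z Qf Y β := by
  set s : Fin 4 → (Fin 4 → ZMod 2) := fun j => Pi.single j 1 with hs
  have hfacts : s 0 ≠ 0 ∧ s 1 ≠ 0 ∧ s 2 ≠ 0 ∧ s 0 ≠ s 1 ∧ s 0 ≠ s 2 ∧ s 1 + s 2 ≠ 0 ∧
      s 0 ≠ s 1 + s 2 := by rw [hs]; decide +kernel
  obtain ⟨n0, n1, n2, n01, n02, n12, n012⟩ := hfacts
  have L₁ := linePair_Y P hY hYθ n0 n1 n01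
  have L₂ := linePair_Y P hY hYθ n0 n2 n02
  have L₃ := linePair_Y P hY hYθ n0 n12 n012
  obtain ⟨u₁, U₁⟩ := octLift_exists P L₁
  obtain ⟨u₂, U₂⟩ := octLift_exists P L₂
  obtain ⟨β, U⟩ := exists_third P hY hYθ hA n0 n1 n2 n01 n02 n12 n012 U₁ U₂
  refine ⟨β, fun p a b hc t₁ t₂ T₁ T₂ => ?_⟩
  obtain ⟨g, hg, hgc⟩ := exists_stab_flag P.half true ![p, a, b] hc
  obtain ⟨c, hcz, -, -, hcY⟩ := exists_lift_section P.toSetting Y hY hYθ hYadd ⟨g, hg⟩
  have hres : ∀ j : Fin 3, res J true ⟨g, hg⟩ (s (Fin.castSucc j)) = ![p, a, b] j := fun j =>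
    wVec_inj true _ _ (by
      rw [← res_spec]
      show ap g (wVec true (Pi.single (Fin.castSucc j) 1)) = _
      rw [wVec_single]
      exact hgc j)
  have r0 : res J true ⟨g, hg⟩ (s 0) = p := hres 0
  have r1 : res J true ⟨g, hg⟩ (s 1) = a := hres 1
  have r2 : res J true ⟨g, hg⟩ (s 2) = b := hres 2
  have L₁' : LinePair z Qf θ (Y p) (Y a) := by
    refine linePair_Y P hY hYθ ?_ ?_ ?_
    · rw [← r0]; intro e
      exact n0 ((res J true ⟨g, hg⟩).injective (e.trans (by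
        have := res_add P.toSetting ⟨g, hg⟩ 0 0
        rwa [add_zero, left_eq_add, eq_comm] at this)))
    · rw [← r1]; intro e
      exact n1 ((res J true ⟨g, hg⟩).injective (e.trans (by
        have := res_add P.toSetting ⟨g, hg⟩ 0 0
        rwa [add_zero, left_eq_add, eq_comm] at this)))
    · rw [← r0, ← r1]; exact fun e => n01 ((res J true ⟨g, hg⟩).injective e)
  have L₂' : LinePair z Qf θ (Y p) (Y b) := by
    refine linePair_Y P hY hYθ ?_ ?_ ?_
    · exact fun e => L₁'.a0 (by rw [e, hYθ]; simp [wVec])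
    · rw [← r2]; intro e
      exact n2 ((res J true ⟨g, hg⟩).injective (e.trans (by
        have := res_add P.toSetting ⟨g, hg⟩ 0 0
        rwa [add_zero, left_eq_add, eq_comm] at this)))
    · rw [← r0, ← r2]; exact fun e => n02 ((res J true ⟨g, hg⟩).injective e)
  have C₁ := OctLift.conj P hcz U₁
  have C₂ := OctLift.conj P hcz U₂
  have C := OctLift.conj P hcz U
  rw [hcY, hcY, r0, r1] at C₁
  rw [hcY, hcY, r0, r2] at C₂
  rw [hcY, show c * (zp z β * Y (s 1 + s 2)) * c⁻¹ = c * zp z β * c⁻¹ * (c * Y (s 1 + s 2) * c⁻¹) by group,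
    conj_fix_iff.2 (zp_comm hcz β), hcY, res_add P.toSetting, r0, r1, r2,
    show c * (u₁ * u₂) * c⁻¹ = c * u₁ * c⁻¹ * (c * u₂ * c⁻¹) by group] at C
  have hlin : LinePair z Qf θ (Y p) (zp z β * Y (a + b)) := by
    have h3 : LinePair z Qf θ (Y p) (Y (a + b)) := by
      refine linePair_Y P hY hYθ (fun e => L₁'.a0 (by rw [e, hYθ]; simp [wVec])) ?_ ?_
      · rw [← r1, ← r2, ← res_add P.toSetting]; intro e
        exact n12 ((res J true ⟨g, hg⟩).injective (e.trans (by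
          have := res_add P.toSetting ⟨g, hg⟩ 0 0
          rwa [add_zero, left_eq_add, eq_comm] at this)))
      · rw [← r0, ← r1, ← r2, ← res_add P.toSetting]
        exact fun e => n012 ((res J true ⟨g, hg⟩).injective e)
    rcases z2_cases β with rfl | rfl
    · rwa [zp_zero, one_mul]
    · rw [zp_one]; exact h3.shift P
  have hz : Commute (c * u₁ * c⁻¹) z := C₁.comm
  rcases octLift_unique P L₁' C₁ T₁ with rfl | rfl <;> rcases octLift_unique P L₂' C₂ T₂ with rfl | rfl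
  · exact C
  · rw [← mul_assoc, hz.eq, mul_assoc]; exact OctLift.zmul P hlin C
  · rw [mul_assoc]; exact OctLift.zmul P hlin C
  · rw [mul_assoc, ← mul_assoc _ z, hz.eq, mul_assoc z, ← mul_assoc z z, P.toSetting.z_sq, one_mul]; exact C

/-- A numbered vector is in the parameter of the image of no lift on a line through it. -/
theorem line_out {φ ψ : V → V} (F : Phi z Qf θ ρ y h φ ψ)
    (hn : h ∈ Subgroup.normalizer (AU z Qf θ (InW true) : Set G))
    (hφ : φ e2V = e2V ∧ φ e3V = e3V ∧ φ e4V = e4V) {a b : Fin 8} (ha : cN a ≠ 0) (hb : cN b ≠ 0)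
    (hab : cN a ≠ cN b) {t : G} (T' : OctLift z Qf (Y (cN a)) (Y (cN b)) t) :
    (∃ x : Fin 8, ρ (h * t * h⁻¹) = Te (wVec true (cN x)) (cN_spec x).bl_eV * ρ t) ∧
      ∀ x : Fin 8, ρ (h * t * h⁻¹) = Te (wVec true (cN x)) (cN_spec x).bl_eV * ρ t →
        GolayTable.inLine x a b = false := by
  have L := linePair_Y P hY hYθ ha hb hab
  have hfix : ∀ n : Fin 8, φ (wVec true (cN n)) = wVec true (cN n) := by
    intro n
    have h0 := mid_coord _ (cN_spec n)
    rw [wVec_mid_eq _ h0, F.add _ _ ((F.smul _ mid_e2V).1.add (F.smul _ mid_e3V).1) (F.smul _ mid_e4V).1,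
      F.add _ _ (F.smul _ mid_e2V).1 (F.smul _ mid_e3V).1, (F.smul _ mid_e2V).2, (F.smul _ mid_e3V).2,
      (F.smul _ mid_e4V).2, hφ.1, hφ.2.1, hφ.2.2]
  have hma : Mid (wVec true (cN a)) := cN_spec a
  have hmb : Mid (wVec true (cN b)) := cN_spec b
  have hρ : ρ t = CfsgLib.ConwayType.T (wVec true (cN a)) (wVec true (cN b)) (wVec_spec true _)
      (bl_wVec true _ _) := by
    rw [octLift_ρ P L T']
    exact T_congr (hYθ _) (hYθ _) _ _
  refine ⟨?_, fun x hx => ?_⟩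
  · obtain ⟨w, hw, ⟨c, hc⟩, e⟩ := exists_w P F hn hma hmb ⟨_, rfl⟩ ⟨_, rfl⟩ (hfix a) (hfix b)
      (octLift_mem_AU P L ⟨_, hYθ _⟩ ⟨_, hYθ _⟩ T') hρ
    obtain ⟨x, rfl⟩ := cN_surj c (hc ▸ hw)
    refine ⟨x, ?_⟩
    rw [e, hρ]
    exact congrArg (· * _) (Te_congr hc _ _)
  · by_contra hin
    rw [Bool.not_eq_false] at hin
    obtain ⟨μ, ν, hμν⟩ := inLine_span x a b hin
    have hWa : inW z Qf y (Y (cN a)) := (P.W_iff (hY _)).2 (by rw [hYθ]; exact hma.bl_eV)
    have hWb : inW z Qf y (Y (cN b)) := (P.W_iff (hY _)).2 (by rw [hYθ]; exact hmb.bl_eV)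
    have ha' : wS ρ (h * Y (cN a) * h⁻¹) = wVec true (cN a) := by
      rw [F.toW _ hWa, hYθ, md_of_mid hma, hfix]
    have hb' : wS ρ (h * Y (cN b) * h⁻¹) = wVec true (cN b) := by
      rw [F.toW _ hWb, hYθ, md_of_mid hmb, hfix]
    have h0 : ∀ {c}, c ≠ 0 → wVec true c ≠ 0 := fun hc e =>
      hc (wVec_inj true _ _ (e.trans (by simp [wVec])))
    have hqp : q (wVec true (cN a) + μ • eV) = 0 := by
      rw [q_add, wVec_spec, bl_smul_right, bl_comm, hma.bl_eV, mul_zero]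
      rcases z2_cases μ with e | e <;> rw [e] <;> simp [q_eV]
    have hpp : bl (wVec true (cN a) + μ • eV) (wVec true (cN b) + ν • eV) = 0 := by
      rw [bl_add_left, bl_smul_left, bl_add_right, bl_add_right, bl_smul_right, bl_smul_right, bl_wVec,
        bl_comm (wVec true (cN a)) eV, hma.bl_eV, hmb.bl_eV, bl_self]
      simp
    refine quadrangle P L T' hWa hWb ha' hb' (h0 ha) (h0 hb) (fun e => hab (wVec_inj true _ _ e)) μ ν hqp hpp ?_
    rw [hx, hρ, ← T_point (wVec_spec true _) (wVec_spec true _) (bl_wVec true _ _) hma.bl_eV hmb.bl_eV μ ν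
      (by rw [bl_add_right, bl_smul_right, bl_smul_right, hma.bl_eV, hmb.bl_eV, mul_zero, mul_zero, add_zero])
      hqp hpp]
    refine congrArg (· * _) (Te_congr ?_ _ _)
    have hsm : ∀ (s : ZMod 2) (c : Fin 4 → ZMod 2), wVec true (s • c) = s • wVec true c := by
      intro s c
      rcases z2_cases s with rfl | rfl <;> simp [wVec]
    rw [hμν, ← wVec_add, hsm, hsm]

omit hY hYθ in
/-- The parameters add along products. -/
theorem out_mul {t₁ t₂ : G}
    (hn : h ∈ Subgroup.normalizer (AU z Qf θ (InW true) : Set G))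
    (h₁ : t₁ ∈ AU z Qf θ (InW true)) (h₂ : t₂ ∈ AU z Qf θ (InW true)) {x₁ x₂ : Fin 8}
    (e₁ : ρ (h * t₁ * h⁻¹) = Te (wVec true (cN x₁)) (cN_spec x₁).bl_eV * ρ t₁)
    (e₂ : ρ (h * t₂ * h⁻¹) = Te (wVec true (cN x₂)) (cN_spec x₂).bl_eV * ρ t₂) {x : Fin 8}
    (hx : (x : ℕ) = x₁ ^^^ x₂) :
    ρ (h * (t₁ * t₂) * h⁻¹) = Te (wVec true (cN x)) (cN_spec x).bl_eV * ρ (t₁ * t₂) := by
  have z₁ := comm_z_of_mem P.toSetting h₁
  have z₂ := comm_z_of_mem P.toSetting h₂
  have k₁ := comm_z_of_mem P.toSetting ((Subgroup.mem_normalizer_iff.1 hn t₁).1 h₁)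
  have k₂ := comm_z_of_mem P.toSetting ((Subgroup.mem_normalizer_iff.1 hn t₂).1 h₂)
  have hfix : ∀ c, ap (ρ t₁) (wVec true c) = wVec true c := ρ_fix P.toSetting h₁
  have hev : ap (ρ t₁) eV = eV := by
    have := hfix (Pi.single 0 1)
    rwa [wVec_single] at this
  have hcomm : ρ t₁ * Te (wVec true (cN x₂)) (cN_spec x₂).bl_eV =
      Te (wVec true (cN x₂)) (cN_spec x₂).bl_eV * ρ t₁ := by
    have := conj_Te hev (cN_spec x₂).bl_eV
    rw [mul_inv_eq_iff_eq_mul] at this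
    rw [this]
    exact congrArg (· * _) (Te_congr (by rw [hfix, md_of_mid (cN_spec x₂)]) _ _)
  rw [show h * (t₁ * t₂) * h⁻¹ = h * t₁ * h⁻¹ * (h * t₂ * h⁻¹) by group, P.toSetting.ρ_mul k₁ k₂, e₁, e₂,
    P.toSetting.ρ_mul z₁ z₂, mul_assoc, ← mul_assoc (ρ t₁), hcomm, ← mul_assoc, ← mul_assoc, Te_mul,
    mul_assoc]
  refine congrArg (· * _) (Te_congr ?_ _ _)
  rw [wVec_add, ← cN_xor, hx]

/-- The rule of the pencils. -/
theorem pencil_one (hYadd : ∀ u v, Y (u + v) = Y u * Y v)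
    (hA : Cfsg.IsElementaryAbelian 2 (AU z Qf θ (InW true))) {β : ZMod 2} (hβ : Pencil z Qf Y β) :
    β = 1 := by
  refine (z2_cases β).resolve_left fun h0 => ?_
  subst h0
  obtain ⟨h', φ, ψ, P', F, hn, e2, e3, e4⟩ := exists_swap P hA
  have hne : ∀ {a b : Fin 8}, cN a ≠ 0 → cN b ≠ 0 → cN a ≠ cN b →
      LinePair z Qf θ (Y (cN a)) (Y (cN b)) := fun ha hb hab => linePair_Y P hY hYθ ha hb hab
  have out := fun {a b : Fin 8} (ha : cN a ≠ 0) (hb : cN b ≠ 0) (hab : cN a ≠ cN b) {t : G}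
      (T' : OctLift z Qf (Y (cN a)) (Y (cN b)) t) =>
    line_out P' hY hYθ F hn ⟨e2, e3, e4⟩ ha hb hab T'
  have hmem : ∀ {a b : Fin 8}, cN a ≠ 0 → cN b ≠ 0 → cN a ≠ cN b → ∀ {t : G},
      OctLift z Qf (Y (cN a)) (Y (cN b)) t → t ∈ AU z Qf θ (InW true) := fun ha hb hab _ T' =>
    octLift_mem_AU P (hne ha hb hab) ⟨_, hYθ _⟩ ⟨_, hYθ _⟩ T'
  have n1 : cN (1 : Fin 8) ≠ 0 := by decide +kernel
  have n2 : cN (2 : Fin 8) ≠ 0 := by decide +kernel
  have n3 : cN (3 : Fin 8) ≠ 0 := by decide +kernel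
  have n4 : cN (4 : Fin 8) ≠ 0 := by decide +kernel
  have d12 : cN (1 : Fin 8) ≠ cN (2 : Fin 8) := by decide +kernel
  have d14 : cN (1 : Fin 8) ≠ cN (4 : Fin 8) := by decide +kernel
  have d24 : cN (2 : Fin 8) ≠ cN (4 : Fin 8) := by decide +kernel
  have d31 : cN (3 : Fin 8) ≠ cN (1 : Fin 8) := by decide +kernel
  have d34 : cN (3 : Fin 8) ≠ cN (4 : Fin 8) := by decide +kernel
  have s3 : cN (1 : Fin 8) + cN (2 : Fin 8) = cN (3 : Fin 8) := by decide +kernel
  have s3' : cN (2 : Fin 8) + cN (1 : Fin 8) = cN (3 : Fin 8) := by decide +kernel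
  have s5 : cN (4 : Fin 8) + cN (1 : Fin 8) = cN (5 : Fin 8) := by decide +kernel
  have s5' : cN (1 : Fin 8) + cN (4 : Fin 8) = cN (5 : Fin 8) := by decide +kernel
  have s6 : cN (4 : Fin 8) + cN (2 : Fin 8) = cN (6 : Fin 8) := by decide +kernel
  obtain ⟨u12, U12⟩ := octLift_exists P (hne n1 n2 d12)
  obtain ⟨u14, U14⟩ := octLift_exists P (hne n1 n4 d14)
  obtain ⟨u24, U24⟩ := octLift_exists P (hne n2 n4 d24)
  obtain ⟨⟨zz, hz⟩, oz⟩ := out n1 n2 d12 U12
  obtain ⟨⟨yy, hy⟩, oy⟩ := out n1 n4 d14 U14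
  obtain ⟨⟨xx, hx⟩, ox⟩ := out n2 n4 d24 U24
  have m12 := hmem n1 n2 d12 U12
  have m14 := hmem n1 n4 d14 U14
  have m24 := hmem n2 n4 d24 U24
  have sum : ∀ {p a b c : Fin 8} {t₁ t₂ : G},
      (∀ d : Fin 3 → ZMod 2, ∑ j, d j • ![cN p, cN a, cN b] j = 0 → d = 0) → cN a + cN b = cN c →
      OctLift z Qf (Y (cN p)) (Y (cN a)) t₁ → OctLift z Qf (Y (cN p)) (Y (cN b)) t₂ →
      OctLift z Qf (Y (cN p)) (Y (cN c)) (t₁ * t₂) := fun hi hs T₁ T₂ => by
    have := hβ _ _ _ hi _ _ T₁ T₂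
    rwa [zp_zero, one_mul, hs] at this
  have cls : ∀ a b : Fin 8, ((a : ℕ) ^^^ b) < 8 := by decide
  have T43 := sum (p := 4) (a := 2) (b := 1) (c := 3) (by decide +kernel) s3' U24.swap U14.swap
  have T25 := sum (p := 2) (a := 4) (b := 1) (c := 5) (by decide +kernel) s5 U24 U12.swap
  have T16 := sum (p := 1) (a := 4) (b := 2) (c := 6) (by decide +kernel) s6 U14 U12
  have T31 : OctLift z Qf (Y (cN (3 : Fin 8))) (Y (cN (1 : Fin 8))) u12 := by
    have := (OctLift.line_prod P (hne n1 n2 d12) U12).swap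
    rwa [← hYadd, s3] at this
  have T35 := sum (p := 3) (a := 1) (b := 4) (c := 5) (by decide +kernel) s5' T31 T43.swap
  have e43 := out_mul P' hn m24 m14 hx hy (x := ⟨_, cls xx yy⟩) rfl
  have e25 := out_mul P' hn m24 m12 hx hz (x := ⟨_, cls xx zz⟩) rfl
  have e16 := out_mul P' hn m14 m12 hy hz (x := ⟨_, cls yy zz⟩) rfl
  have hm43 := hmem n4 n3 d34.symm T43
  have e35 := out_mul P' hn m12 hm43 hz e43 (x := ⟨_, cls zz ⟨_, cls xx yy⟩⟩) rfl
  have h1 := ox xx hx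
  have h2 := oy yy hy
  have h3 := oz zz hz
  have h4 := (out n4 n3 d34.symm T43).2 _ e43
  have h5 := (out n2 (by decide +kernel) (by decide +kernel) T25).2 _ e25
  have h6 := (out n1 (by decide +kernel) (by decide +kernel) T16).2 _ e16
  have h7 := (out n3 (by decide +kernel) (by decide +kernel) T35).2 _ e35
  refine GolayTable.diag_linear_impossible xx.isLt yy.isLt zz.isLt h1 h2 h3 h4 h5 h6 ?_
  rw [show (xx : ℕ) ^^^ yy ^^^ zz = zz ^^^ (xx ^^^ yy) from Nat.xor_comm _ _]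
  exact h7

/-- The product of the lifts of two lines through a point is the lift of the third with the other sign. -/
theorem pencil (hYadd : ∀ u v, Y (u + v) = Y u * Y v)
    (hA : Cfsg.IsElementaryAbelian 2 (AU z Qf θ (InW true))) (p a b : Fin 4 → ZMod 2)
    (hi : ∀ d : Fin 3 → ZMod 2, ∑ j, d j • ![p, a, b] j = 0 → d = 0) (t₁ t₂ : G)
    (T₁ : OctLift z Qf (Y p) (Y a) t₁) (T₂ : OctLift z Qf (Y p) (Y b) t₂) :
    OctLift z Qf (Y p) (z * Y (a + b)) (t₁ * t₂) := by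
  obtain ⟨β, hβ⟩ := exists_pencil P hY hYθ hYadd hA
  have e := pencil_one P hY hYθ hYadd hA hβ
  have := hβ p a b hi t₁ t₂ T₁ T₂
  rwa [e, zp_one] at this

end Sections

end CfsgLib.ConwayType.Golay
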