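import Cfsg.Agent.Lib.ConwayType.Golay.FibreMoves

/-!
Kernel checks on the table: invariance under the moves, every number is two moves away from a decomposable
one, and the parameters of the interchanging map are forced by eighteen comparisons.
-/

set_option autoImplicit false
set_option linter.unusedSectionVars false
set_option maxRecDepth 100000
set_option exponentiation.threshold 4096
set_option maxHeartbeats 4000000

namespace CfsgLib.ConwayType.Golay

open CfsgLib.ConwayType CfsgLib.ConwayType.GolayModel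

/-- The linear map with given images on numbers below 2048. -/
def linNat (imgs : Fin 11 → ℕ) (n : ℕ) : ℕ :=
  ((List.finRange 11).map fun i : Fin 11 => bif n.testBit i then imgs i else 0).foldr (· ^^^ ·) 0 % 2048

/-- The six line coordinates satisfy the Plücker relation. -/
def decNat (n : ℕ) : Bool :=
  xor (n.testBit 5 && n.testBit 10) (xor (n.testBit 6 && n.testBit 9) (n.testBit 7 && n.testBit 8)) == false

/-- The images under the interchanging element with parameters `j`, `u`. -/
def hImg (j : Fin 8) (u₀ u₁ u₂ : Fin 16) : Fin 11 → ℕ :=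
  ![2, 1, 32, 64, 128,
    (2 <<< 1) ^^^ (if (j : ℕ).testBit 0 then 2 else 0),
    (2 <<< 2) ^^^ (if (j : ℕ).testBit 1 then 2 else 0),
    (2 <<< 3) ^^^ (if (j : ℕ).testBit 2 then 2 else 0),
    ((u₂ : ℕ) <<< 1) ^^^ (15 <<< 5), ((u₁ : ℕ) <<< 1) ^^^ (19 <<< 5), ((u₀ : ℕ) <<< 1) ^^^ (33 <<< 5)]

/-- The interchanging map. -/
def hGood : Fin 11 → ℕ := hImg 7 14 13 8

/-- The moves. -/
def fibreMoves : List (Fin 11 → ℕ) := [rImg 0, rImg 1, rImg 2, rImg 3, hGood]

/-- The eighteen comparisons: a word in the moves and a number. -/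
def pinTests : List (List (Fin 5) × ℕ) :=
  [([4], 1244), ([4, 1, 4], 1032), ([4], 1245), ([4, 1, 4], 1024), ([4, 2, 4], 1024),
   ([4, 3, 4], 1040), ([4, 1, 4], 1040), ([4, 1, 4], 516), ([4], 568), ([4], 569), ([4], 1637),
   ([4, 1, 4], 512), ([4, 3, 4], 512), ([4], 272), ([4], 273), ([4, 1, 4], 256), ([4], 776), ([4], 1284)]

/-- The maps named by a test, with the interchanging map given. -/
def testMap (hm : Fin 11 → ℕ) (k : Fin 5) : Fin 11 → ℕ := ![rImg 0, rImg 1, rImg 2, rImg 3, hm] k

/-- The image of a test number. -/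
def testImage (hm : Fin 11 → ℕ) (t : List (Fin 5) × ℕ) : ℕ := t.1.foldl (fun n k => linNat (testMap hm k) n) t.2

/-- Some test fails. -/
def failsPin (hm : Fin 11 → ℕ) : Bool :=
  pinTests.any fun t => decNat (testImage hm t) && octTable.testBit t.2 != octTable.testBit (testImage hm t)

theorem pinTests_dec : (pinTests.all fun t => decide (t.2 < 2048) && decNat t.2) = true := by
  decide +kernel

/-- Along the evaluation of a word the interchanging map is used only off the positions in `S`. -/
def safe (hm : Fin 11 → ℕ) (S : List (Fin 11)) : List (Fin 5) → ℕ → Bool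
  | [], _ => true
  | k :: l, n => (k != 4 || S.all fun i : Fin 11 => !n.testBit i) && safe hm S l (linNat (testMap hm k) n)

/-- Some test fails whatever the images at the positions in `S` are. -/
def failsOff (S : List (Fin 11)) (hm : Fin 11 → ℕ) : Bool :=
  pinTests.any fun t => safe hm S t.1 t.2 && (decNat (testImage hm t) &&
    octTable.testBit t.2 != octTable.testBit (testImage hm t))

theorem linNat_congr {a b : Fin 11 → ℕ} {n : ℕ} (h : ∀ i : Fin 11, n.testBit i = true → a i = b i) :
    linNat a n = linNat b n := by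
  unfold linNat
  congr 2
  refine List.map_congr_left fun i _ => ?_
  cases hb : n.testBit i
  · rfl
  · exact h i hb

theorem foldl_congr_safe {hm hm' : Fin 11 → ℕ} {S : List (Fin 11)} (h : ∀ i, i ∉ S → hm' i = hm i) :
    ∀ (l : List (Fin 5)) (n : ℕ), safe hm S l n = true →
      l.foldl (fun n k => linNat (testMap hm' k) n) n = l.foldl (fun n k => linNat (testMap hm k) n) n := by
  intro l
  induction l with
  | nil => exact fun _ _ => rfl
  | cons k l ih =>
    intro n hs
    simp only [safe, Bool.and_eq_true, Bool.or_eq_true] at hs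
    obtain ⟨h1, h2⟩ := hs
    have e : linNat (testMap hm' k) n = linNat (testMap hm k) n := by
      refine linNat_congr fun i hi => ?_
      fin_cases k <;> try rfl
      show hm' i = hm i
      refine h i fun hiS => ?_
      rcases h1 with h1 | h1
      · simp at h1
      · have := List.all_eq_true.1 h1 i hiS
        simp [hi] at this
    rw [List.foldl_cons, List.foldl_cons, e]
    exact ih _ h2

theorem failsPin_of_off {hm hm' : Fin 11 → ℕ} {S : List (Fin 11)} (h : ∀ i, i ∉ S → hm' i = hm i)
    (hf : failsOff S hm = true) : failsPin hm' = true := by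
  obtain ⟨t, ht, hb⟩ := List.any_eq_true.1 hf
  rw [Bool.and_eq_true] at hb
  refine List.any_eq_true.2 ⟨t, ht, ?_⟩
  have e : testImage hm' t = testImage hm t := foldl_congr_safe h t.1 t.2 hb.1
  rw [e]
  exact hb.2

theorem pin_staged : ∀ (j : Fin 8) (u₀ : Fin 16), failsOff [8, 9] (hImg j u₀ 0 0) = true ∨
    ∀ u₁ : Fin 16, failsOff [8] (hImg j u₀ u₁ 0) = true ∨
      ∀ u₂ : Fin 16, failsPin (hImg j u₀ u₁ u₂) = true ∨ (j = 7 ∧ u₀ = 14 ∧ u₁ = 13 ∧ u₂ = 8) := by
  decide +kernel

theorem pin_unique (j : Fin 8) (u₀ u₁ u₂ : Fin 16) : failsPin (hImg j u₀ u₁ u₂) = true ∨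
    (j = 7 ∧ u₀ = 14 ∧ u₁ = 13 ∧ u₂ = 8) := by
  rcases pin_staged j u₀ with h | h
  · exact Or.inl (failsPin_of_off (fun i hi => by fin_cases i <;> simp [hImg] at hi ⊢) h)
  rcases h u₁ with h' | h'
  · exact Or.inl (failsPin_of_off (fun i hi => by fin_cases i <;> simp [hImg] at hi ⊢) h')
  exact h' u₂

theorem moves_inv : ((List.range 2048).all fun n => fibreMoves.all fun m =>
    octTable.testBit (linNat m n) == octTable.testBit n) = true := by
  decide +kernel

theorem moves_reach : ((List.range 2048).all fun n => decNat n ||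
    fibreMoves.any fun a => decNat (linNat a n) || fibreMoves.any fun b => decNat (linNat b (linNat a n))) =
      true := by
  decide +kernel

theorem vecN_mod (k : ℕ) : vecN (k % 2048) = vecN k := by
  funext i
  simp only [vecN]
  rw [show 2048 = 2 ^ 11 from rfl, Nat.testBit_mod_two_pow]
  simp [i.isLt]

theorem enc_vecN (k : ℕ) : enc (vecN k) = k % 2048 := by
  rw [← vecN_mod]
  exact enc_dec _ (Nat.mod_lt _ (by norm_num))

theorem enc_linN (imgs : Fin 11 → ℕ) (x : Fin 11 → ZMod 2) :
    enc (vecN (linN imgs x)) = linNat imgs (enc x) := by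
  rw [enc_vecN, linNat, linN]
  congr 2
  refine List.map_congr_left fun i _ => ?_
  have h := enc_lt_inj.2 x i
  cases hb : (enc x).testBit i <;> rw [hb] at h <;> simp [h]

/-- The table as a predicate on vectors. -/
def tableV (x : Fin 11 → ZMod 2) : Bool := octTable.testBit (enc x)

/-- Decomposability on vectors. -/
def decV (x : Fin 11 → ZMod 2) : Bool := decNat (enc x)

variable {G : Type*} [Group G] {Φ : (Fin 11 → ZMod 2) → G} {z : G}

/-- The classes on decomposable elements and the realised moves give all classes. -/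
theorem isConj_iff_table (hdec : ∀ x, decV x = true → (IsConj (Φ x) z ↔ tableV x = true))
    (hR : ∀ k : Fin 4, ∃ n : G, ∀ x, n * Φ x * n⁻¹ = Φ (vecN (linN (rImg k) x)))
    (hH : ∃ (j : Fin 8) (u₀ u₁ u₂ : Fin 16) (n : G),
      ∀ x, n * Φ x * n⁻¹ = Φ (vecN (linN (hImg j u₀ u₁ u₂) x)))
    (x : Fin 11 → ZMod 2) : IsConj (Φ x) z ↔ octTable.testBit (enc x) = true := by
  obtain ⟨j, u₀, u₁, u₂, n, hn⟩ := hH
  have hreal : ∀ k : Fin 5, ∃ g : G, ∀ x, g * Φ x * g⁻¹ =
      Φ (vecN (linN (testMap (hImg j u₀ u₁ u₂) k) x)) := by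
    intro k
    fin_cases k
    exacts [hR 0, hR 1, hR 2, hR 3, ⟨n, hn⟩]
  -- the parameters
  have hgood : hImg j u₀ u₁ u₂ = hGood := by
    rcases pin_unique j u₀ u₁ u₂ with hf | ⟨rfl, rfl, rfl, rfl⟩
    · exfalso
      obtain ⟨t, ht, hbad⟩ := List.any_eq_true.1 hf
      simp only [Bool.and_eq_true, bne_iff_ne] at hbad
      have htd := List.all_eq_true.1 pinTests_dec t ht
      simp only [Bool.and_eq_true, decide_eq_true_eq] at htd
      have himg : ∀ (l : List (Fin 5)) (v : Fin 11 → ZMod 2),
          enc (applyMoves (l.map (testMap (hImg j u₀ u₁ u₂))) v) =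
            l.foldl (fun n k => linNat (testMap (hImg j u₀ u₁ u₂) k) n) (enc v) := by
        intro l
        induction l with
        | nil => exact fun v => rfl
        | cons k l ih =>
          intro v
          rw [List.foldl_cons, ← enc_linN]
          exact ih _
      have hv : enc (vecN t.2) = t.2 := by rw [enc_vecN, Nat.mod_eq_of_lt htd.1]
      have h := table_test tableV decV hdec (l := t.1.map (testMap (hImg j u₀ u₁ u₂)))
        (fun m hm => by obtain ⟨k, -, rfl⟩ := List.mem_map.1 hm; exact hreal k)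
        (v := vecN t.2) (by rw [decV, hv]; exact htd.2)
        (by rw [decV, himg, hv]; exact hbad.1)
      rw [tableV, tableV, himg, hv] at h
      exact hbad.2 h.symm
    · rfl
  rw [hgood] at hn
  have hrealM : ∀ m ∈ fibreMoves, ∃ g : G, ∀ x, g * Φ x * g⁻¹ = Φ (vecN (linN m x)) := by
    intro m hm
    simp only [fibreMoves, List.mem_cons, List.not_mem_nil, or_false] at hm
    rcases hm with rfl | rfl | rfl | rfl | rfl
    exacts [hR 0, hR 1, hR 2, hR 3, ⟨n, hn⟩]
  have hstep : ∀ m ∈ fibreMoves, ∀ v, (IsConj (Φ (vecN (linN m v))) z ↔ IsConj (Φ v) z) ∧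
      tableV (vecN (linN m v)) = tableV v := by
    intro m hm v
    obtain ⟨g, hg⟩ := hrealM m hm
    refine ⟨isConj_linN hg v, ?_⟩
    rw [tableV, enc_linN, tableV]
    exact eq_of_beq (List.all_eq_true.1 (List.all_eq_true.1 moves_inv (enc v)
      (List.mem_range.2 (enc_lt_inj.1 v))) m hm)
  have hr := List.all_eq_true.1 moves_reach (enc x) (List.mem_range.2 (enc_lt_inj.1 x))
  simp only [Bool.or_eq_true, List.any_eq_true] at hr
  show IsConj (Φ x) z ↔ tableV x = true
  rcases hr with h | ⟨a, ha, h | ⟨b, hb, h⟩⟩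
  · exact hdec x h
  · obtain ⟨h1, h2⟩ := hstep a ha x
    rw [← h1, ← h2]
    exact hdec _ (by rw [decV, enc_linN]; exact h)
  · obtain ⟨h1, h2⟩ := hstep a ha x
    obtain ⟨h3, h4⟩ := hstep b hb (vecN (linN a x))
    rw [← h1, ← h2, ← h3, ← h4]
    exact hdec _ (by rw [decV, enc_linN, enc_linN]; exact h)

end CfsgLib.ConwayType.Golay
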