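import Cfsg.Agent.Lib.ConwayType.Golay.Beta
import Cfsg.Agent.Lib.ConwayType.Golay.FibreTable

/-!
The eleven coordinates: `z`, a section, the images of three section elements under the interchanging element and
three further lifts; the matrix of the interchanging element on them.
-/

set_option autoImplicit false
set_option linter.unusedSectionVars false
set_option maxRecDepth 100000
set_option synthInstance.maxSize 1000
set_option maxHeartbeats 400000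

namespace CfsgLib.ConwayType.Golay

open CfsgLib.ExtraspecialLarge CfsgLib.ConwayType CfsgLib.ConwayType.GolayModel

/-- The coordinates of an element of the section. -/
def embY (c : Fin 4 → ZMod 2) : Fin 11 → ZMod 2 := ![0, c 0, c 1, c 2, c 3, 0, 0, 0, 0, 0, 0]

theorem bitsY : ∀ c : Fin 4 → ZMod 2, ∃ u : Fin 16, vecN ((u : ℕ) <<< 1) = embY c := by decide +kernel

theorem bitsJ : ∀ r : Fin 3 → ZMod 2, ∃ j : Fin 8, ∀ k : Fin 3,
    vecN (hImg j 0 0 0 ⟨5 + k, by omega⟩) = embY (Pi.single k.succ 1 + r k • Pi.single 0 1) := by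
  decide +kernel

theorem hImg_low (j : Fin 8) (u₀ u₁ u₂ : Fin 16) (k : Fin 3) :
    hImg j u₀ u₁ u₂ ⟨5 + k, by omega⟩ = hImg j 0 0 0 ⟨5 + k, by omega⟩ := by
  fin_cases k <;> simp [hImg]

theorem hImg_head (j : Fin 8) (u₀ u₁ u₂ : Fin 16) : hImg j u₀ u₁ u₂ 0 = 2 ∧ hImg j u₀ u₁ u₂ 1 = 1 ∧
    hImg j u₀ u₁ u₂ 2 = 32 ∧ hImg j u₀ u₁ u₂ 3 = 64 ∧ hImg j u₀ u₁ u₂ 4 = 128 ∧
    hImg j u₀ u₁ u₂ 8 = ((u₂ : ℕ) <<< 1) ^^^ (15 <<< 5) ∧
    hImg j u₀ u₁ u₂ 9 = ((u₁ : ℕ) <<< 1) ^^^ (19 <<< 5) ∧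
    hImg j u₀ u₁ u₂ 10 = ((u₀ : ℕ) <<< 1) ^^^ (33 <<< 5) := by
  simp [hImg]

theorem vecN_small : vecN 1 = Pi.single 0 1 ∧ vecN 2 = Pi.single 1 1 ∧ vecN 32 = Pi.single 5 1 ∧
    vecN 64 = Pi.single 6 1 ∧ vecN 128 = Pi.single 7 1 ∧
    vecN (15 <<< 5) = Pi.single 5 1 + Pi.single 6 1 + Pi.single 7 1 + Pi.single 8 1 ∧
    vecN (19 <<< 5) = Pi.single 5 1 + Pi.single 6 1 + Pi.single 9 1 ∧
    vecN (33 <<< 5) = Pi.single 5 1 + Pi.single 10 1 := by decide +kernel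

variable {G : Type*} [Group G] [Finite G]
variable {z : G} {Qf : G → Subgroup G} {θ : G → V} {ρ : G → O} {J : Subgroup O} {y h : G}
variable (P : PairSetting z Qf θ ρ J y h)
variable {Y : (Fin 4 → ZMod 2) → G}
include P

omit [Finite G] P in
theorem section_prod (hYadd : ∀ u v, Y (u + v) = Y u * Y v) (c : Fin 4 → ZMod 2) :
    Y c = zp (Y (Pi.single 0 1)) (c 0) * zp (Y (Pi.single 1 1)) (c 1) * zp (Y (Pi.single 2 1)) (c 2) *
      zp (Y (Pi.single 3 1)) (c 3) := by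
  have h0 : Y 0 = 1 := by
    have e := hYadd 0 0
    rwa [add_zero, right_eq_mul] at e
  have hs : ∀ (e : Fin 4 → ZMod 2) (s : ZMod 2), Y (s • e) = zp (Y e) s := fun e s => by
    rcases z2_cases s with rfl | rfl
    · rw [zero_smul, h0, zp_zero]
    · rw [one_smul, zp_one]
  rw [← hs, ← hs, ← hs, ← hs, ← hYadd, ← hYadd, ← hYadd]
  congr 1
  funext j
  fin_cases j <;> simp

omit [Finite G] P in
theorem combine_embY (hYadd : ∀ u v, Y (u + v) = Y u * Y v) (t : Fin 6 → G) (c : Fin 4 → ZMod 2) :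
    combine (fibreBasis z Y t) (embY c) = Y c := by
  rw [section_prod hYadd c]
  simp [combine, List.finRange_succ, fibreBasis, embY, mul_assoc]

section Setting

variable (hY : ∀ v, Y v ∈ Qf z) (hYθ : ∀ v, θ (Y v) = wVec true v)
include hY hYθ

theorem θ_single (j : Fin 4) : θ (Y (Pi.single j 1)) = basV true j := by rw [hYθ, wVec_single]

theorem linePair_line (l : Fin 6) :
    LinePair z Qf θ (Y (Pi.single (lineI l) 1)) (Y (Pi.single (lineJ l) 1)) := by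
  have h : ∀ l : Fin 6, (Pi.single (lineI l) 1 : Fin 4 → ZMod 2) ≠ 0 ∧
      (Pi.single (lineJ l) 1 : Fin 4 → ZMod 2) ≠ 0 ∧
      (Pi.single (lineI l) 1 : Fin 4 → ZMod 2) ≠ Pi.single (lineJ l) 1 := by decide +kernel
  exact linePair_Y P hY hYθ (h l).1 (h l).2.1 (h l).2.2

theorem lineLift_spec (l : Fin 6) {t : G}
    (T' : OctLift z Qf (Y (Pi.single (lineI l) 1)) (Y (Pi.single (lineJ l) 1)) t) :
    ρ t = lineT true l ∧ t ∈ AU z Qf θ (InW true) := by
  have L := linePair_line P hY hYθ l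
  obtain ⟨e1, e2⟩ := line_basV l
  refine ⟨?_, octLift_mem_AU P L ⟨_, hYθ _⟩ ⟨_, hYθ _⟩ T'⟩
  rw [octLift_ρ P L T']
  exact T_congr (by rw [θ_single P hY hYθ, e1]) (by rw [θ_single P hY hYθ, e2]) _ _

/-- An element of the abelian group over the identity. -/
theorem exists_section_rep {e : G} (he : e ∈ Qf z) (heW : InW true (θ e)) :
    ∃ (ε : ZMod 2) (c : Fin 4 → ZMod 2), e = zp z ε * Y c := by
  obtain ⟨c, hc⟩ := heW
  rcases P.toSetting.eq_or_of_θ he (hY c) (by rw [hc, hYθ]) with e' | e'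
  · exact ⟨0, c, by rw [zp_zero, one_mul, e']⟩
  · exact ⟨1, c, by rw [zp_one, e']⟩

variable (hYadd : ∀ u v, Y (u + v) = Y u * Y v) (hY0 : Y (Pi.single 0 1) = y)
include hYadd hY0

/-- A lift whose image is the product with given parameter, up to the section. -/
theorem exists_line_image (hA : Cfsg.IsElementaryAbelian 2 (AU z Qf θ (InW true)))
    (hn : h ∈ Subgroup.normalizer (AU z Qf θ (InW true) : Set G)) (l : Fin 6) {m : G} {w : V}
    (hw : bl eV w = 0) (hmA : m ∈ AU z Qf θ (InW true)) (hρm : ρ m = Te w hw)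
    (hρ : ∀ t, OctLift z Qf (Y (Pi.single (lineI l) 1)) (Y (Pi.single (lineJ l) 1)) t →
      ρ (h * t * h⁻¹) = Te w hw * lineT true l) :
    ∃ t c, OctLift z Qf (Y (Pi.single (lineI l) 1)) (Y (Pi.single (lineJ l) 1)) t ∧
      h * t * h⁻¹ = m * t * Y c := by
  have L := linePair_line P hY hYθ l
  obtain ⟨t₀, T₀⟩ := octLift_exists P L
  obtain ⟨hρ₀, ht₀⟩ := lineLift_spec P hY hYθ l T₀
  have hK := (Subgroup.mem_normalizer_iff.1 hn t₀).1 ht₀
  obtain ⟨e, he, heW, hKe⟩ := exists_mul_of_ρ P.toSetting hK (mul_mem hmA ht₀) (by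
    rw [hρ t₀ T₀, P.toSetting.ρ_mul (comm_z_of_mem P.toSetting hmA) (comm_z_of_mem P.toSetting ht₀), hρm, hρ₀])
  obtain ⟨ε, c, rfl⟩ := exists_section_rep P hY hYθ he heW
  rcases z2_cases ε with rfl | rfl
  · exact ⟨t₀, c, T₀, by rw [hKe, zp_zero, one_mul]⟩
  refine ⟨z * t₀, Pi.single 0 1 + c, OctLift.zmul P L T₀, ?_⟩
  have hyA : y ∈ AU z Qf θ (InW true) :=
    (mem_AU_Q P.toSetting P.y_mem).2 (by rw [P.θy]; exact (basis_mem true).1)
  have hym : Commute y (m * t₀) := congrArg Subtype.val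
    (hA.1.is_comm.comm (⟨y, hyA⟩ : ↥(AU z Qf θ (InW true))) ⟨_, mul_mem hmA ht₀⟩)
  have hzt : Commute t₀ z := T₀.comm
  rw [hYadd, hY0, show h * (z * t₀) * h⁻¹ = h * z * h⁻¹ * (h * t₀ * h⁻¹) by group, P.hz, hKe, zp_one]
  calc y * (m * t₀ * (z * Y c)) = (y * (m * t₀)) * z * Y c := by group
    _ = m * t₀ * (y * z) * Y c := by rw [hym.eq]; group
    _ = m * t₀ * (z * y) * Y c := by rw [P.yz_comm]
    _ = m * (t₀ * z) * y * Y c := by group
    _ = m * (z * t₀) * y * Y c := by rw [hzt.eq]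
    _ = _ := by group

/-- The lift on a line through `y` made by the interchanging element, and its image. -/
theorem exists_back {φ ψ : V → V} (F : Phi z Qf θ ρ y h φ ψ)
    (hn : h ∈ Subgroup.normalizer (AU z Qf θ (InW true) : Set G))
    {j : Fin 4} (hm : Mid (basV true j)) (hφ : φ (basV true j) = basV true j)
    (hg : h * Y (Pi.single j 1) * h⁻¹ ∈ Qf (Y (Pi.single j 1))) :
    OctLift z Qf (Y (Pi.single 0 1)) (Y (Pi.single j 1)) (h * Y (Pi.single j 1) * h⁻¹) ∧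
      ρ (h * Y (Pi.single j 1) * h⁻¹) = Te (basV true j) hm.bl_eV ∧
      ∃ r : ZMod 2, h * (h * Y (Pi.single j 1) * h⁻¹) * h⁻¹ = Y (Pi.single j 1 + r • Pi.single 0 1) := by
  have hbj := basV_spec true j
  have hθj := θ_single P hY hYθ j
  have hxW : inW z Qf y (Y (Pi.single j 1)) := (P.W_iff (hY _)).2 (by rw [hθj]; exact hm.bl_eV)
  obtain ⟨hx2, hx1, -, hxp⟩ := lift_spec P (hY (Pi.single j 1)) (by rw [hθj]; exact hbj.1)
    (by rw [hθj]; exact hbj.2.1)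
  set s := h * Y (Pi.single j 1) * h⁻¹ with hs_def
  have hs : inWy z Qf y s := P.W_to_Wy hxW
  have hw : wS ρ s = basV true j := by rw [hs_def, F.toW _ hxW, hθj, md_of_mid hm, hφ]
  obtain ⟨hwM, hρs⟩ := P.wS_spec hs
  have hsQ : s ∉ Qf z := fun e => hbj.2.1 (by rw [← hw]; exact P.wS_of_mem e)
  obtain ⟨hs2, -⟩ := P.toSetting.conj_involution (c := h) hx2 hx1
  have T' : OctLift z Qf (Y (Pi.single 0 1)) (Y (Pi.single j 1)) s :=
    ⟨hs.2, hs2, hsQ, by rw [hY0]; exact hs.1, hg⟩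
  refine ⟨T', by rw [hρs]; exact Te_congr hw _ _, ?_⟩
  have hj0 : j ≠ 0 := by
    rintro rfl
    exact absurd hm (by decide +kernel)
  have L0 : LinePair z Qf θ (Y (Pi.single 0 1)) (Y (Pi.single j 1)) := by
    refine linePair_Y P hY hYθ ?_ ?_ ?_ <;> clear * - hj0 <;> revert hj0 <;> revert j <;> decide +kernel
  have hsA : s ∈ AU z Qf θ (InW true) := octLift_mem_AU P L0 ⟨_, hYθ _⟩ ⟨_, hYθ _⟩ T'
  set X := h * s * h⁻¹ with hX_def
  have hXA : X ∈ AU z Qf θ (InW true) := (Subgroup.mem_normalizer_iff.1 hn s).1 hsA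
  have hX : X ∈ Qf z := P.conj_Qy hs.1
  obtain ⟨hX2, hX1⟩ := P.toSetting.conj_involution (c := h) hs2 (fun e => hsQ (by rw [hs_def, e]; exact one_mem _))
  have hne : md (θ X) ≠ 0 := by
    intro h0
    refine hsQ ?_
    have e0 : s = h⁻¹ * X * h := by rw [hX_def]; group
    rcases inW_inv_ne P hX h0 with e | e | e | e <;> rw [e0, e]
    · simp
    · rw [P.hy']; exact P.y_mem
    · rw [P.hz']; exact P.toSetting.z_mem
    · rw [show h⁻¹ * (z * y) * h = h⁻¹ * z * h * (h⁻¹ * y * h) by group, P.hy', P.hz']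
      exact (Qf z).mul_mem P.y_mem P.toSetting.z_mem
  have hpX : Pt z X := pt_of_mem_z P hX hX2 hX1
  have hsX : s ∈ Qf X := pt_symm P (hxp.conj h) hpX (conj_mem_Qf P (c := h) hg)
  obtain ⟨-, hmd, -⟩ := second_point P hs hs2 hsQ hX hX2 hne hsX
  rw [hw] at hmd
  obtain ⟨r, hr⟩ : ∃ r : ZMod 2, θ X = basV true j + r • eV :=
    ⟨_, by conv_lhs => rw [md_decomp (θ X)]; rw [hmd]⟩
  refine ⟨r, ?_⟩
  have hθd : θ (Y (Pi.single j 1 + r • Pi.single 0 1)) = θ X := by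
    rw [hr, hYθ, ← wVec_add, wVec_single]
    congr 1
    rcases z2_cases r with rfl | rfl
    · simp [wVec]
    · rw [one_smul, one_smul, wVec_single]; rfl
  rcases P.toSetting.eq_or_of_θ hX (hY _) hθd.symm with e | e
  · exact e
  exfalso
  set Yd := Y (Pi.single j 1 + r • Pi.single 0 1) with hYd
  have hsd : s ∈ Qf Yd := by
    rw [hYd]
    rcases z2_cases r with rfl | rfl
    · rw [zero_smul, add_zero]; exact hg
    · rw [one_smul, add_comm, hYadd]; exact (OctLift.line_prod P L0 T').memB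
  obtain ⟨-, -, h3⟩ := second_point P hs hs2 hsQ (hY _)
    ((P.θ_sq _ (hY _)).2 (by rw [hYθ]; exact wVec_spec true _))
    (by rw [hθd, hmd]; exact hbj.2.1) hsd
  rw [← e] at h3
  have hyX : y ∈ Qf X := by
    have := (Qf X).mul_mem ((Qf X).inv_mem hsX) h3
    rwa [inv_mul_cancel_left] at this
  rcases P.θ_inter hX (pt_symm P hpX (pt_y P) hyX) with e' | e' <;> rw [e'] at hne
  · exact hne md_zero
  · exact hne md_eV

/-- The eleven coordinates and the matrix of the interchanging element. -/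
theorem exists_coords {φ ψ : V → V} (F : Phi z Qf θ ρ y h φ ψ)
    (hA : Cfsg.IsElementaryAbelian 2 (AU z Qf θ (InW true)))
    (hn : h ∈ Subgroup.normalizer (AU z Qf θ (InW true) : Set G))
    (hφ : φ e2V = e2V ∧ φ e3V = e3V ∧ φ e4V = e4V)
    (hg : ∀ j : Fin 4, j ≠ 0 → h * Y (Pi.single j 1) * h⁻¹ ∈ Qf (Y (Pi.single j 1)))
    (h23 : ∀ t, OctLift z Qf (Y (Pi.single 2 1)) (Y (Pi.single 3 1)) t → ∀ hl hq hb,
      ρ (h * t * h⁻¹) = Te e2V hl * T e3V e4V hq hb)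
    (h13 : ∀ t, OctLift z Qf (Y (Pi.single 1 1)) (Y (Pi.single 3 1)) t → ∀ hl hq hb,
      ρ (h * t * h⁻¹) = Te (e2V + e3V) hl * T e2V e4V hq hb)
    (h12 : ∀ t, OctLift z Qf (Y (Pi.single 1 1)) (Y (Pi.single 2 1)) t → ∀ hl hq hb,
      ρ (h * t * h⁻¹) = Te (e2V + e3V + e4V) hl * T e2V e3V hq hb) :
    ∃ t : Fin 6 → G,
      (∀ l, OctLift z Qf (Y (Pi.single (lineI l) 1)) (Y (Pi.single (lineJ l) 1)) (t l)) ∧
      CoordsOn (AU z Qf θ (InW true)) (combine (fibreBasis z Y t)) ∧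
      (∀ l, t l * z = z * t l ∧ t l * t l = 1 ∧ t l ∈ Qf (Y (Pi.single (lineI l) 1)) ∧
        t l ∈ Qf (Y (Pi.single (lineJ l) 1)) ∧ ρ (t l) = lineT true l) ∧
      ∃ (j : Fin 8) (u₀ u₁ u₂ : Fin 16) (n : G), ∀ x, n * combine (fibreBasis z Y t) x * n⁻¹ =
        combine (fibreBasis z Y t) (vecN (linN (hImg j u₀ u₁ u₂) x)) := by
  classical
  have S := P.toSetting
  set A := AU z Qf θ (InW true) with hA_def
  obtain ⟨B1, e1, r1, hr1⟩ := exists_back P hY hYθ hYadd hY0 F hn (j := 1) mid_e2V hφ.1 (hg 1 (by decide))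
  obtain ⟨B2, e2, r2, hr2⟩ := exists_back P hY hYθ hYadd hY0 F hn (j := 2) mid_e3V hφ.2.1 (hg 2 (by decide))
  obtain ⟨B3, e3, r3, hr3⟩ := exists_back P hY hYθ hYadd hY0 F hn (j := 3) mid_e4V hφ.2.2 (hg 3 (by decide))
  set s1 := h * Y (Pi.single 1 1) * h⁻¹ with hs1
  set s2 := h * Y (Pi.single 2 1) * h⁻¹ with hs2
  set s3 := h * Y (Pi.single 3 1) * h⁻¹ with hs3
  have m1 : s1 ∈ A := (lineLift_spec P hY hYθ 0 B1).2
  have m2 : s2 ∈ A := (lineLift_spec P hY hYθ 1 B2).2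
  have m3 : s3 ∈ A := (lineLift_spec P hY hYθ 2 B3).2
  have z12 := comm_mul (comm_z_of_mem S m1) (comm_z_of_mem S m2)
  have l1 : bl eV e2V = 0 := mid_e2V.bl_eV
  have l12 : bl eV (e2V + e3V) = 0 := by rw [bl_add_right, l1, mid_e3V.bl_eV, add_zero]
  have l123 : bl eV (e2V + e3V + e4V) = 0 := by rw [bl_add_right, l12, mid_e4V.bl_eV, add_zero]
  have ρ12 : ρ (s1 * s2) = Te (e2V + e3V) l12 := by
    rw [S.ρ_mul (comm_z_of_mem S m1) (comm_z_of_mem S m2), e1, e2]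
    exact (Te_mul _ _).trans (Te_congr rfl _ _)
  have ρ123 : ρ (s1 * s2 * s3) = Te (e2V + e3V + e4V) l123 := by
    rw [S.ρ_mul z12 (comm_z_of_mem S m3), ρ12, e3]
    exact (Te_mul _ _).trans (Te_congr rfl _ _)
  obtain ⟨t12, c12, T12, k12⟩ := exists_line_image P hY hYθ hYadd hY0 hA hn 3 l123 (mul_mem (mul_mem m1 m2) m3)
    ρ123 (fun t T' => h12 t T' l123 _ _)
  obtain ⟨t13, c13, T13, k13⟩ := exists_line_image P hY hYθ hYadd hY0 hA hn 4 l12 (mul_mem m1 m2)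
    ρ12 (fun t T' => h13 t T' l12 _ _)
  obtain ⟨t23, c23, T23, k23⟩ := exists_line_image P hY hYθ hYadd hY0 hA hn 5 l1 m1
    (e1.trans (Te_congr rfl _ _)) (fun t T' => h23 t T' l1 _ _)
  let t : Fin 6 → G := ![s1, s2, s3, t12, t13, t23]
  have hT : ∀ l, OctLift z Qf (Y (Pi.single (lineI l) 1)) (Y (Pi.single (lineJ l) 1)) (t l) := by
    intro l
    fin_cases l
    exacts [B1, B2, B3, T12, T13, T23]
  have htA : ∀ l, t l ∈ A := fun l => (lineLift_spec P hY hYθ l (hT l)).2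
  have hYA : ∀ v, Y v ∈ A := fun v => (mem_AU_Q S (hY v)).2 ⟨v, hYθ v⟩
  have hzA : z ∈ A := (mem_AU_Q S S.z_mem).2 (by rw [S.θ_z]; exact InW.zero true)
  set b := fibreBasis z Y t with hb_def
  obtain ⟨hb0, hb4⟩ := fibreBasis_head z Y t
  have hbA : ∀ i, b i ∈ A := by
    intro i
    rcases fin11_cases i with rfl | ⟨j, rfl⟩ | ⟨l, rfl⟩
    · rw [hb_def, hb0]; exact hzA
    · rw [hb_def, hb4]; exact hYA _
    · rw [hb_def, fibreBasis_line]; exact htA l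
  set H := Subgroup.closure (Set.range b) with hH_def
  have hbH : ∀ i, b i ∈ H := fun i => Subgroup.subset_closure ⟨i, rfl⟩
  have hgen : A ≤ H := by
    intro a ha
    obtain ⟨c, hc⟩ := exists_prod true (ρ a) (ρ_fix S ha)
    have hgb : ρ a = prodT true c := O_ext_basis fun u hu => by rw [hc u hu, ap_prodT]
    have step : ∀ (l : Fin 6) (s : ZMod 2), ∃ p ∈ A, p ∈ H ∧ ρ p = zp (lineT true l) s := fun l s => by
      refine ⟨zp (t l) s, zp_mem (htA l) s, zp_mem ?_ s, ?_⟩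
      · have := hbH ⟨5 + l, by omega⟩
        rwa [hb_def, fibreBasis_line] at this
      · rcases z2_cases s with rfl | rfl
        · exact S.ρ_one
        · exact (lineLift_spec P hY hYθ l (hT l)).1
    have mulp : ∀ {g g' : O}, (∃ p ∈ A, p ∈ H ∧ ρ p = g) → (∃ p ∈ A, p ∈ H ∧ ρ p = g') →
        ∃ p ∈ A, p ∈ H ∧ ρ p = g * g' := by
      rintro g g' ⟨p, hp, hpH, rfl⟩ ⟨p', hp', hpH', rfl⟩
      exact ⟨p * p', mul_mem hp hp', mul_mem hpH hpH',
        S.ρ_mul (comm_z_of_mem S hp) (comm_z_of_mem S hp')⟩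
    obtain ⟨p, hp, hpH, hρp⟩ := mulp (step 0 (c 0)) (mulp (step 1 (c 1)) (mulp (step 2 (c 2))
      (mulp (step 3 (c 3)) (mulp (step 4 (c 4)) (step 5 (c 5))))))
    obtain ⟨e, he, heW, rfl⟩ := exists_mul_of_ρ S ha hp (hgb.trans (hρp.trans rfl).symm)
    obtain ⟨ε, v, rfl⟩ := exists_section_rep P hY hYθ he heW
    refine mul_mem hpH (mul_mem (zp_mem ?_ ε) ?_)
    · have := hbH 0
      rwa [hb_def, hb0] at this
    · rw [section_prod hYadd v]
      have hy' : ∀ (j : Fin 4) (s : ZMod 2), zp (Y (Pi.single j 1)) s ∈ H := fun j s => zp_mem (by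
        have := hbH ⟨1 + j, by omega⟩
        rwa [hb_def, hb4] at this) s
      exact mul_mem (mul_mem (mul_mem (hy' 0 _) (hy' 1 _)) (hy' 2 _)) (hy' 3 _)
  have C := coordsOn_combine hA (card_AU P true) hbA hgen
  refine ⟨t, hT, C, fun l => ⟨(hT l).comm, (hT l).sq, (hT l).memA, (hT l).memB,
    (lineLift_spec P hY hYθ l (hT l)).1⟩, ?_⟩
  have hΦs : ∀ i, combine b (Pi.single i 1) = b i := fun i => combine_single _ i
  have hΦY : ∀ c, combine b (embY c) = Y c := fun c => combine_embY hYadd t c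
  obtain ⟨j, hj⟩ := bitsJ ![r1, r2, r3]
  obtain ⟨u2, hu2⟩ := bitsY c12
  obtain ⟨u1, hu1⟩ := bitsY c13
  obtain ⟨u0, hu0⟩ := bitsY c23
  refine ⟨j, u0, u1, u2, h, conj_linN C fun i => ?_⟩
  have low : ∀ k : Fin 3, combine b (vecN (hImg j u0 u1 u2 ⟨5 + k, by omega⟩)) =
      Y (Pi.single k.succ 1 + ![r1, r2, r3] k • Pi.single 0 1) := fun k => by
    rw [hImg_low, hj, hΦY]
  rw [hΦs]
  obtain ⟨g0, g1, g2, g3, g4, g8, g9, g10⟩ := hImg_head j u0 u1 u2
  obtain ⟨n1, n2, n32, n64, n128, n15, n19, n33⟩ := vecN_small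
  have k0 : h * z * h⁻¹ = combine b (vecN (hImg j u0 u1 u2 0)) := by
    rw [g0, n2, hΦs, P.hz]; exact hY0.symm
  have k1 : h * Y (Pi.single 0 1) * h⁻¹ = combine b (vecN (hImg j u0 u1 u2 1)) := by
    rw [g1, n1, hΦs, hY0, P.hy]; rfl
  have k2 : s1 = combine b (vecN (hImg j u0 u1 u2 2)) := by rw [g2, n32, hΦs]; rfl
  have k3 : s2 = combine b (vecN (hImg j u0 u1 u2 3)) := by rw [g3, n64, hΦs]; rfl
  have k4 : s3 = combine b (vecN (hImg j u0 u1 u2 4)) := by rw [g4, n128, hΦs]; rfl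
  have k8 : h * t12 * h⁻¹ = combine b (vecN (hImg j u0 u1 u2 8)) := by
    rw [g8, k12, vecN_xor, add_comm, C.map_add, hu2, hΦY, n15, C.map_add, C.map_add, C.map_add, hΦs, hΦs, hΦs,
      hΦs]
    rfl
  have k9 : h * t13 * h⁻¹ = combine b (vecN (hImg j u0 u1 u2 9)) := by
    rw [g9, k13, vecN_xor, add_comm, C.map_add, hu1, hΦY, n19, C.map_add, C.map_add, hΦs, hΦs, hΦs]
    rfl
  have k10 : h * t23 * h⁻¹ = combine b (vecN (hImg j u0 u1 u2 10)) := by
    rw [g10, k23, vecN_xor, add_comm, C.map_add, hu0, hΦY, n33, C.map_add, hΦs, hΦs]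
    rfl
  fin_cases i
  exacts [k0, k1, k2, k3, k4, hr1.trans (low 0).symm, hr2.trans (low 1).symm, hr3.trans (low 2).symm,
    k8, k9, k10]

end Setting

end CfsgLib.ConwayType.Golay
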