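import Cfsg.Agent.Lib.ConwayType.Golay.Model
import Cfsg.Agent.Lib.Golay.Code

/-!
The code modulo the all-one word in eleven coordinates adapted to an octad, with the table of the images
of the octads.
-/

set_option autoImplicit false
set_option linter.unusedSectionVars false
set_option maxRecDepth 100000
set_option exponentiation.threshold 4096

namespace CfsgLib.ConwayType.GolayModel

open Cfsg CfsgLib.Golay
open CfsgLib.ExtraspecialLarge (vec supp vec_supp supp_vec hammingNorm_eq_card_supp)

local notation "WW" => GolayPt → ZMod 2

/-- Bit `x` says that the coordinate vector with number `x` is the image of an octad. -/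
def octTable : ℕ := 18852082080701545832998329289815963217648680153421279151510309976836520832001872875156942506137439615120955810572841269562069077304999224531831413823283696250669954809439783705808573796107349108615128193014096170983365289222861314370655615442768770337471008462942073859380865161949844228639974078834107894865986075627142588256746425920238327398221475053107246026027179165579426441976651398517588325457462823076751036218490356831707966727964795488033629257935282337183968915287597411787962151265372349071089983825263271519992711560683028949665414171212021875488089753186505590856005752506476234282463643528719555887102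

/-- The eleven functionals, as masks. -/
def colMask : Fin 11 → ℕ := ![881, 3115, 1478, 3542, 1919, 2872, 2107, 1554, 2750, 3966, 1901]

/-- Preimages of the coordinate vectors. -/
def preMask : Fin 11 → ℕ := ![14176296, 14514152, 427666, 16283262, 14316463, 13721920, 4744776, 5780352, 14688364, 4223245, 5268006]

/-- The number of a coordinate vector. -/
def enc (x : Fin 11 → ZMod 2) : ℕ := (List.finRange 11).foldl (fun s j => s + (x j).val * 2 ^ (j : ℕ)) 0

/-- The coordinates of a code word given by its mask. -/
def pBit (n : ℕ) (j : Fin 11) : ZMod 2 := bif popc (colMask j &&& n) % 2 == 1 then 1 else 0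

theorem coord_checks :
    allSpan basisMasks (fun n => ((List.finRange 11).all fun j => pBit n j == 0) ==
      (n == 0 || n == fullMask)) = true ∧
    allSpan basisMasks (fun n => !(popc n == 8) || octTable.testBit (enc (pBit n))) = true ∧
    countSpan basisMasks (fun n => popc n == 8) = 759 ∧
    (List.range 2048).countP (fun k => octTable.testBit k) = 759 ∧
    (∀ j, inCode (preMask j) = true ∧ ∀ i, pBit (preMask j) i = if i = j then 1 else 0) := by
  decide +kernel

theorem wordOf_eq_vec (n : ℕ) : wordOf n = vec (unmask n) := by
  funext i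
  simp [wordOf, vec]

/-- The coordinates on the code. -/
noncomputable def coordMap : ↥golayCode →ₗ[ZMod 2] (Fin 11 → ZMod 2) :=
  LinearMap.pi fun j => (ev (unmask (colMask j))).comp golayCode.subtype

theorem coordMap_apply (c : ↥golayCode) (j : Fin 11) :
    coordMap c j = ev (unmask (colMask j)) (c : WW) := rfl

theorem coordMap_wordOf {n : ℕ} (c : ↥golayCode) (h : (c : WW) = wordOf n) : coordMap c = pBit n := by
  funext j
  rw [coordMap_apply, h, wordOf_eq_vec, ev_vec, ← unmask_and, card_unmask, pBit]
  rcases Nat.mod_two_eq_zero_or_one (popc (colMask j &&& n)) with e | e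
  · rw [ZMod.natCast_eq_zero_iff_even.mpr (Nat.even_iff.mpr e), e]; rfl
  · rw [ZMod.natCast_eq_one_iff_odd.mpr (Nat.odd_iff.mpr e), e]; rfl

theorem exists_mask (c : ↥golayCode) : ∃ n ∈ codeMasks, (c : WW) = wordOf n := by
  obtain ⟨n, hn, e⟩ := mem_golayCode_iff.1 c.2
  exact ⟨n, hn, e.symm⟩

theorem wordOf_inj {m n : ℕ} (hm : m < 2 ^ 24) (hn : n < 2 ^ 24) (h : wordOf m = wordOf n) : m = n :=
  unmask_injOn hm hn (by rw [← support₂_wordOf, ← support₂_wordOf, h])

theorem coordMap_presents : Presents coordMap := by
  refine ⟨?_, fun c => ?_⟩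
  · intro x
    have h := coord_checks.2.2.2.2
    refine ⟨∑ j, x j • ⟨wordOf (preMask j), wordOf_mem_golayCode (inCode_iff.1 (h j).1)⟩, ?_⟩
    rw [map_sum]
    funext i
    simp only [map_smul, Finset.sum_apply, Pi.smul_apply, smul_eq_mul]
    rw [Finset.sum_eq_single i]
    · rw [coordMap_wordOf _ rfl, (h i).2 i, if_pos rfl, mul_one]
    · intro j _ hji
      rw [coordMap_wordOf _ rfl, (h j).2 i, if_neg (Ne.symm hji), mul_zero]
    · exact fun hi => absurd (Finset.mem_univ i) hi
  · obtain ⟨n, hn, e⟩ := exists_mask c
    have h := allSpan_iff.1 coord_checks.1 n hn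
    simp only [beq_iff_eq] at h
    have h' : (∀ j, pBit n j = 0) ↔ (n = 0 ∨ n = fullMask) := by
      have := congrArg (fun b => b = true) h
      simpa [List.all_eq_true] using this
    rw [coordMap_wordOf c e, funext_iff, e]
    simp only [Pi.zero_apply]
    rw [h']
    refine or_congr ⟨fun a => by rw [a, wordOf_zero], fun a => ?_⟩ ⟨fun a => by rw [a, one_eq_wordOf], fun a => ?_⟩
    · exact wordOf_inj (lt_of_mem_codeMasks hn) (by norm_num) (a.trans wordOf_zero.symm)
    · exact wordOf_inj (lt_of_mem_codeMasks hn) (by norm_num [fullMask]) (a.trans one_eq_wordOf)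

theorem weight_wordOf (n : ℕ) : hammingNorm (wordOf n) = popc n := by
  rw [hammingNorm_eq_card_supp, wordOf_eq_vec, supp_vec, card_unmask]

theorem enc_lt_inj : (∀ x : Fin 11 → ZMod 2, enc x < 2048) ∧
    ∀ x : Fin 11 → ZMod 2, ∀ i, x i = bif (enc x).testBit i then 1 else 0 := by
  decide +kernel

theorem enc_injective : Function.Injective enc := fun x y h => funext fun i => by
  rw [enc_lt_inj.2 x i, enc_lt_inj.2 y i, h]

theorem enc_dec_all : ((List.range 2048).all fun k =>
    enc (fun i : Fin 11 => bif k.testBit i then 1 else 0) == k) = true := by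
  decide +kernel

theorem enc_dec (k : ℕ) (hk : k < 2048) : enc (fun i : Fin 11 => bif k.testBit i then 1 else 0) = k :=
  eq_of_beq (List.all_eq_true.1 enc_dec_all k (List.mem_range.2 hk))

/-- The images of the octads are given by the table. -/
theorem octadImg_coordMap : octadImg coordMap = {x | octTable.testBit (enc x) = true} := by
  classical
  obtain ⟨-, h1, h2, h3, -⟩ := coord_checks
  have hsub : octadImg coordMap ⊆ {x | octTable.testBit (enc x) = true} := by
    rintro _ ⟨c, hc, rfl⟩
    obtain ⟨n, hn, e⟩ := exists_mask c
    rw [e, weight_wordOf] at hc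
    have := allSpan_iff.1 h1 n hn
    rw [hc] at this
    rw [Set.mem_setOf_eq, coordMap_wordOf c e]
    simpa using this
  refine Set.eq_of_subset_of_ncard_le hsub ?_ (Set.toFinite _)
  have hT : Set.ncard {x : Fin 11 → ZMod 2 | octTable.testBit (enc x) = true} ≤ 759 := by
    rw [← h3, List.countP_eq_length_filter, ← List.toFinset_card_of_nodup (List.nodup_range.filter _),
      ← Set.ncard_image_of_injective _ enc_injective, ← Set.ncard_coe_finset]
    refine Set.ncard_le_ncard ?_ (Finset.finite_toSet _)
    rintro _ ⟨x, hx, rfl⟩
    simp [enc_lt_inj.1 x, hx.out]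
  refine hT.trans ?_
  rw [← h2, countSpan_eq, List.countP_eq_length_filter]
  change (codeMasks.filter fun n => popc n == 8).length ≤ _
  rw [← List.toFinset_card_of_nodup (codeMasks_nodup.filter _), ← Set.ncard_coe_finset]
  refine Set.ncard_le_ncard_of_injOn (fun n => pBit n) ?_ ?_ (Set.toFinite _)
  · intro n hn
    simp only [Finset.mem_coe, List.mem_toFinset, List.mem_filter, beq_iff_eq] at hn
    exact ⟨⟨wordOf n, wordOf_mem_golayCode hn.1⟩, by rw [weight_wordOf, hn.2], coordMap_wordOf _ rfl⟩
  · intro m hm n hn e
    simp only [Finset.mem_coe, List.mem_toFinset, List.mem_filter, beq_iff_eq] at hm hn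
    refine wordOf_inj (lt_of_mem_codeMasks hm.1) (lt_of_mem_codeMasks hn.1) ?_
    have := octad_p_inj coordMap_presents
      (c := ⟨wordOf m, wordOf_mem_golayCode hm.1⟩) (d := ⟨wordOf n, wordOf_mem_golayCode hn.1⟩)
      (by rw [weight_wordOf, hm.2]) (by rw [weight_wordOf, hn.2])
      (by rw [coordMap_wordOf _ rfl, coordMap_wordOf _ rfl]; exact e)
    exact congrArg Subtype.val this

theorem ncard_octTable : Set.ncard {x : Fin 11 → ZMod 2 | octTable.testBit (enc x) = true} = 759 := by
  refine le_antisymm ?_ ?_
  · rw [← coord_checks.2.2.2.1, List.countP_eq_length_filter,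
      ← List.toFinset_card_of_nodup (List.nodup_range.filter _),
      ← Set.ncard_image_of_injective _ enc_injective, ← Set.ncard_coe_finset]
    refine Set.ncard_le_ncard ?_ (Finset.finite_toSet _)
    rintro _ ⟨x, hx, rfl⟩
    simp [enc_lt_inj.1 x, hx.out]
  · rw [← coord_checks.2.2.2.1, List.countP_eq_length_filter,
      ← List.toFinset_card_of_nodup (List.nodup_range.filter _), ← Set.ncard_coe_finset]
    refine Set.ncard_le_ncard_of_injOn (fun k => fun i : Fin 11 => bif k.testBit i then 1 else 0) ?_ ?_
      (Set.toFinite _)
    · intro k hk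
      simp only [Finset.mem_coe, List.mem_toFinset, List.mem_filter, List.mem_range] at hk
      simp only [Set.mem_setOf_eq, enc_dec k hk.1, hk.2]
    · intro k hk l hl e
      simp only [Finset.mem_coe, List.mem_toFinset, List.mem_filter, List.mem_range] at hk hl
      rw [← enc_dec k hk.1, ← enc_dec l hl.1]
      exact congrArg enc e

end CfsgLib.ConwayType.GolayModel
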