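import Cfsg.Agent.Lib.ConwayType.Golay.Coords
import Cfsg.Agent.Lib.ConwayType.Data
import Cfsg.Prelude.Def_Transfer

/-!
An elementary abelian subgroup of order `2^11` in eleven coordinates, and the quotient of its normaliser
as a subgroup of `M24` when a conjugacy class meets it in the table of octad images.
-/

set_option autoImplicit false
set_option linter.unusedSectionVars false

namespace CfsgLib.ConwayType.GolayModel

open Cfsg CfsgLib.Golay
open CfsgLib.ConwayType (zp zp_zero zp_one zp_add zp_mem z2_cases)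

local notation "LL" => Fin 11 → ZMod 2

variable {G : Type*} [Group G]

/-- Coordinates on a subgroup. -/
structure CoordsOn (A : Subgroup G) (Φ : LL → G) : Prop where
  map_add : ∀ x y, Φ (x + y) = Φ x * Φ y
  mem : ∀ x, Φ x ∈ A
  inj : Function.Injective Φ
  surj : ∀ a ∈ A, ∃ x, Φ x = a

/-- The element with given coordinates in a list of commuting involutions. -/
def combine (b : Fin 11 → G) (x : LL) : G := ((List.finRange 11).map fun i => zp (b i) (x i)).prod

theorem combine_single (b : Fin 11 → G) (i : Fin 11) : combine b (Pi.single i 1) = b i := by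
  fin_cases i <;> simp [combine, List.finRange_succ, Pi.single_apply]

theorem combine_add {A : Subgroup G} (hA : Cfsg.IsElementaryAbelian 2 A) {b : Fin 11 → G} (hb : ∀ i, b i ∈ A)
    (x y : LL) : combine b (x + y) = combine b x * combine b y := by
  unfold combine
  generalize List.finRange 11 = l
  induction l with
  | nil => simp
  | cons i l ih =>
    have hc : Commute (zp (b i) (y i)) ((l.map fun i => zp (b i) (x i)).prod) := by
      have hm : (l.map fun i => zp (b i) (x i)).prod ∈ A := A.list_prod_mem (by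
        intro g hg; obtain ⟨k, -, rfl⟩ := List.mem_map.1 hg; exact zp_mem (hb k) _)
      exact congrArg Subtype.val (hA.1.is_comm.comm (⟨_, zp_mem (hb i) (y i)⟩ : ↥A) ⟨_, hm⟩)
    simp only [List.map_cons, List.prod_cons]
    rw [ih, Pi.add_apply, zp_add (by rw [← pow_two]; exact hA.2 _ (hb i)), hc.mul_mul_mul_comm]

theorem combine_mem {A : Subgroup G} {b : Fin 11 → G} (hb : ∀ i, b i ∈ A) (x : LL) : combine b x ∈ A :=
  A.list_prod_mem (by intro g hg; obtain ⟨k, -, rfl⟩ := List.mem_map.1 hg; exact zp_mem (hb k) _)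

/-- Eleven generators of an elementary abelian group of order `2^11` are coordinates. -/
theorem coordsOn_combine [Finite G] {A : Subgroup G} (hA : Cfsg.IsElementaryAbelian 2 A)
    (hcard : Nat.card A = 2 ^ 11) {b : Fin 11 → G} (hb : ∀ i, b i ∈ A)
    (hgen : A ≤ Subgroup.closure (Set.range b)) : CoordsOn A (combine b) := by
  classical
  let f : Multiplicative LL →* G := MonoidHom.mk' (fun x => combine b x.toAdd) fun x y => combine_add hA hb _ _
  have hle : Subgroup.closure (Set.range b) ≤ f.range := by
    rw [Subgroup.closure_le]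
    rintro _ ⟨i, rfl⟩
    exact ⟨Multiplicative.ofAdd (Pi.single i 1), combine_single b i⟩
  have hsurj : ∀ a ∈ A, ∃ x, combine b x = a := fun a ha => by
    obtain ⟨x, hx⟩ := hle (hgen ha)
    exact ⟨x.toAdd, hx⟩
  let g : LL → ↥A := fun x => ⟨combine b x, combine_mem hb x⟩
  have hg : Function.Bijective g := (Nat.bijective_iff_surjective_and_card g).mpr
    ⟨fun a => by obtain ⟨x, hx⟩ := hsurj a.1 a.2; exact ⟨x, Subtype.ext hx⟩, by
      rw [hcard]; simp⟩
  exact ⟨combine_add hA hb, combine_mem hb, fun x y e => hg.1 (Subtype.ext e), hsurj⟩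

/-- If the `z`-elements of `A` are given by the table, then `N(A)/A` embeds in `M24`. -/
theorem exists_quotient_hom [Finite G] {A : Subgroup G} {Φ : LL → G} (C : CoordsOn A Φ)
    (hcen : ∀ g, (∀ a ∈ A, g * a = a * g) → g ∈ A) {z : G}
    (hO : ∀ x, IsConj (Φ x) z ↔ octTable.testBit (enc x) = true)
    [(A.subgroupOf (Subgroup.normalizer (A : Set G))).Normal] :
    ∃ τ : ↥(Subgroup.normalizer (A : Set G)) ⧸ A.subgroupOf (Subgroup.normalizer (A : Set G)) →* ↥M24,
      Function.Injective τ ∧ ∀ (n : ↥(Subgroup.normalizer (A : Set G))) (c d : ↥golayCode),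
        (d : GolayPt → ZMod 2) = (c : GolayPt → ZMod 2) ∘
            ⇑((τ (QuotientGroup.mk n) : Equiv.Perm GolayPt)⁻¹) →
          (n : G) * Φ (coordMap c) * (n : G)⁻¹ = Φ (coordMap d) := by
  classical
  set N := Subgroup.normalizer (A : Set G) with hN
  have hz : Φ 0 = 1 := by
    have h := C.map_add 0 0
    rwa [add_zero, right_eq_mul] at h
  have hc : ∀ (n : ↥N) (x : LL), ∃ y, Φ y = (n : G) * Φ x * (n : G)⁻¹ := fun n x =>
    C.surj _ ((Subgroup.mem_normalizer_iff.1 n.2 _).1 (C.mem x))
  choose act hact using hc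
  have hadd : ∀ n x y, act n (x + y) = act n x + act n y := fun n x y => C.inj (by
    rw [C.map_add, hact, hact, hact, C.map_add]; group)
  have hone : ∀ x, act 1 x = x := fun x => C.inj (by rw [hact]; simp)
  have hmul : ∀ m n x, act (m * n) x = act m (act n x) := fun m n x => C.inj (by
    rw [hact, hact, hact, Subgroup.coe_mul]; group)
  have hsmul : ∀ n (r : ZMod 2) x, act n (r • x) = r • act n x := fun n r x => by
    rcases z2_cases r with rfl | rfl
    · rw [zero_smul, zero_smul]
      exact C.inj (by rw [hact, hz]; group)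
    · rw [one_smul, one_smul]
  let e : ↥N →* (LL ≃ₗ[ZMod 2] LL) :=
    { toFun := fun n =>
        { toFun := act n, invFun := act n⁻¹, map_add' := hadd n, map_smul' := hsmul n
          left_inv := fun x => by rw [← hmul, inv_mul_cancel, hone]
          right_inv := fun x => by rw [← hmul, mul_inv_cancel, hone] }
      map_one' := LinearEquiv.ext hone
      map_mul' := fun m n => LinearEquiv.ext fun x => hmul m n x }
  have he : ∀ n : ↥N, e n = 1 ↔ n ∈ A.subgroupOf N := by
    intro n
    constructor
    · intro h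
      refine hcen _ fun a ha => ?_
      obtain ⟨x, rfl⟩ := C.surj a ha
      have h' : act n x = x := LinearEquiv.congr_fun h x
      have h'' := hact n x
      rw [h', eq_mul_inv_iff_mul_eq] at h''
      exact h''.symm
    · intro h
      refine LinearEquiv.ext fun x => C.inj ?_
      show Φ (act n x) = Φ x
      obtain ⟨w, hw⟩ := C.surj _ (show (n : G) ∈ A from h)
      rw [hact, ← hw, ← C.map_add, add_comm, C.map_add, mul_inv_cancel_right]
  let ρ : ↥N ⧸ A.subgroupOf N →* (LL ≃ₗ[ZMod 2] LL) :=
    QuotientGroup.lift (A.subgroupOf N) e fun n hn => (he n).2 hn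
  have hρ : Function.Injective ρ := by
    rw [injective_iff_map_eq_one]
    intro q
    induction q using QuotientGroup.induction_on with
    | H n => exact fun h => (QuotientGroup.eq_one_iff n).2 ((he n).1 h)
  have hpres : ∀ q, ∀ y ∈ octadImg coordMap, ρ q y ∈ octadImg coordMap := by
    intro q
    induction q using QuotientGroup.induction_on with
    | H n =>
      intro y hy
      rw [octadImg_coordMap, Set.mem_setOf_eq, ← hO] at hy ⊢
      show IsConj (Φ (act n y)) z
      rw [hact]
      exact (isConj_iff.2 ⟨(n : G)⁻¹, by group⟩).trans hy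
  obtain ⟨τ, hτ, hτact⟩ := exists_hom coordMap_presents ρ hρ hpres
  refine ⟨τ, hτ, fun n c d h => ?_⟩
  rw [← hact n (coordMap c)]
  exact congrArg Φ (hτact _ c d h)

/-- Given also the order, `N(A)/A` is `M24`. -/
theorem nonempty_quotient_equiv [Finite G] {A : Subgroup G} {Φ : LL → G} (C : CoordsOn A Φ)
    (hcen : ∀ g, (∀ a ∈ A, g * a = a * g) → g ∈ A) {z : G}
    (hO : ∀ x, IsConj (Φ x) z ↔ octTable.testBit (enc x) = true)
    [(A.subgroupOf (Subgroup.normalizer (A : Set G))).Normal]
    (hcard : Nat.card (↥(Subgroup.normalizer (A : Set G)) ⧸ A.subgroupOf (Subgroup.normalizer (A : Set G))) =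
      Nat.card ↥M24) :
    Nonempty (↥(Subgroup.normalizer (A : Set G)) ⧸ A.subgroupOf (Subgroup.normalizer (A : Set G)) ≃* ↥M24) := by
  obtain ⟨τ, hτ, -⟩ := exists_quotient_hom C hcen hO
  exact ⟨MulEquiv.ofBijective τ ((Nat.bijective_iff_injective_and_card τ).mpr ⟨hτ, hcard⟩)⟩

/-- The `z`-elements of `A` are 759 in number. -/
theorem ncard_class {A : Subgroup G} {Φ : LL → G} (C : CoordsOn A Φ) {z : G}
    (hO : ∀ x, IsConj (Φ x) z ↔ octTable.testBit (enc x) = true) :
    Set.ncard {a | a ∈ A ∧ IsConj a z} = 759 := by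
  rw [← ncard_octTable, ← Set.ncard_image_of_injective _ C.inj]
  congr 1
  ext a
  constructor
  · rintro ⟨ha, hc⟩
    obtain ⟨x, rfl⟩ := C.surj a ha
    exact ⟨x, (hO x).1 hc, rfl⟩
  · rintro ⟨x, hx, rfl⟩
    exact ⟨C.mem x, (hO x).2 hx⟩

end CfsgLib.ConwayType.GolayModel
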