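import Cfsg.Agent.Lib.ConwayType.Golay.Coords

/-!
The positions of the distinguished lifts over the 35 lines, checked against the table of the octads.
-/

set_option autoImplicit false
set_option maxRecDepth 100000
set_option synthInstance.maxSize 1000
set_option maxHeartbeats 4000000
set_option exponentiation.threshold 4096

namespace CfsgLib.ConwayType.Golay

open CfsgLib.ConwayType.GolayModel

local notation "WV" => Fin 4 → ZMod 2

/-- The coordinates of the line through two vectors. -/
def wedgeW (p q : WV) : Fin 6 → ZMod 2 :=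
  ![p 0 * q 1 + p 1 * q 0, p 0 * q 2 + p 2 * q 0, p 0 * q 3 + p 3 * q 0,
    p 1 * q 2 + p 2 * q 1, p 1 * q 3 + p 3 * q 1, p 2 * q 3 + p 3 * q 2]

/-- The number of a vector of six bits. -/
def num6 (w : Fin 6 → ZMod 2) : ℕ :=
  (w 0).val + 2 * (w 1).val + 4 * (w 2).val + 8 * (w 3).val + 16 * (w 4).val + 32 * (w 5).val

/-- The position of the distinguished lift over each line, four bits for each `num6`. -/
def lineTable : ℕ := 1499280549955626812256085998222146844885474851316496718706406332875395829760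

/-- The position of the distinguished lift over a line. -/
def fLine (w : Fin 6 → ZMod 2) : WV :=
  fun i => bif lineTable.testBit (4 * num6 w + i) then 1 else 0

/-- Two independent vectors. -/
def Indep (p q : WV) : Prop := p ≠ 0 ∧ q ≠ 0 ∧ p ≠ q

instance (p q : WV) : Decidable (Indep p q) := by unfold Indep; infer_instance

/-- Coordinates from the three parts. -/
def mkX (ε : ZMod 2) (u : WV) (w : Fin 6 → ZMod 2) : Fin 11 → ZMod 2 :=
  ![ε, u 0, u 1, u 2, u 3, w 0, w 1, w 2, w 3, w 4, w 5]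

/-- The first ends of the basic lines. -/
def endI : Fin 6 → WV := ![Pi.single 0 1, Pi.single 0 1, Pi.single 0 1, Pi.single 1 1, Pi.single 1 1, Pi.single 2 1]

/-- The second ends of the basic lines. -/
def endJ : Fin 6 → WV := ![Pi.single 1 1, Pi.single 2 1, Pi.single 3 1, Pi.single 2 1, Pi.single 3 1, Pi.single 3 1]

theorem mkX_surj : ∀ x : Fin 11 → ZMod 2,
    x = mkX (x 0) ![x 1, x 2, x 3, x 4] ![x 5, x 6, x 7, x 8, x 9, x 10] := by
  intro x; funext i; fin_cases i <;> rfl

theorem mkX_add (ε ε' : ZMod 2) (u u' : WV) (w w' : Fin 6 → ZMod 2) :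
    mkX ε u w + mkX ε' u' w' = mkX (ε + ε') (u + u') (w + w') := by
  funext i; fin_cases i <;> rfl

theorem line_rules : (∀ p q : WV, Indep p q → wedgeW p q = wedgeW q p) ∧
    (∀ p q : WV, Indep p q → wedgeW p (p + q) = wedgeW p q) ∧
    (∀ k, Indep (endI k) (endJ k) ∧ fLine (wedgeW (endI k) (endJ k)) = 0 ∧
      wedgeW (endI k) (endJ k) = Pi.single k 1) := by decide +kernel

theorem pencil_rule : ∀ p q₁ q₂ : WV, Indep p q₁ → Indep p q₂ → q₁ + q₂ ≠ 0 → q₁ + q₂ ≠ p →
    wedgeW p (q₁ + q₂) = wedgeW p q₁ + wedgeW p q₂ ∧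
      fLine (wedgeW p (q₁ + q₂)) = fLine (wedgeW p q₁) + fLine (wedgeW p q₂) + p := by
  decide +kernel

theorem basis_pairs : ∀ i j : Fin 4, i ≠ j → ∃ k : Fin 6,
    (endI k = Pi.single i 1 ∧ endJ k = Pi.single j 1) ∨
      (endI k = Pi.single j 1 ∧ endJ k = Pi.single i 1) := by decide +kernel

theorem table_dec : ∀ (ε : ZMod 2) (u p q : WV), Indep p q →
    (octTable.testBit (enc (mkX ε u (wedgeW p q))) = true ↔
      (u + fLine (wedgeW p q) = 0 ∨ u + fLine (wedgeW p q) = p ∨ u + fLine (wedgeW p q) = q ∨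
        u + fLine (wedgeW p q) = p + q)) := by
  decide +kernel

theorem table_zero : ∀ (ε : ZMod 2) (u : WV),
    (octTable.testBit (enc (mkX ε u 0)) = true ↔ ¬(ε = 0 ∧ u = 0)) := by
  decide +kernel

/-- The image is trivial or a root map. -/
def IsDec (w : Fin 6 → ZMod 2) : Prop := w 0 * w 5 + w 1 * w 4 + w 2 * w 3 = 0

theorem dec_cases : ∀ w : Fin 6 → ZMod 2, IsDec w → w = 0 ∨ ∃ p q : WV, Indep p q ∧ wedgeW p q = w := by
  unfold IsDec; decide +kernel

end CfsgLib.ConwayType.Golay
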