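import Cfsg.Agent.Lib.ConwayType.Golay.LiftRoot
import Cfsg.Agent.Lib.ConwayType.Golay.CoordsInstance

/-!
The eleven basis elements of the abelian group and the matrices of conjugation by elements of the extraspecial
group on them.
-/

set_option autoImplicit false
set_option linter.unusedSectionVars false
set_option maxRecDepth 100000
set_option synthInstance.maxSize 1000
set_option maxHeartbeats 4000000

namespace CfsgLib.ConwayType.Golay

open CfsgLib.ExtraspecialLarge CfsgLib.ConwayType CfsgLib.ConwayType.GolayModel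

/-- The vector with a given number. -/
def vecN (n : ℕ) : Fin 11 → ZMod 2 := fun i => bif n.testBit i then 1 else 0

theorem vecN_xor (a b : ℕ) : vecN (a ^^^ b) = vecN a + vecN b := by
  funext i
  simp only [vecN, Nat.testBit_xor, Pi.add_apply]
  cases a.testBit i <;> cases b.testBit i <;> rfl

/-- The number of an image under the linear map with given images of the coordinate vectors. -/
def linN (imgs : Fin 11 → ℕ) (x : Fin 11 → ZMod 2) : ℕ :=
  ((List.finRange 11).map fun i => if x i = 0 then 0 else imgs i).foldr (· ^^^ ·) 0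

/-- The coordinates of the second points of the lines. -/
def lineJ : Fin 6 → Fin 4 := ![1, 2, 3, 2, 3, 3]

/-- The coordinates of the first points of the lines. -/
def lineI : Fin 6 → Fin 4 := ![0, 0, 0, 1, 1, 2]

/-- The images of the coordinate vectors under conjugation by an element over the `k`-th dual vector. -/
def rImg (k : Fin 4) : Fin 11 → ℕ :=
  ![1, (1 <<< 1) ^^^ (if k = 0 then 1 else 0), (1 <<< 2) ^^^ (if k = 1 then 1 else 0),
    (1 <<< 3) ^^^ (if k = 2 then 1 else 0), (1 <<< 4) ^^^ (if k = 3 then 1 else 0),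
    rLine k 0, rLine k 1, rLine k 2, rLine k 3, rLine k 4, rLine k 5]
where
  /-- The image of a line vector. -/
  rLine (k : Fin 4) (l : Fin 6) : ℕ :=
    (1 <<< (5 + (l : ℕ))) ^^^ (if k = lineI l then 1 ^^^ (1 <<< (1 + (lineJ l : ℕ))) else 0) ^^^
      (if k = lineJ l then 1 ^^^ (1 <<< (1 + (lineI l : ℕ))) else 0)

theorem line_basV : ∀ l : Fin 6, lineA true l = basV true (lineI l) ∧ lineB true l = basV true (lineJ l) := by
  decide +kernel

theorem bl_dual_bas : ∀ j k : Fin 4, bl (dualV true j) (basV true k) = if j = k then 1 else 0 := by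
  decide +kernel

variable {G : Type*} [Group G]

/-- Conjugation is linear in the coordinates once it is on the basis. -/
theorem conj_linN {A : Subgroup G} {Φ : (Fin 11 → ZMod 2) → G} (C : CoordsOn A Φ) {n : G}
    {imgs : Fin 11 → ℕ} (h : ∀ i, n * Φ (Pi.single i 1) * n⁻¹ = Φ (vecN (imgs i))) (x : Fin 11 → ZMod 2) :
    n * Φ x * n⁻¹ = Φ (vecN (linN imgs x)) := by
  classical
  have hΦ0 : Φ 0 = 1 := by
    have e := C.map_add 0 0
    rwa [add_zero, right_eq_mul] at e
  have hv0 : vecN 0 = 0 := funext fun i => by simp [vecN]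
  have key : ∀ l : List (Fin 11), n * Φ (l.map fun i => if x i = 0 then 0 else Pi.single i 1).sum * n⁻¹ =
      Φ (vecN ((l.map fun i => if x i = 0 then 0 else imgs i).foldr (· ^^^ ·) 0)) := by
    intro l
    induction l with
    | nil => simp [hΦ0, hv0]
    | cons i l ih =>
      simp only [List.map_cons, List.sum_cons, List.foldr_cons]
      rw [C.map_add, vecN_xor, C.map_add,
        show ∀ a b : G, n * (a * b) * n⁻¹ = n * a * n⁻¹ * (n * b * n⁻¹) from fun a b => by group, ih]
      congr 1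
      split
      · rw [hΦ0, hv0, hΦ0]; group
      · exact h i
  have hx : x = ((List.finRange 11).map fun i => if x i = 0 then 0 else (Pi.single i 1 : Fin 11 → ZMod 2)).sum := by
    rw [← List.ofFn_eq_map, List.sum_ofFn]
    conv_lhs => rw [← Finset.univ_sum_single x]
    refine Finset.sum_congr rfl fun i _ => ?_
    rcases z2_cases (x i) with e | e <;> rw [e] <;> simp
  conv_lhs => rw [hx]
  exact key _

/-- The basis: `z`, the section on the coordinate vectors and the six lifts. -/
def fibreBasis (z : G) (Y : (Fin 4 → ZMod 2) → G) (t : Fin 6 → G) : Fin 11 → G :=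
  ![z, Y (Pi.single 0 1), Y (Pi.single 1 1), Y (Pi.single 2 1), Y (Pi.single 3 1),
    t 0, t 1, t 2, t 3, t 4, t 5]

theorem fibreBasis_head (z : G) (Y : (Fin 4 → ZMod 2) → G) (t : Fin 6 → G) :
    fibreBasis z Y t 0 = z ∧
      ∀ j : Fin 4, fibreBasis z Y t ⟨1 + j, by omega⟩ = Y (Pi.single j 1) :=
  ⟨rfl, fun j => by fin_cases j <;> rfl⟩

theorem fibreBasis_line (z : G) (Y : (Fin 4 → ZMod 2) → G) (t : Fin 6 → G) (l : Fin 6) :
    fibreBasis z Y t ⟨5 + l, by omega⟩ = t l := by fin_cases l <;> rfl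

theorem rImg_spec : ∀ k : Fin 4, rImg k 0 = 1 ∧
    (∀ j : Fin 4, vecN (rImg k ⟨1 + j, by omega⟩) =
      (if k = j then Pi.single 0 1 else 0) + Pi.single ⟨1 + j, by omega⟩ 1) ∧
    (∀ l : Fin 6, vecN (rImg k ⟨5 + l, by omega⟩) =
      (if k = lineI l then Pi.single 0 1 + Pi.single ⟨1 + lineJ l, by omega⟩ 1 else 0) +
      (if k = lineJ l then Pi.single 0 1 + Pi.single ⟨1 + lineI l, by omega⟩ 1 else 0) +
      Pi.single ⟨5 + l, by omega⟩ 1) := by
  decide +kernel

theorem fin11_cases (i : Fin 11) :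
    i = 0 ∨ (∃ j : Fin 4, i = ⟨1 + j, by omega⟩) ∨ ∃ l : Fin 6, i = ⟨5 + l, by omega⟩ := by
  obtain ⟨n, hn⟩ := i
  rcases Nat.lt_or_ge n 1 with h | h
  · exact Or.inl (Fin.ext (by simp only [Fin.val_zero]; omega))
  rcases Nat.lt_or_ge n 5 with h' | h'
  · exact Or.inr (Or.inl ⟨⟨n - 1, by omega⟩, Fin.ext (by simp only; omega)⟩)
  · exact Or.inr (Or.inr ⟨⟨n - 5, by omega⟩, Fin.ext (by simp only; omega)⟩)

variable [Finite G] {z : G} {Qf : G → Subgroup G} {θ : G → V} {ρ : G → O} {J : Subgroup O} {y h : G}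
variable (P : PairSetting z Qf θ ρ J y h) {Y : (Fin 4 → ZMod 2) → G} {t : Fin 6 → G}
include P

/-- Conjugation by an element over a dual vector. -/
theorem exists_R_action {A : Subgroup G} (C : CoordsOn A (combine (fibreBasis z Y t)))
    (hY : ∀ v, Y v ∈ Qf z) (hYθ : ∀ v, θ (Y v) = wVec true v)
    (ht : ∀ l, t l * z = z * t l ∧ t l * t l = 1 ∧ t l ∈ Qf (Y (Pi.single (lineI l) 1)) ∧
      t l ∈ Qf (Y (Pi.single (lineJ l) 1)) ∧ ρ (t l) = lineT true l)
    (k : Fin 4) : ∃ r, r * z = z * r ∧ ∀ x, r * combine (fibreBasis z Y t) x * r⁻¹ =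
      combine (fibreBasis z Y t) (vecN (linN (rImg k) x)) := by
  classical
  obtain ⟨r, hr, hθr⟩ := P.θ_surj (dualV true k)
  set Φ := combine (fibreBasis z Y t) with hΦ
  have hΦ0 : Φ 0 = 1 := by
    have e := C.map_add 0 0
    rwa [add_zero, right_eq_mul] at e
  have hΦs : ∀ i, Φ (Pi.single i 1) = fibreBasis z Y t i := fun i => combine_single _ i
  obtain ⟨hb0, hb4⟩ := fibreBasis_head z Y t
  obtain ⟨r0, r4, r6⟩ := rImg_spec k
  have hrz := P.toSetting.comm_z hr
  refine ⟨r, hrz, conj_linN C fun i => ?_⟩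
  rw [hΦs]
  have hzp : ∀ (s : ZMod 2), zp z s = Φ (if s = 0 then 0 else Pi.single 0 1) := fun s => by
    rcases z2_cases s with rfl | rfl
    · rw [zp_zero, if_pos rfl, hΦ0]
    · rw [zp_one, if_neg one_ne_zero, hΦs, hb0]
  rcases fin11_cases i with rfl | ⟨j, rfl⟩ | ⟨l, rfl⟩
  · rw [r0, show vecN 1 = Pi.single 0 1 by decide +kernel, hΦs, hb0]
    exact conj_fix_iff.2 hrz
  · rw [r4, C.map_add, hΦs, hb4, P.toSetting.conj_eq hr (hY _), hθr, hYθ, wVec_single, bl_dual_bas]
    congr 1
    split_ifs <;> simp [hzp]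
  · obtain ⟨htz, ht2, hta, htb, hρ⟩ := ht l
    obtain ⟨e1, e2⟩ := line_basV l
    have hA := basV_spec true (lineI l)
    have hB := basV_spec true (lineJ l)
    have hI : InW true (basV true (lineI l)) := ⟨_, (wVec_single true _).symm⟩
    have hJ' : InW true (basV true (lineJ l)) := ⟨_, (wVec_single true _).symm⟩
    have hne : basV true (lineI l) ≠ basV true (lineJ l) := by
      clear * - l; revert l; decide +kernel
    have hθa : θ (Y (Pi.single (lineI l) 1)) = basV true (lineI l) := by rw [hYθ, wVec_single]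
    have hθb : θ (Y (Pi.single (lineJ l) 1)) = basV true (lineJ l) := by rw [hYθ, wVec_single]
    have hρ' : ρ (t l) = T (basV true (lineI l)) (basV true (lineJ l)) hA.1 (hI.perp hJ') := by
      rw [hρ]; exact T_congr e1 e2 _ _
    have R1 := isRoot_of_lift P hA.2.1 (hI.perp hJ') hA.1 hB.1
      (v := dualV true (lineI l)) (by rw [bl_dual_bas, if_pos rfl]) (hY _) hθa htz ht2 hta hρ'
    have R2 := isRoot_of_lift P hB.2.1 (hJ'.perp hI) hB.1 hA.1
      (v := dualV true (lineJ l)) (by rw [bl_dual_bas, if_pos rfl]) (hY _) hθb htz ht2 htb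
      (hρ'.trans (T_symm hA.1 hB.1 _))
    rw [fibreBasis_line, conj_root P.toSetting hI hJ' hA.2.1 hB.2.1 hne R1 R2 hr, r6, C.map_add, C.map_add,
      hΦs, fibreBasis_line, hθr, bl_comm _ (dualV true k), bl_comm _ (dualV true k), bl_dual_bas, bl_dual_bas]
    congr 1
    have hIJ : lineI l ≠ lineJ l := by clear * - l; revert l; decide
    by_cases h1 : k = lineI l
    · rw [if_pos h1, if_pos h1, if_neg (h1 ▸ hIJ), if_neg (h1 ▸ hIJ), C.map_add, hΦs, hΦs, hb0, hb4, hΦ0]
      simp [mul_assoc]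
    · rw [if_neg h1, if_neg h1, hΦ0]
      by_cases h2 : k = lineJ l
      · rw [if_pos h2, if_pos h2, C.map_add, hΦs, hΦs, hb0, hb4]
        simp
      · rw [if_neg h2, if_neg h2, hΦ0]
        simp

end CfsgLib.ConwayType.Golay
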