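import Cfsg.Agent.Lib.ConwayType.Golay.Incidence2
import Cfsg.Agent.Lib.ConwayType.Golay.CoordsInstance
import Cfsg.Agent.Lib.ConwayType.Golay.FibreAction
import Cfsg.Agent.Lib.ConwayType.Golay.DecTables

/-!
The conjugates of `z` among the elements of the elementary abelian group whose image is a root map
or trivial, in coordinates.
-/

set_option autoImplicit false
set_option linter.unusedSectionVars false
set_option maxRecDepth 100000
set_option synthInstance.maxSize 1000
set_option maxHeartbeats 4000000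
set_option exponentiation.threshold 4096

namespace CfsgLib.ConwayType.Golay

open CfsgLib.ExtraspecialLarge CfsgLib.ConwayType CfsgLib.ConwayType.GolayModel

local notation "WV" => Fin 4 → ZMod 2

variable {G : Type*} [Group G] [Finite G]
variable {z : G} {Qf : G → Subgroup G} {θ : G → V} {ρ : G → O} {J : Subgroup O} {y h : G}

/-- The pencils: the product of two distinguished lifts through a point. -/
def PencilOne (z : G) (Qf : G → Subgroup G) (Y : WV → G) : Prop :=
  ∀ p q₁ q₂ : WV, Indep p q₁ → Indep p q₂ → q₁ + q₂ ≠ 0 → q₁ + q₂ ≠ p →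
    ∀ t₁ t₂, OctLift z Qf (Y p) (Y q₁) t₁ → OctLift z Qf (Y p) (Y q₂) t₂ →
      OctLift z Qf (Y p) (z * Y (q₁ + q₂)) (t₁ * t₂)

/-- The data of the coordinates. -/
structure DecData (z : G) (Qf : G → Subgroup G) (θ : G → V) (A : Subgroup G) (Y : WV → G)
    (lt : Fin 6 → G) : Prop where
  memY : ∀ v, Y v ∈ Qf z
  θY : ∀ v, θ (Y v) = wVec true v
  addY : ∀ u v, Y (u + v) = Y u * Y v
  lift : ∀ k, OctLift z Qf (Y (endI k)) (Y (endJ k)) (lt k)
  coords : CoordsOn A (combine (fibreBasis z Y lt))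
  pencil : PencilOne z Qf Y

/-- The distinguished lift over a line has the coordinates of the table. -/
def GoodPair (z : G) (Qf : G → Subgroup G) (Y : WV → G) (lt : Fin 6 → G) (p q : WV) : Prop :=
  ∃ ε, OctLift z Qf (Y p) (Y q)
    (combine (fibreBasis z Y lt) (mkX ε (fLine (wedgeW p q)) (wedgeW p q)))

variable (P : PairSetting z Qf θ ρ J y h) {A : Subgroup G} {Y : WV → G} {lt : Fin 6 → G}
  (D : DecData z Qf θ A Y lt)
include P D

theorem linePair {p q : WV} (hpq : Indep p q) : LinePair z Qf θ (Y p) (Y q) := by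
  have h0 : ∀ v, wVec true v = 0 → v = 0 := fun v e => wVec_inj true v 0 (e.trans (by simp [wVec]))
  exact ⟨D.memY p, D.memY q, by rw [D.θY]; exact wVec_spec _ _, by rw [D.θY]; exact wVec_spec _ _,
    by rw [D.θY, D.θY]; exact bl_wVec _ _ _, by rw [D.θY]; exact fun e => hpq.1 (h0 _ e),
    by rw [D.θY]; exact fun e => hpq.2.1 (h0 _ e),
    by rw [D.θY, D.θY]; exact fun e => hpq.2.2 (wVec_inj _ _ _ e)⟩

omit [Finite G] P in
theorem Y_zero : Y 0 = 1 := by
  have e := D.addY 0 0
  rwa [add_zero, left_eq_mul] at e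

omit [Finite G] P in
theorem Φ_zero_part (ε : ZMod 2) (u : WV) :
    combine (fibreBasis z Y lt) (mkX ε u 0) = zp z ε * Y u := by
  have hY : ∀ j : Fin 4, zp (Y (Pi.single j 1)) (u j) = Y (Pi.single j (u j)) := fun j => by
    rcases z2_cases (u j) with e | e <;> rw [e]
    · rw [Pi.single_zero, Y_zero D, zp_zero]
    · rw [zp_one]
  have hu : u = (Pi.single 0 (u 0) : WV) + (Pi.single 1 (u 1) : WV) + (Pi.single 2 (u 2) : WV) +
      (Pi.single 3 (u 3) : WV) := by
    funext i; fin_cases i <;> simp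
  conv_rhs => rw [hu, D.addY, D.addY, D.addY, ← hY 0, ← hY 1, ← hY 2, ← hY 3]
  simp [combine, List.finRange_succ, fibreBasis, mkX, mul_assoc]

theorem good_basis (k : Fin 6) : GoodPair z Qf Y lt (endI k) (endJ k) := by
  obtain ⟨-, hf, hw⟩ := line_rules.2.2 k
  refine ⟨0, ?_⟩
  rw [hf, hw]
  have e : mkX 0 0 (Pi.single k 1) = Pi.single (⟨5 + k.val, by omega⟩ : Fin 11) 1 := by
    funext i; fin_cases k <;> fin_cases i <;> rfl
  rw [e, combine_single]
  have hk := D.lift k
  fin_cases k <;> exact hk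

theorem good_swap {p q : WV} (hpq : Indep p q) (H : GoodPair z Qf Y lt p q) : GoodPair z Qf Y lt q p := by
  obtain ⟨ε, hε⟩ := H
  refine ⟨ε, ?_⟩
  rw [← line_rules.1 p q hpq]
  exact hε.swap

theorem good_sum {p q : WV} (hpq : Indep p q) (H : GoodPair z Qf Y lt p q) :
    GoodPair z Qf Y lt p (p + q) := by
  obtain ⟨ε, hε⟩ := H
  refine ⟨ε, ?_⟩
  rw [line_rules.2.1 p q hpq]
  set t := combine (fibreBasis z Y lt) (mkX ε (fLine (wedgeW p q)) (wedgeW p q))
  have L := linePair P D hpq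
  obtain ⟨-, -, -, hpa⟩ := lift_spec P L.ma L.qa L.a0
  obtain ⟨-, -, -, hpb⟩ := lift_spec P L.mb L.qb L.b0
  have hpt : Pt z t := pt_of_mem P hpa hε.memA hε.sq fun e => hε.notMem (e ▸ one_mem _)
  obtain ⟨-, -, -, hps⟩ := lift_spec P (LinePair.prod P L).mb (LinePair.prod P L).qb (LinePair.prod P L).b0
  refine ⟨hε.comm, hε.sq, hε.notMem, hε.memA, ?_⟩
  rw [D.addY]
  exact pt_symm P hpt hps ((Qf t).mul_mem (pt_symm P hpa hpt hε.memA) (pt_symm P hpb hpt hε.memB))

theorem good_pencil {p q₁ q₂ : WV} (h₁ : Indep p q₁) (h₂ : Indep p q₂) (h0 : q₁ + q₂ ≠ 0)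
    (hp : q₁ + q₂ ≠ p) (H₁ : GoodPair z Qf Y lt p q₁) (H₂ : GoodPair z Qf Y lt p q₂) :
    GoodPair z Qf Y lt p (q₁ + q₂) := by
  obtain ⟨ε₁, T₁⟩ := H₁
  obtain ⟨ε₂, T₂⟩ := H₂
  obtain ⟨hw, hf⟩ := pencil_rule p q₁ q₂ h₁ h₂ h0 hp
  have h₃ : Indep p (q₁ + q₂) := ⟨h₁.1, h0, Ne.symm hp⟩
  have T₃ := OctLift.shift P (LinePair.shift P (linePair P D h₃))
    (D.pencil p q₁ q₂ h₁ h₂ h0 hp _ _ T₁ T₂)
  rw [← mul_assoc, P.toSetting.z_sq, one_mul] at T₃
  refine ⟨ε₁ + ε₂, ?_⟩
  rw [hf, hw]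
  have e : combine (fibreBasis z Y lt) (mkX 0 p 0) = Y p := by rw [Φ_zero_part D, zp_zero, one_mul]
  rw [← e, ← D.coords.map_add, ← D.coords.map_add, mkX_add, mkX_add, add_zero, add_zero] at T₃
  rwa [e] at T₃

/-- Every line. -/
theorem good_all {p q : WV} (hpq : Indep p q) : GoodPair z Qf Y lt p q := by
  have hclosed : ∀ p : WV, p ≠ 0 → (∀ j : Fin 4, Pi.single j 1 ≠ p → GoodPair z Qf Y lt p (Pi.single j 1)) →
      ∀ q, q ≠ 0 → p ≠ q → GoodPair z Qf Y lt p q := by
    intro p hp hb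
    let S : WV → Prop := fun q => q = 0 ∨ q = p ∨ GoodPair z Qf Y lt p q
    have hadd : ∀ a b, S a → S b → S (a + b) := by
      intro a b ha hb
      by_cases h0 : a + b = 0
      · exact Or.inl h0
      by_cases hp' : a + b = p
      · exact Or.inr (Or.inl hp')
      by_cases a0 : a = 0
      · subst a0; rw [zero_add]; exact hb
      by_cases b0 : b = 0
      · subst b0; rw [add_zero]; exact ha
      by_cases ap' : a = p
      · subst ap'
        rcases hb with e | e | e
        · exact absurd e b0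
        · subst e; exact Or.inl (funext fun i => CharTwo.add_self_eq_zero _)
        · exact Or.inr (Or.inr (good_sum P D ⟨hp, b0, fun e' => h0 (by
            rw [← e']; exact funext fun i => CharTwo.add_self_eq_zero _)⟩ e))
      by_cases bp : b = p
      · subst bp
        rcases ha with e | e | e
        · exact absurd e a0
        · exact absurd e ap'
        · rw [add_comm]; exact Or.inr (Or.inr (good_sum P D ⟨hp, a0, Ne.symm ap'⟩ e))
      exact Or.inr (Or.inr (good_pencil P D ⟨hp, a0, Ne.symm ap'⟩ ⟨hp, b0, Ne.symm bp⟩ h0 hp'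
        ((ha.resolve_left a0).resolve_left ap') ((hb.resolve_left b0).resolve_left bp)))
    have hS : ∀ j (c : ZMod 2), S (Pi.single j c) := by
      intro j c
      rcases z2_cases c with rfl | rfl
      · exact Or.inl (Pi.single_zero j)
      · by_cases e : Pi.single j 1 = p
        · exact Or.inr (Or.inl e)
        · exact Or.inr (Or.inr (hb j e))
    intro q hq hpq
    have hu : q = (Pi.single 0 (q 0) : WV) + (Pi.single 1 (q 1) : WV) + (Pi.single 2 (q 2) : WV) +
        (Pi.single 3 (q 3) : WV) := by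
      funext i; fin_cases i <;> simp
    have := hadd _ _ (hadd _ _ (hadd _ _ (hS 0 (q 0)) (hS 1 (q 1))) (hS 2 (q 2))) (hS 3 (q 3))
    rw [← hu] at this
    exact (this.resolve_left hq).resolve_left (Ne.symm hpq)
  have hne : ∀ j : Fin 4, (Pi.single j 1 : WV) ≠ 0 := by decide
  have hbasis : ∀ i q, q ≠ 0 → (Pi.single i 1 : WV) ≠ q → GoodPair z Qf Y lt (Pi.single i 1) q := by
    intro i
    refine hclosed _ (hne i) fun j hj => ?_
    obtain ⟨k, ⟨e1, e2⟩ | ⟨e1, e2⟩⟩ := basis_pairs i j fun e => hj (by rw [e])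
    · rw [← e1, ← e2]; exact good_basis P D k
    · rw [← e1, ← e2]; exact good_swap P D (line_rules.2.2 k).1 (good_basis P D k)
  exact hclosed p hpq.1 (fun j hj =>
    good_swap P D ⟨hne j, hpq.1, hj⟩ (hbasis j p hpq.1 hj)) q hpq.2.1 hpq.2.2

/-- The conjugates of `z` over trivial images and root maps. -/
theorem isConj_iff_table_dec {x : Fin 11 → ZMod 2} (hx : IsDec ![x 5, x 6, x 7, x 8, x 9, x 10]) :
    IsConj (combine (fibreBasis z Y lt) x) z ↔ octTable.testBit (enc x) = true := by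
  set Φ := combine (fibreBasis z Y lt) with hΦ
  have hconj : ∀ g, IsConj g z ↔ Pt z g := fun g => isConj_comm.trans isConj_iff
  rw [mkX_surj x]
  set ε := x 0
  set u : WV := ![x 1, x 2, x 3, x 4]
  set w : Fin 6 → ZMod 2 := ![x 5, x 6, x 7, x 8, x 9, x 10] with hw
  have hv : ∀ (a : ZMod 2) (v : WV), zp z a * Y v ∈ Qf z ∧ θ (zp z a * Y v) = wVec true v := fun a v => by
    have hz : zp z a ∈ Qf z := zp_mem P.toSetting.z_mem a
    refine ⟨(Qf z).mul_mem hz (D.memY v), ?_⟩
    rw [P.θ_mul _ hz _ (D.memY v), D.θY]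
    rcases z2_cases a with e | e <;> rw [e] <;> simp [P.toSetting.θ_one, P.toSetting.θ_z]
  rcases dec_cases w hx with h0 | ⟨p, q', hpq, e⟩
  · rw [h0, table_zero, hconj, hΦ, Φ_zero_part D]
    constructor
    · rintro hp ⟨e1, e2⟩
      rw [e1, e2, zp_zero, one_mul, Y_zero D] at hp
      obtain ⟨g, hg⟩ := hp
      exact P.toSetting.z_ne (conj_eq_one_iff.1 hg)
    · intro hn
      obtain ⟨hm, hθ⟩ := hv ε u
      refine pt_of_mem_z P hm ((P.θ_sq _ hm).2 (by rw [hθ]; exact wVec_spec _ _)) fun e1 => hn ?_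
      have h1 := congrArg θ e1
      rw [hθ, P.toSetting.θ_one] at h1
      have hu0 : u = 0 := wVec_inj true u 0 (h1.trans (by simp [wVec]))
      refine ⟨?_, hu0⟩
      rw [hu0, Y_zero D, mul_one] at e1
      rcases z2_cases ε with e2 | e2
      · exact e2
      · rw [e2, zp_one] at e1; exact absurd e1 P.toSetting.z_ne
  · rw [← e, table_dec ε u p q' hpq, hconj]
    obtain ⟨ε₀, T⟩ := good_all P D hpq
    set f := fLine (wedgeW p q')
    obtain ⟨hm, hθ⟩ := hv (ε₀ + ε) (f + u)
    have hsplit : mkX ε u (wedgeW p q') = mkX ε₀ f (wedgeW p q') + mkX (ε₀ + ε) (f + u) 0 := by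
      rw [mkX_add, add_zero, ← add_assoc, ← add_assoc, CharTwo.add_self_eq_zero, zero_add,
        show f + f = 0 from funext fun i => CharTwo.add_self_eq_zero _, zero_add]
    rw [hΦ, hsplit, D.coords.map_add, Φ_zero_part D,
      pt_mul_iff P (linePair P D hpq) T hm (by rw [hθ]; exact wVec_spec _ _)
        (by rw [hθ, D.θY]; exact bl_wVec _ _ _) (by rw [hθ, D.θY]; exact bl_wVec _ _ _)]
    simp only [hθ, D.θY, wVec_add, add_comm u f]
    have hz0 : wVec true 0 = 0 := by simp [wVec]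
    conv_lhs => rw [← hz0]
    constructor
    · rintro (e | e | e | e)
      · exact Or.inl (wVec_inj _ _ _ e)
      · exact Or.inr (Or.inl (wVec_inj _ _ _ e))
      · exact Or.inr (Or.inr (Or.inl (wVec_inj _ _ _ e)))
      · exact Or.inr (Or.inr (Or.inr (wVec_inj _ _ _ e)))
    · rintro (e | e | e | e) <;> rw [e]
      · exact Or.inl rfl
      · exact Or.inr (Or.inl rfl)
      · exact Or.inr (Or.inr (Or.inl rfl))
      · exact Or.inr (Or.inr (Or.inr rfl))

omit P D in
theorem endI_eq : ∀ k, endI k = Pi.single (lineI k) 1 ∧ endJ k = Pi.single (lineJ k) 1 := by decide +kernel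

end CfsgLib.ConwayType.Golay
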