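import Cfsg.Agent.Lib.ConwayType.Golay.Dec
import Cfsg.Agent.Lib.ConwayType.Golay.FibreTable
import Cfsg.Agent.Lib.ConwayType.Golay.Beta

/-!
The classes on the decomposable elements, in the vocabulary of the table of the moves.
-/

set_option autoImplicit false
set_option linter.unusedSectionVars false
set_option maxRecDepth 100000

namespace CfsgLib.ConwayType.Golay

open CfsgLib.ExtraspecialLarge CfsgLib.ConwayType CfsgLib.ConwayType.GolayModel

theorem plucker_bits : ∀ a b c d e f : Bool, (xor (a && f) (xor (b && e) (c && d)) == false) = true →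
    (bif a then (1 : ZMod 2) else 0) * (bif f then 1 else 0) + (bif b then 1 else 0) * (bif e then 1 else 0) +
      (bif c then 1 else 0) * (bif d then 1 else 0) = 0 := by
  decide

theorem isDec_of_decV (x : Fin 11 → ZMod 2) (hx : decV x = true) :
    IsDec ![x 5, x 6, x 7, x 8, x 9, x 10] := by
  have h := plucker_bits _ _ _ _ _ _ hx
  show x 5 * x 10 + x 6 * x 9 + x 7 * x 8 = 0
  rw [enc_lt_inj.2 x 5, enc_lt_inj.2 x 6, enc_lt_inj.2 x 7, enc_lt_inj.2 x 8, enc_lt_inj.2 x 9,
    enc_lt_inj.2 x 10]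
  exact h

theorem indep_triple (p a b : Fin 4 → ZMod 2) (h₁ : Indep p a) (h₂ : Indep p b) (h0 : a + b ≠ 0)
    (hp : a + b ≠ p) (d : Fin 3 → ZMod 2) (hd : ∑ j, d j • ![p, a, b] j = 0) : d = 0 := by
  rw [Fin.sum_univ_three] at hd
  have hd' : d 0 • p + d 1 • a + d 2 • b = 0 := hd
  have h2 : ∀ u v : Fin 4 → ZMod 2, u + v = 0 → u = v := fun u v h =>
    funext fun i => CharTwo.add_eq_zero.1 (congrFun h i)
  rcases z2_cases (d 0) with e0 | e0 <;> rcases z2_cases (d 1) with e1 | e1 <;>
    rcases z2_cases (d 2) with e2 | e2 <;>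
    simp only [e0, e1, e2, one_smul, zero_smul, zero_add, add_zero] at hd'
  · funext i; fin_cases i <;> assumption
  · exact absurd hd' h₂.2.1
  · exact absurd hd' h₁.2.1
  · exact absurd hd' h0
  · exact absurd hd' h₁.1
  · exact absurd (h2 _ _ hd') h₂.2.2
  · exact absurd (h2 _ _ hd') h₁.2.2
  · rw [add_assoc] at hd'
    exact absurd (h2 _ _ hd').symm hp

variable {G : Type*} [Group G] [Finite G]
variable {z : G} {Qf : G → Subgroup G} {θ : G → V} {ρ : G → O} {J : Subgroup O} {y h : G}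
variable (P : PairSetting z Qf θ ρ J y h) {A : Subgroup G} {Y : (Fin 4 → ZMod 2) → G} {lt : Fin 6 → G}
  (D : DecData z Qf θ A Y lt)
include P D

/-- The classes on the decomposable elements. -/
theorem isConj_iff_tableV (x : Fin 11 → ZMod 2) (hx : decV x = true) :
    IsConj (combine (fibreBasis z Y lt) x) z ↔ tableV x = true :=
  isConj_iff_table_dec P D (isDec_of_decV x hx)

omit D in
/-- The data of the coordinates, from a section and the six lifts. -/
theorem decData (hYm : ∀ v, Y v ∈ Qf z) (hYθ : ∀ v, θ (Y v) = wVec true v)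
    (hYadd : ∀ u v, Y (u + v) = Y u * Y v)
    (hA : Cfsg.IsElementaryAbelian 2 (AU z Qf θ (InW true)))
    (hlift : ∀ k, OctLift z Qf (Y (Pi.single (lineI k) 1)) (Y (Pi.single (lineJ k) 1)) (lt k))
    (hC : CoordsOn A (combine (fibreBasis z Y lt))) : DecData z Qf θ A Y lt :=
  ⟨hYm, hYθ, hYadd, fun k => by rw [(endI_eq k).1, (endI_eq k).2]; exact hlift k, hC,
    fun p a b h₁ h₂ h0 hp t₁ t₂ T₁ T₂ =>
      pencil P hYm hYθ hYadd hA p a b (indep_triple p a b h₁ h₂ h0 hp) t₁ t₂ T₁ T₂⟩

end CfsgLib.ConwayType.Golay
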