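import Cfsg.Agent.Lib.Golay.Punctured
import Cfsg.Agent.Lib.Golay.Steiner
import Cfsg.Agent.Lib.Golay.Octads

/-!
Even functionals on the length-24 code: duads and tetrads, counted by the octads on which they are
odd.
-/

set_option autoImplicit false
set_option linter.unusedSectionVars false

namespace CfsgLib.ConwayType.GolayModel

open Cfsg CfsgLib.Golay
open scoped symmDiff
open CfsgLib.ExtraspecialLarge (vec supp vec_supp supp_vec vec_symmDiff card_symmDiff_add zmod_two_cases)

local notation "PP" => Equiv.Perm GolayPt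
local notation "WW" => GolayPt → ZMod 2

/-- The sum of the coordinates in `T`. -/
def ev (T : Finset GolayPt) : WW →ₗ[ZMod 2] ZMod 2 := ∑ i ∈ T, LinearMap.proj i

theorem ev_apply (T : Finset GolayPt) (w : WW) : ev T w = ∑ i ∈ T, w i := by simp [ev]

theorem ev_eq_dot (T : Finset GolayPt) (w : WW) : ev T w = ∑ i, vec T i * w i := by
  rw [ev_apply]
  simp [vec]

theorem ev_vec (T s : Finset GolayPt) : ev T (vec s) = ((T ∩ s).card : ZMod 2) := by
  rw [ev_apply]
  simp [vec, Finset.sum_boole, Finset.filter_mem_eq_inter]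

theorem ev_pair {a b : GolayPt} (hab : a ≠ b) (w : WW) : ev {a, b} w = w a + w b := by
  rw [ev_apply, Finset.sum_pair hab]

theorem ev_symmDiff (S T : Finset GolayPt) (w : WW) : ev (S ∆ T) w = ev S w + ev T w := by
  rw [ev_eq_dot, ev_eq_dot, ev_eq_dot, ← Finset.sum_add_distrib]
  refine Finset.sum_congr rfl fun i _ => ?_
  rw [vec_symmDiff, Pi.add_apply, add_mul]

theorem ev_one (T : Finset GolayPt) : ev T 1 = (T.card : ZMod 2) := by
  simp [ev_apply]

theorem add_self_two (x : ZMod 2) : x + x = 0 := by revert x; decide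

theorem eq_of_add_eq_zero {x y : ZMod 2} (h : x + y = 0) : x = y := by
  revert x y; decide

theorem vec_mem_of_octad {o : Finset GolayPt} (ho : o ∈ octads) : vec o ∈ golayCode := by
  obtain ⟨⟨w, hw, e⟩, -⟩ := ho
  have e' : supp w = o := e
  rw [← e', vec_supp]
  exact hw

theorem octad_of_weight {w : WW} (hw : w ∈ golayCode) (h8 : hammingNorm w = 8) : supp w ∈ octads :=
  ⟨⟨w, hw, rfl⟩, h8⟩

theorem one_mem_golayCode : (1 : WW) ∈ golayCode := Submodule.subset_span (Or.inr rfl)

/-- The number of octads on which the functional of `T` is odd. -/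
noncomputable def oddCount (T : Finset GolayPt) : ℕ :=
  Nat.card {o : Finset GolayPt // o ∈ octads ∧ ev T (vec o) = 1}

theorem parity_identity : ∀ x : ℕ, x ≤ 4 →
    (if (x : ZMod 2) = 1 then 1 else 0) + 2 * x.choose 2 + 8 * x.choose 4 =
      x.choose 1 + 4 * x.choose 3 := by
  intro x hx
  interval_cases x <;> decide

theorem oddCount_eq {T : Finset GolayPt} (hT : T.card ≤ 4) :
    oddCount T + 2 * (T.card.choose 2 * 77) + 8 * (T.card.choose 4 * 5) =
      T.card.choose 1 * 253 + 4 * (T.card.choose 3 * 21) := by
  classical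
  have hB : IsSteinerSystem 5 8 octads := octads_isSteinerSystem
  have h1 := sum_choose_inter hB T (j := 1) (l := 253) (by norm_num)
    (fun n hn => by norm_num [Nat.choose] at hn; omega)
  have h2 := sum_choose_inter hB T (j := 2) (l := 77) (by norm_num)
    (fun n hn => by norm_num [Nat.choose] at hn; omega)
  have h3 := sum_choose_inter hB T (j := 3) (l := 21) (by norm_num)
    (fun n hn => by norm_num [Nat.choose] at hn; omega)
  have h4 := sum_choose_inter hB T (j := 4) (l := 5) (by norm_num)
    (fun n hn => by norm_num [Nat.choose] at hn; omega)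
  have hcount : oddCount T = ∑ o ∈ Finset.univ.filter (· ∈ octads),
      (if ((T ∩ o).card : ZMod 2) = 1 then 1 else 0) := by
    rw [oddCount, Nat.card_eq_fintype_card, Fintype.card_subtype, ← Finset.card_filter,
      Finset.filter_filter]
    congr 1
    ext o
    simp [ev_vec]
  rw [hcount, ← h1, ← h2, ← h3, ← h4, Finset.mul_sum, Finset.mul_sum, Finset.mul_sum,
    ← Finset.sum_add_distrib, ← Finset.sum_add_distrib, ← Finset.sum_add_distrib]
  refine Finset.sum_congr rfl fun o _ => parity_identity _ ?_
  exact (Finset.card_le_card Finset.inter_subset_left).trans hT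

theorem oddCount_two {T : Finset GolayPt} (hT : T.card = 2) : oddCount T = 352 := by
  have h := oddCount_eq (T := T) (by omega)
  rw [hT] at h
  norm_num [Nat.choose] at h
  omega

theorem oddCount_four {T : Finset GolayPt} (hT : T.card = 4) : oddCount T = 384 := by
  have h := oddCount_eq (T := T) (by omega)
  rw [hT] at h
  norm_num [Nat.choose] at h
  omega

theorem oddCount_congr {S T : Finset GolayPt} (h : ∀ w ∈ golayCode, ev S w = ev T w) :
    oddCount S = oddCount T := by
  refine Nat.card_congr (Equiv.subtypeEquivRight fun o => and_congr_right fun ho => ?_)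
  rw [h _ (vec_mem_of_octad ho)]

theorem oddCount_pos_of_card {D : Finset GolayPt} (h : D.card = 2 ∨ D.card = 4) : oddCount D ≠ 0 := by
  rcases h with h | h
  · rw [oddCount_two h]; norm_num
  · rw [oddCount_four h]; norm_num

/-- Two duads with the same functional are equal. -/
theorem duad_inj {S T : Finset GolayPt} (hS : S.card = 2) (hT : T.card = 2)
    (h : ∀ w ∈ golayCode, ev S w = ev T w) : S = T := by
  classical
  by_contra hne
  have hc := card_symmDiff_add S T
  rw [hS, hT] at hc
  have h0 : (S ∆ T).card ≠ 0 := fun e => hne (symmDiff_eq_bot.mp (Finset.card_eq_zero.mp e))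
  refine oddCount_pos_of_card (D := S ∆ T) (by omega) ?_
  rw [oddCount, Nat.card_eq_zero]
  left
  refine ⟨fun ⟨o, ho, h1⟩ => ?_⟩
  rw [ev_symmDiff, h _ (vec_mem_of_octad ho), add_self_two] at h1
  exact zero_ne_one h1

/-- Every functional vanishing on the all-one word is given by an even set of at most four points. -/
theorem exists_leader_even (F : ↥golayCode →ₗ[ZMod 2] ZMod 2) (h1 : F ⟨1, one_mem_golayCode⟩ = 0) :
    ∃ T : Finset GolayPt, (T.card = 0 ∨ T.card = 2 ∨ T.card = 4) ∧
      ∀ c : ↥golayCode, F c = ev T (c : WW) := by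
  classical
  obtain ⟨Gx, hGx⟩ := LinearMap.exists_extend F
  set v : WW := fun i => Gx (Pi.single i 1) with hv
  have hG : ∀ w : WW, Gx w = ev (supp v) w := by
    intro w
    rw [ev_eq_dot, vec_supp, LinearMap.pi_apply_eq_sum_univ Gx w]
    refine Finset.sum_congr rfl fun i _ => ?_
    rw [smul_eq_mul, mul_comm]
    congr 1
    rw [hv]
    congr 1
    ext j
    simp [Pi.single_apply, eq_comm]
  obtain ⟨t, ht, htc⟩ := isGolayLike_golayCode.exists_leader (supp v) none
  have hF : ∀ c : ↥golayCode, F c = ev t (c : WW) := by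
    intro c
    have e1 : F c = ev (supp v) (c : WW) := by
      rw [← hG, ← hGx]; rfl
    have e2 : ev (supp v ∆ t) (c : WW) = 0 := by
      rw [ev_eq_dot]
      exact isGolayLike_golayCode.orth _ htc _ c.2
    rw [ev_symmDiff] at e2
    rw [e1]
    exact eq_of_add_eq_zero e2
  refine ⟨t, ?_, hF⟩
  have hev : (t.card : ZMod 2) = 0 := by
    rw [← ev_one, ← hF ⟨1, one_mem_golayCode⟩, h1]
  rw [ZMod.natCast_eq_zero_iff_even] at hev
  have h4 : t.card ≤ 4 := by rcases ht with h | h <;> omega
  interval_cases hh : t.card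
  all_goals first
    | omega
    | exact absurd hev (by decide)

end CfsgLib.ConwayType.GolayModel
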