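import Cfsg.Agent.Lib.ConwayType.Golay.Base
import Cfsg.Agent.Lib.ConwayType.Involutions

/-!
One of the two standard four-spaces has an elementary abelian centraliser, and its order is `2^11`.
-/

set_option autoImplicit false
set_option linter.unusedSectionVars false
set_option maxRecDepth 100000
set_option synthInstance.maxSize 1000
set_option maxHeartbeats 4000000

namespace CfsgLib.ConwayType.Golay

open CfsgLib.ExtraspecialLarge CfsgLib.ConwayType

variable {G : Type*} [Group G] [Finite G]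
variable {z : G} {Qf : G → Subgroup G} {θ : G → V} {ρ : G → O} {J : Subgroup O} {y h : G}
variable (P : PairSetting z Qf θ ρ J y h)
include P

omit [Finite G] P in
theorem inW_of_md (i : Bool) {v u : V} (hu : InW i u) (e : md v = u) : InW i v := by
  obtain ⟨m0, -, -, -⟩ := basis_mem i
  rw [md_decomp v, e]
  refine hu.add ?_
  rcases z2_cases (v (.inl 0)) with a | a <;> rw [a]
  · rw [zero_smul]; exact InW.zero i
  · rw [one_smul]; exact m0

omit [Finite G] P in
theorem inW_comb (i : Bool) (s t : ZMod 2) : InW i (s • e2V + t • e3V) :=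
  ⟨![0, s, t, 0], by simp [wVec]⟩

/-- A third vector with commuting lifts can be moved to a standard space. -/
theorem skew_of_good {a b c : V} (T' : Triple a b c) (hgood : GoodLine z Qf θ ρ y a b c) :
    ∃ i, Skew z Qf θ ρ i := by
  classical
  have S := P.toSetting
  obtain ⟨y₂, s, σ, R, hσ, hσw, hcomm⟩ := hgood
  obtain ⟨p, hp, hpe⟩ := orbit_sing a T'.ha T'.a0 T'.qa
  obtain ⟨g₁, hg₁, hge₁, hgx₁⟩ := S.half.exists_stab hp
  have hgi : ap g₁⁻¹ eV = eV := by conv_lhs => rw [← hge₁]; rw [ap_inv_ap]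
  have hma : md (ap g₁⁻¹ a) = e2V := by
    rw [← hpe, ← hgx₁, md_ap hgi, ap_inv_ap, md_of_mid mid_e2V]
  have hbe : bl eV (ap g₁⁻¹ b) = 0 := bl_eV_ap hgi T'.hb.bl_eV
  have hae : bl eV (ap g₁⁻¹ a) = 0 := bl_eV_ap hgi T'.ha.bl_eV
  have hxb : bl (md (ap g₁⁻¹ b)) e2V = 0 := by rw [← hma, bl_md_md hbe hae, bl_ap, bl_comm, T'.ab]
  have hxq : q (md (ap g₁⁻¹ b)) = 0 := by rw [q_md hbe, q_ap, T'.qb]
  have hne : ∀ u v : V, Mid u → Mid v → md (ap g₁⁻¹ u) = md (ap g₁⁻¹ v) → u = v := by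
    intro u v hu hv e
    have h1 := congrArg (fun w => md (ap g₁ w)) e
    simp only [md_ap hge₁, ap_ap_inv, md_of_mid hu, md_of_mid hv] at h1
    exact h1
  rcases line_class _ (mid_md hbe) hxb hxq with h0 | h0 | ⟨p', hp', h2, h3⟩
  · exfalso
    rw [show (0 : V) = md (ap g₁⁻¹ 0) by rw [ap_zero, md_zero]] at h0
    have hb0 := hne _ _ T'.hb mid_zero h0
    have := T'.indep 1 0 0 (by rw [hb0, one_smul, zero_smul, zero_smul, add_zero])
    exact one_ne_zero this.1
  · exfalso
    rw [← hma] at h0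
    have hb0 := hne _ _ T'.hb T'.ha h0
    have := T'.indep 1 1 0 (by rw [hb0, one_smul, zero_smul, vadd_self])
    exact one_ne_zero this.1
  obtain ⟨g₂, hg₂, hge₂, hgx₂⟩ := S.half.exists_stab hp'
  rw [← hgx₂] at h2 h3
  set g := g₂ * g₁⁻¹ with hg_def
  have hg : g ∈ J := J.mul_mem hg₂ (J.inv_mem hg₁)
  have hge : ap g eV = eV := by rw [hg_def, ap_mul, hgi, hge₂]
  have hga : md (ap g a) = e2V := by rw [hg_def, ap_mul, ← md_ap hge₂, hma]; exact h2
  have hgb : md (ap g b) = e3V := by rw [hg_def, ap_mul, ← md_ap hge₂]; exact h3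
  have hea := bl_eV_ap hge T'.ha.bl_eV
  have heb := bl_eV_ap hge T'.hb.bl_eV
  have hec := bl_eV_ap hge T'.hc.bl_eV
  have hgg : ∀ u v : V, Mid u → Mid v → md (ap g u) = md (ap g v) → u = v := by
    intro u v hu hv e
    have hgi' : ap g⁻¹ eV = eV := by conv_lhs => rw [← hge]; rw [ap_inv_ap]
    have h1 := congrArg (fun w => md (ap g⁻¹ w)) e
    simp only [md_ap hgi', ap_inv_ap, md_of_mid hu, md_of_mid hv] at h1
    exact h1
  rcases third_class (md (ap g c)) (mid_md hec) (by rw [q_md hec, q_ap, T'.qc])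
    (by rw [← hga, bl_md_md hec hea, bl_ap, T'.ca]) (by rw [← hgb, bl_md_md hec heb, bl_ap, T'.cb]) with
    ⟨u, v, e⟩ | ⟨i, u, v, e⟩
  · exfalso
    have hm : Mid (u • a + v • b) := by
      rcases z2_cases u with rfl | rfl <;> rcases z2_cases v with rfl | rfl <;>
        simp only [zero_smul, one_smul, zero_add, add_zero]
      exacts [mid_zero, T'.hb, T'.ha, T'.ha.add T'.hb]
    have hcab : c = u • a + v • b := hgg _ _ T'.hc hm (by
      rw [e, ap_add, ap_smul, ap_smul, md_add, md_smul, md_smul, hga, hgb])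
    have := T'.indep v u 1 (by rw [one_smul, hcab, add_comm])
    exact one_ne_zero this.2.2
  refine ⟨i, ?_⟩
  obtain ⟨m0, m1, m2, m3⟩ := basis_mem i
  have n0 : eV ≠ (0 : V) := by decide
  set l : V := u • e2V + v • e3V with hl
  have hlW : InW i l := inW_comb i u v
  have hwW : InW i (xV i + l) := m3.add hlW
  obtain ⟨k, hkz, hky, hρk⟩ := P.exists_lift hg hge
  -- the conjugated half element
  obtain ⟨hσ', hσw'⟩ := P.wS_conj hkz hky hσ
  rw [hσw, hρk, e] at hσw'
  set σ' := k * σ * k⁻¹ with hσ'_def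
  have hρσ' : ρ σ' = T eV (xV i + l) m0.sing (m0.perp hwW) := by
    obtain ⟨hw, eσ⟩ := P.wS_spec hσ'
    rw [eσ, Te]
    exact T_congr rfl hσw' _ _
  have hσA : σ' ∈ AU z Qf θ (InW i) := mem_AU.2 fun x hx hU => by
    have hxW : inW z Qf y x := (P.W_iff hx).2 (m0.perp hU)
    have e1 := P.comm_eq hσ' hxW
    rw [hσw', hU.perp hwW, zp_zero, zp_zero, mul_one, mul_inv_eq_one] at e1
    exact (mul_inv_eq_iff_eq_mul.1 e1).symm
  -- the conjugated root lift
  have hgaW : InW i (ap g a) := inW_of_md i m1 hga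
  have hgbW : InW i (ap g b) := inW_of_md i m2 hgb
  set s' := k * s * k⁻¹ with hs'_def
  have hsA : s' ∈ AU z Qf θ (InW i) := mem_AU.2 fun x hx hU => by
    have hx' : k⁻¹ * x * k ∈ Qf z := by
      have := S.conj_mem_Q (comm_inv hkz) hx
      rwa [inv_inv] at this
    have hθ : θ x = ap g (θ (k⁻¹ * x * k)) := by
      rw [← hρk, ← S.ρ_act k hkz _ hx']; congr 1; group
    have e1 := R.pairing _ hx' (by rw [← bl_ap g, ← hθ, hgaW.perp hU])
    rw [show bl (θ (k⁻¹ * x * k)) b = 0 by rw [← bl_ap g, ← hθ, hU.perp hgbW], zp_zero, zp_zero, mul_one,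
      mul_inv_eq_one] at e1
    exact (PairSetting.conj_comm (g := k) rfl (by group) (mul_inv_eq_iff_eq_mul.1 e1)).symm
  have hρs : ρ s = T a b T'.qa T'.ab := CfsgLib.ClassicalForms.orth_ext fun x => by
    change ap (ρ s) x = ap (T _ _ _ _) x
    rw [R.act, ap_T]
  have hρs' : ρ s' = T (ap g a) (ap g b) hgaW.sing (hgaW.perp hgbW) := by
    rw [S.ρ_conj hkz R.comm, hρk, hρs, conj_T]
  -- the part at `eV`
  obtain ⟨d, hd, hTd⟩ := Half.T_md_left hgaW.sing (hgaW.perp hgbW) hea heb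
  have hT23 : T (md (ap g a)) (md (ap g b)) (by rw [hga]; exact q_e2V)
      (by rw [hga, hgb]; decide) = lineT i 3 := T_congr hga hgb _ _
  have hd' : T (ap g a) (ap g b) hgaW.sing (hgaW.perp hgbW) = Te d hd * lineT i 3 := by
    rw [hTd, ← hT23]
  have hfixW : ∀ x, InW i x → ap (Te d hd) x = x := by
    rintro _ ⟨c', rfl⟩
    have h1 := ρ_fix S hsA c'
    rw [hρs', hd', ap_mul] at h1
    have h2 : ap (lineT i 3) (wVec i c') = wVec i c' := by
      obtain ⟨_, r, _, hr, hρr, -⟩ := exists_root_AU P m1 (show e2V ≠ (0 : V) by decide) m2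
      have h3 := ρ_fix S hr c'
      rwa [hρr] at h3
    rwa [h2] at h1
  have hdW : InW i d := by
    have hbl : ∀ x, InW i x → bl eV x = 0 → bl d x = 0 := by
      intro x hxW hxe
      have h1 := hfixW x hxW
      rw [Te, ap_T, sgf_eq, bl_comm x eV, hxe, zero_smul, mul_zero, add_zero, add_zero, add_eq_left] at h1
      rw [bl_comm]
      rcases z2_cases (bl x d) with a1 | a1
      · exact a1
      · rw [a1, one_smul] at h1; exact absurd h1 n0
    exact perp_W i d (by rw [bl_comm]; exact hd) (hbl _ m1 (by decide)) (hbl _ m2 (by decide))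
      (hbl _ m3 (m0.perp m3))
  obtain ⟨_, r, _, hr, hρr, hr2⟩ := exists_root_AU P m0 n0 hdW
  have hrd : ρ r = Te d hd := hρr
  have hrs : r * s' ∈ AU z Qf θ (InW i) := mul_mem hr hsA
  have hρrs : ρ (r * s') = lineT i 3 := by
    rw [S.ρ_mul (comm_z_of_mem S hr) (comm_z_of_mem S hsA), hrd, hρs', hd', ← mul_assoc, Te, T_mul_self,
      one_mul]
  obtain ⟨_, t, _, ht, hρt, -⟩ := exists_root_AU P m0 n0 hlW
  have hσt : σ' * t ∈ AU z Qf θ (InW i) := mul_mem hσA ht
  have hρσt : ρ (σ' * t) = lineT i 2 := by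
    rw [S.ρ_mul (comm_z_of_mem S hσA) (comm_z_of_mem S ht), hρσ', hρt,
      T_mul m0.sing (m0.perp hwW) (m0.perp hlW)]
    refine T_congr rfl ?_ _ _
    rw [add_assoc, vadd_self, add_zero]
    rfl
  have c1 : Commute σ' r := cm_point P m0 n0 hwW hdW _ _ hσA hr hρσ' hρr
  have c2 : Commute σ' s' := (PairSetting.conj_comm (g := k) rfl rfl hcomm).symm
  have c3 : Commute t (r * s') := by
    obtain ⟨_, L0, _, h0, hρ0, -⟩ := exists_root_AU P m0 n0 m1
    obtain ⟨_, L1, _, h1, hρ1, -⟩ := exists_root_AU P m0 n0 m2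
    have d0 : Commute L0 (r * s') := by
      refine cm_point P m1 (show e2V ≠ (0 : V) by decide) m0 m2 _ _ h0 hrs ?_ hρrs
      rw [hρ0]; exact T_symm m0.sing m1.sing _
    have d1 : Commute L1 (r * s') :=
      cm_meet P m0 m2 (show e3V ≠ (0 : V) by decide) m1 _ _ h1 hrs hρ1 hρrs
    have hz0 := comm_z_of_mem S h0
    have hz1 := comm_z_of_mem S h1
    have hmem : zp L0 u * zp L1 v ∈ AU z Qf θ (InW i) := mul_mem (zp_mem h0 u) (zp_mem h1 v)
    have hcz : Commute (zp L0 u * zp L1 v) (r * s') := by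
      rcases z2_cases u with rfl | rfl <;> rcases z2_cases v with rfl | rfl <;>
        simp only [zp_zero, zp_one, one_mul, mul_one]
      exacts [Commute.one_left _, d1, d0, d0.mul_left d1]
    refine commute_congr S ht hmem hrs hrs ?_ rfl hcz
    rw [hρt]
    rcases z2_cases u with rfl | rfl <;> rcases z2_cases v with rfl | rfl <;>
      simp only [zp_zero, zp_one, one_mul, mul_one]
    · rw [S.ρ_one, T_congr (rfl : eV = eV) (show l = 0 by simp [hl]) _ (bl_zero_right eV)]
      exact T_zero _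
    · rw [hρ1]; exact T_congr rfl (by simp [hl]) _ _
    · rw [hρ0]; exact T_congr rfl (by simp [hl]) _ _
    · rw [S.ρ_mul hz0 hz1, hρ0, hρ1, T_mul m0.sing (m0.perp m1) (m0.perp m2)]
      exact T_congr rfl (by simp [hl]) _ _
  have key : Commute (σ' * t) (r * s') := (c1.mul_right c2).mul_left c3
  intro a' b' ha' hb' ea eb
  exact commute_congr S ha' hσt hb' hrs (ea.trans hρσt.symm) (eb.trans hρrs.symm) key

/-- One of the two standard four-spaces has an elementary abelian centraliser. -/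
theorem exists_abelian : ∃ i, Cfsg.IsElementaryAbelian 2 (AU z Qf θ (InW i)) := by
  obtain ⟨a, b, c, T', hg⟩ := exists_good P
  obtain ⟨i, hi⟩ := skew_of_good P T' hg
  exact ⟨i, elementary_of_skew P hi⟩

omit [Finite G] P in
theorem ap_prodT_fix (i : Bool) (b : Fin 6 → ZMod 2) (c : Fin 4 → ZMod 2) :
    ap (prodT i b) (wVec i c) = wVec i c := by rw [ap_prodT, prodF_fix]

omit [Finite G] P in
theorem prodT_injective (i : Bool) : Function.Injective (prodT i) := fun b b' e =>
  prodF_inj i b b' fun u _ => by rw [← ap_prodT, ← ap_prodT, e]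

/-- The image of the centraliser is the pointwise fixer of the space. -/
theorem mem_image_iff (i : Bool) (g : O) :
    (∃ a ∈ AU z Qf θ (InW i), ρ a = g) ↔ ∀ c, ap g (wVec i c) = wVec i c := by
  constructor
  · rintro ⟨a, ha, rfl⟩
    exact ρ_fix P.toSetting ha
  · intro hg
    obtain ⟨L, hL, hgen⟩ := exists_lifts P i
    obtain ⟨a, ha, e⟩ := hgen g hg
    exact ⟨a, (Subgroup.closure_le (AU z Qf θ (InW i))).2 (by rintro _ ⟨k, rfl⟩; exact (hL k).1) ha, e⟩

/-- The order of the centraliser. -/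
theorem card_AU (i : Bool) : Nat.card ↥(AU z Qf θ (InW i)) = 2 ^ 11 := by
  classical
  have S := P.toSetting
  let f : ↥(AU z Qf θ (InW i)) →* O := MonoidHom.mk' (fun a => ρ (a : G)) fun a b =>
    S.ρ_mul (comm_z_of_mem S a.2) (comm_z_of_mem S b.2)
  have hker : ∀ a : ↥(AU z Qf θ (InW i)), a ∈ f.ker ↔ (a : G) ∈ Qf z := fun a =>
    S.ρ_ker _ (comm_z_of_mem S a.2)
  choose L hL hLθ using fun c : Fin 4 → ZMod 2 => S.θ_surj (wVec i c)
  have hkc : Nat.card ↥f.ker = 32 := by
    have hbij : Nat.card ↥f.ker = Nat.card (ZMod 2 × (Fin 4 → ZMod 2)) := by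
      refine (Nat.card_eq_of_bijective (fun p : ZMod 2 × (Fin 4 → ZMod 2) =>
        (⟨⟨zp z p.1 * L p.2, (mem_AU_Q S ((Qf z).mul_mem (zp_mem S.z_mem _) (hL _))).2
          ⟨p.2, by rw [S.θ_mul _ (zp_mem S.z_mem _) _ (hL _), hLθ]
                   rcases z2_cases p.1 with a | a <;> simp [a, S.θ_one, S.θ_z]⟩⟩,
          (hker _).2 ((Qf z).mul_mem (zp_mem S.z_mem _) (hL _))⟩ : ↥f.ker)) ⟨?_, ?_⟩).symm
      · intro p p' e
        have e1 : zp z p.1 * L p.2 = zp z p'.1 * L p'.2 :=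
          congrArg (fun a : ↥f.ker => ((a : ↥(AU z Qf θ (InW i))) : G)) e
        have hθ : ∀ p : ZMod 2 × (Fin 4 → ZMod 2), θ (zp z p.1 * L p.2) = wVec i p.2 := fun p => by
          rw [S.θ_mul _ (zp_mem S.z_mem _) _ (hL _), hLθ]
          rcases z2_cases p.1 with a | a <;> simp [a, S.θ_one, S.θ_z]
        have h2 : p.2 = p'.2 := wVec_inj i _ _ (by rw [← hθ, ← hθ, e1])
        rw [h2] at e1
        exact Prod.ext (P.zp_z_inj (mul_right_cancel e1)) h2
      · rintro ⟨⟨a, ha⟩, hk⟩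
        have hQ := (hker _).1 hk
        obtain ⟨c, hc⟩ := (mem_AU_Q S hQ).1 ha
        rcases S.eq_or_of_θ hQ (hL c) (hc.trans (hLθ c).symm) with e | e
        · exact ⟨(0, c), Subtype.ext (Subtype.ext (by simpa using e.symm))⟩
        · exact ⟨(1, c), Subtype.ext (Subtype.ext (by simpa using e.symm))⟩
    rw [hbij]; simp [Nat.card_eq_fintype_card]
  have hrc : Nat.card ↥f.range = 64 := by
    have hbij : Nat.card ↥f.range = Nat.card (Fin 6 → ZMod 2) := by
      refine (Nat.card_eq_of_bijective (fun b : Fin 6 → ZMod 2 => (⟨prodT i b, by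
        obtain ⟨a, ha, e⟩ := (mem_image_iff P i (prodT i b)).2 (ap_prodT_fix i b)
        exact ⟨⟨a, ha⟩, e⟩⟩ : ↥f.range)) ⟨?_, ?_⟩).symm
      · exact fun b b' e => prodT_injective i (congrArg Subtype.val e)
      · rintro ⟨_, ⟨a, rfl⟩⟩
        obtain ⟨b, hb⟩ := exists_prod i (ρ (a : G)) (ρ_fix S a.2)
        refine ⟨b, Subtype.ext (O_ext_basis fun u hu => ?_)⟩
        rw [ap_prodT]
        exact (hb u hu).symm
    rw [hbij]; simp [Nat.card_eq_fintype_card]
  have := Subgroup.card_eq_card_quotient_mul_card_subgroup f.ker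
  rw [Nat.card_congr (QuotientGroup.quotientKerEquivRange f).toEquiv, hkc, hrc] at this
  rw [this]
  norm_num

end CfsgLib.ConwayType.Golay
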