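import Cfsg.Agent.Lib.ConwayType.Golay.FibreAction

/-!
The class of every element from the classes on a set of representatives and moves preserving both the class
and the table.
-/

set_option autoImplicit false
set_option linter.unusedSectionVars false

namespace CfsgLib.ConwayType.Golay

open CfsgLib.ConwayType CfsgLib.ConwayType.GolayModel

variable {G : Type*} [Group G] {A : Subgroup G} {Φ : (Fin 11 → ZMod 2) → G} {z : G}

/-- An element realising a linear map preserves the classes. -/
theorem isConj_linN {n : G} {imgs : Fin 11 → ℕ}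
    (h : ∀ x, n * Φ x * n⁻¹ = Φ (vecN (linN imgs x))) (x : Fin 11 → ZMod 2) :
    IsConj (Φ (vecN (linN imgs x))) z ↔ IsConj (Φ x) z := by
  have e : IsConj (Φ x) (Φ (vecN (linN imgs x))) := isConj_iff.2 ⟨n, h x⟩
  exact ⟨fun h' => e.trans h', fun h' => e.symm.trans h'⟩

/-- The image of an element under a word in the moves. -/
def applyMoves (moves : List (Fin 11 → ℕ)) (x : Fin 11 → ZMod 2) : Fin 11 → ZMod 2 :=
  moves.foldl (fun v imgs => vecN (linN imgs v)) x

/-- The classes are given by the table as soon as they are on representatives. -/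
theorem isConj_iff_of_moves (T : (Fin 11 → ZMod 2) → Bool) (dec : (Fin 11 → ZMod 2) → Bool)
    (hdec : ∀ x, dec x = true → (IsConj (Φ x) z ↔ T x = true)) {M : List (Fin 11 → ℕ)}
    (hreal : ∀ imgs ∈ M, ∃ n : G, ∀ x, n * Φ x * n⁻¹ = Φ (vecN (linN imgs x)))
    (hinv : ∀ imgs ∈ M, ∀ x, T (vecN (linN imgs x)) = T x)
    (hreach : ∀ x, dec x = true ∨ ∃ x₀ l, dec x₀ = true ∧ (∀ m ∈ l, m ∈ M) ∧ applyMoves l x₀ = x)
    (x : Fin 11 → ZMod 2) : IsConj (Φ x) z ↔ T x = true := by
  have key : ∀ (l : List (Fin 11 → ℕ)), (∀ m ∈ l, m ∈ M) → ∀ v, (IsConj (Φ v) z ↔ T v = true) →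
      (IsConj (Φ (applyMoves l v)) z ↔ T (applyMoves l v) = true) := by
    intro l
    induction l with
    | nil => exact fun _ v h => h
    | cons m l ih =>
      intro hl v hv
      refine ih (fun k hk => hl k (List.mem_cons_of_mem _ hk)) _ ?_
      obtain ⟨n, hn⟩ := hreal m (hl m (List.mem_cons_self ..))
      rw [isConj_linN hn, hv, hinv m (hl m (List.mem_cons_self ..))]
  rcases hreach x with h | ⟨x₀, l, h0, hl, rfl⟩
  · exact hdec x h
  · exact key l hl x₀ (hdec x₀ h0)

/-- A test on a realised word: representatives mapped to representatives agree in the table. -/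
theorem table_test (T : (Fin 11 → ZMod 2) → Bool) (dec : (Fin 11 → ZMod 2) → Bool)
    (hdec : ∀ x, dec x = true → (IsConj (Φ x) z ↔ T x = true)) {l : List (Fin 11 → ℕ)}
    (hreal : ∀ imgs ∈ l, ∃ n : G, ∀ x, n * Φ x * n⁻¹ = Φ (vecN (linN imgs x)))
    {v : Fin 11 → ZMod 2} (hv : dec v = true) (hw : dec (applyMoves l v) = true) :
    T (applyMoves l v) = T v := by
  have key : ∀ (l : List (Fin 11 → ℕ)),
      (∀ imgs ∈ l, ∃ n : G, ∀ x, n * Φ x * n⁻¹ = Φ (vecN (linN imgs x))) →
      ∀ v, (IsConj (Φ (applyMoves l v)) z ↔ IsConj (Φ v) z) := by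
    intro l
    induction l with
    | nil => exact fun _ v => Iff.rfl
    | cons m l ih =>
      intro hl v
      obtain ⟨n, hn⟩ := hl m (List.mem_cons_self ..)
      exact (ih (fun k hk => hl k (List.mem_cons_of_mem _ hk)) _).trans (isConj_linN hn v)
  have := key l hreal v
  rw [hdec _ hw, hdec _ hv] at this
  exact Bool.eq_iff_iff.2 this

end CfsgLib.ConwayType.Golay
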