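import Cfsg.Agent.Lib.ConwayType.Golay.CoordsInstance
import Cfsg.Agent.Lib.GolayStructure.StabOrders

/-!
From coordinates on `A`, the order of the normaliser of `A` centralising `z` and one element of the
normaliser moving `z`: the quotient is `M24` with two orbits on the nonidentity elements.
-/

set_option autoImplicit false
set_option linter.unusedSectionVars false

namespace CfsgLib.ConwayType.GolayModel

open Cfsg CfsgLib.Golay
open scoped Pointwise
open CfsgLib.ExtraspecialLarge (vec supp vec_supp supp_vec hammingNorm_eq_card_supp)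

local notation "LL" => Fin 11 → ZMod 2
local notation "WW" => GolayPt → ZMod 2

variable {G : Type*} [Group G]

theorem supp_comp_inv (σ : Equiv.Perm GolayPt) (w : WW) : supp (w ∘ ⇑σ⁻¹) = σ • supp w := by
  ext p
  rw [← Finset.inv_smul_mem_iff]
  simp [supp]

theorem weight_cases (c : ↥golayCode) :
    (c : WW) = 0 ∨ (c : WW) = 1 ∨ hammingNorm (c : WW) = 8 ∨ hammingNorm (c : WW) = 12 ∨
      hammingNorm ((c : WW) + 1) = 8 := by
  have h : allSpan basisMasks (fun n => n == 0 || n == fullMask || popc n == 8 || popc n == 12 ||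
      popc (n ^^^ fullMask) == 8) = true := by decide +kernel
  obtain ⟨n, hn, e⟩ := exists_mask c
  have h' := allSpan_iff.1 h n hn
  simp only [Bool.or_eq_true, beq_iff_eq] at h'
  rw [e, weight_wordOf, one_eq_wordOf, ← wordOf_xor, weight_wordOf]
  rcases h' with (((h' | h') | h') | h') | h'
  · exact Or.inl (by rw [h', wordOf_zero])
  · exact Or.inr (Or.inl (by rw [h']))
  · exact Or.inr (Or.inr (Or.inl h'))
  · exact Or.inr (Or.inr (Or.inr (Or.inl h')))
  · exact Or.inr (Or.inr (Or.inr (Or.inr h')))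

variable [Finite G] {A : Subgroup G} {Φ : LL → G} (C : CoordsOn A Φ)
  (hcen : ∀ g, (∀ a ∈ A, g * a = a * g) → g ∈ A) {z : G}
  (hO : ∀ x, IsConj (Φ x) z ↔ octTable.testBit (enc x) = true)
include C hcen hO

/-- The embedding with its action. -/
theorem exists_quotient_hom' [(A.subgroupOf (Subgroup.normalizer (A : Set G))).Normal] :
    ∃ τ : ↥(Subgroup.normalizer (A : Set G)) ⧸ A.subgroupOf (Subgroup.normalizer (A : Set G)) →* ↥M24,
      Function.Injective τ ∧ ∀ (n : ↥(Subgroup.normalizer (A : Set G))) (c d : ↥golayCode),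
        (d : WW) = (c : WW) ∘ ⇑((τ (QuotientGroup.mk n) : Equiv.Perm GolayPt)⁻¹) →
          (n : G) * Φ (coordMap c) * (n : G)⁻¹ = Φ (coordMap d) := by
  exact exists_quotient_hom C hcen hO

/-- The conclusions. -/
theorem exists_iso_and_orbits [(A.subgroupOf (Subgroup.normalizer (A : Set G))).Normal] (hzA : z ∈ A)
    (hstab : Nat.card ↥(Subgroup.normalizer (A : Set G) ⊓ Subgroup.centralizer ({z} : Set G)) =
      2 ^ 11 * 322560)
    (hmove : ∃ n ∈ Subgroup.normalizer (A : Set G), n * z * n⁻¹ ≠ z) :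
    Nonempty (↥(Subgroup.normalizer (A : Set G)) ⧸ A.subgroupOf (Subgroup.normalizer (A : Set G)) ≃* ↥M24) ∧
    Nat.card ↥(Subgroup.normalizer (A : Set G)) = 2 ^ 11 * 244823040 ∧
    ∃ a ∈ A, ∃ b ∈ A, a ≠ 1 ∧ b ≠ 1 ∧ (∀ n ∈ Subgroup.normalizer (A : Set G), n * a * n⁻¹ ≠ b) ∧
      ∀ c ∈ A, c ≠ 1 → ∃ n ∈ Subgroup.normalizer (A : Set G), n * c * n⁻¹ = a ∨ n * c * n⁻¹ = b := by
  classical
  obtain ⟨τ, hτ, hact⟩ := exists_quotient_hom' C hcen hO
  set N := Subgroup.normalizer (A : Set G) with hN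
  have hAN : A ≤ N := Subgroup.le_normalizer
  have hcA : Nat.card A = 2 ^ 11 := by
    have hb : Function.Bijective (fun x => (⟨Φ x, C.mem x⟩ : ↥A)) :=
      ⟨fun x y e => C.inj (congrArg Subtype.val e), fun a => by
        obtain ⟨x, hx⟩ := C.surj a.1 a.2
        exact ⟨x, Subtype.ext hx⟩⟩
    rw [← Nat.card_eq_of_bijective _ hb]
    simp
  let q : ↥N →* ↥M24 := τ.comp (QuotientGroup.mk' (A.subgroupOf N))
  have hq : ∀ n : ↥N, ∀ c d : ↥golayCode, supp (d : WW) = (q n : Equiv.Perm GolayPt) • supp (c : WW) →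
      (n : G) * Φ (coordMap c) * (n : G)⁻¹ = Φ (coordMap d) := fun n c d h =>
    hact n c d (by rw [← vec_supp (d : WW), h, ← supp_comp_inv, vec_supp]; rfl)
  -- the octad of `z`
  obtain ⟨x₀, hx₀⟩ := C.surj z hzA
  have hx₀T : x₀ ∈ octadImg coordMap := by
    rw [octadImg_coordMap, Set.mem_setOf_eq, ← hO, hx₀]
  obtain ⟨c₀, hc₀, hc₀x⟩ := hx₀T
  have hc₀z : Φ (coordMap c₀) = z := by rw [hc₀x, hx₀]
  set o := supp (c₀ : WW) with ho_def
  have ho : o ∈ octads := octad_of_weight c₀.2 hc₀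
  have hsmul : ∀ n : ↥N, ∀ c : ↥golayCode, ∃ d : ↥golayCode,
      supp (d : WW) = (q n : Equiv.Perm GolayPt) • supp (c : WW) ∧ hammingNorm (d : WW) = hammingNorm (c : WW) := by
    intro n c
    refine ⟨⟨_, CfsgLib.GolayExt.comp_symm_mem_golayCode (q n).2 c.2⟩, supp_comp_inv _ _, ?_⟩
    show hammingNorm _ = _
    rw [hammingNorm_eq_card_supp, hammingNorm_eq_card_supp, supp_comp_inv, Finset.card_smul_finset]
  have hfix : ∀ n : ↥N, (n : G) * z * (n : G)⁻¹ = z ↔ q n • o = o := by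
    intro n
    obtain ⟨d, hd, hd8⟩ := hsmul n c₀
    constructor
    · intro h
      rw [← hc₀z, hq n c₀ d hd] at h
      have := octad_p_inj coordMap_presents (hd8.trans hc₀) hc₀ (C.inj h)
      show (q n : Equiv.Perm GolayPt) • o = o
      rw [ho_def, ← hd, this]
    · intro h
      rw [← hc₀z]
      exact hq n c₀ c₀ h.symm
  -- the range
  set Z := Subgroup.centralizer ({z} : Set G) with hZ
  have hkerq : q.ker = A.subgroupOf N := by
    ext n
    show τ (QuotientGroup.mk n) = 1 ↔ _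
    rw [← map_one τ, hτ.eq_iff]
    exact QuotientGroup.eq_one_iff n
  have hcount : ∀ S : Subgroup ↥N, A.subgroupOf N ≤ S → Nat.card ↥(S.map q) * 2 ^ 11 = Nat.card ↥S := by
    intro S hS
    have h1 := Subgroup.card_eq_card_quotient_mul_card_subgroup (q.comp S.subtype).ker
    have hr : (q.comp S.subtype).range = S.map q := by rw [MonoidHom.range_comp, Subgroup.range_subtype]
    have hk : (q.comp S.subtype).ker = (A.subgroupOf N).subgroupOf S := by rw [← hkerq]; rfl
    rw [Nat.card_congr (QuotientGroup.quotientKerEquivRange (q.comp S.subtype)).toEquiv, hr, hk,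
      Nat.card_congr (Subgroup.subgroupOfEquivOfLe hS).toEquiv,
      Nat.card_congr (Subgroup.subgroupOfEquivOfLe hAN).toEquiv, hcA] at h1
    exact h1.symm
  set S := (N ⊓ Z).subgroupOf N with hS_def
  have hS : Nat.card ↥S = 2 ^ 11 * 322560 := by
    rw [hS_def, Nat.card_congr (Subgroup.subgroupOfEquivOfLe inf_le_left).toEquiv, hstab]
  have hmemS : ∀ n : ↥N, n ∈ S ↔ (n : G) * z * (n : G)⁻¹ = z := fun n => by
    rw [hS_def, Subgroup.mem_subgroupOf, Subgroup.mem_inf, hZ, Subgroup.mem_centralizer_singleton_iff,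
      mul_inv_eq_iff_eq_mul]
    exact ⟨fun h => h.2, fun h => ⟨n.2, h⟩⟩
  have hAS : A.subgroupOf N ≤ S := fun n hn => (hmemS n).2 (by
    obtain ⟨x, hx⟩ := C.surj _ (show (n : G) ∈ A from hn)
    rw [← hx, ← hx₀, ← C.map_add, add_comm, C.map_add, mul_inv_cancel_right])
  have himg : S.map q = MulAction.stabilizer M24 o := by
    refine Subgroup.eq_of_le_of_card_ge ?_ ?_
    · rintro _ ⟨n, hn, rfl⟩
      exact MulAction.mem_stabilizer_iff.2 ((hfix n).1 ((hmemS n).1 hn))
    · rw [CfsgLib.GolayStructure.card_stabilizer_octad ho]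
      have := hcount S hAS
      omega
  have hsurj : q.range = ⊤ := by
    refine (CfsgLib.GolayStructure.isCoatom_octad ho).2 _ (lt_of_le_of_ne ?_ ?_)
    · rw [← himg, MonoidHom.range_eq_map]; exact Subgroup.map_mono le_top
    · intro e
      obtain ⟨n, hn, hne⟩ := hmove
      have hm : q ⟨n, hn⟩ ∈ MulAction.stabilizer M24 o := e ▸ ⟨_, rfl⟩
      exact hne ((hfix ⟨n, hn⟩).2 hm)
  have hq' : Function.Surjective q := MonoidHom.range_eq_top.1 hsurj
  have hcardN : Nat.card ↥N = 2 ^ 11 * 244823040 := by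
    have := hcount ⊤ le_top
    rw [← MonoidHom.range_eq_map, hsurj, Subgroup.card_top, Subgroup.card_top, natCard_M24] at this
    rw [← this, mul_comm]
  have hiso : Nonempty (↥N ⧸ A.subgroupOf N ≃* ↥M24) :=
    ⟨MulEquiv.ofBijective τ ⟨hτ, fun g => by
      obtain ⟨n, hn⟩ := hq' g
      exact ⟨QuotientGroup.mk n, hn⟩⟩⟩
  -- the two orbits
  have hdm : dodMask ∈ codeMasks := inCode_iff.1 (by decide +kernel)
  let c₁ : ↥golayCode := ⟨wordOf dodMask, wordOf_mem_golayCode hdm⟩
  have hc₁ : hammingNorm (c₁ : WW) = 12 := by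
    show hammingNorm (wordOf dodMask) = 12
    rw [weight_wordOf]; decide +kernel
  have hmovec : ∀ c d : ↥golayCode, (∃ g : M24, g • supp (c : WW) = supp (d : WW)) →
      ∃ n ∈ N, n * Φ (coordMap c) * n⁻¹ = Φ (coordMap d) := by
    rintro c d ⟨g, hg⟩
    obtain ⟨n, rfl⟩ := hq' g
    exact ⟨n, n.2, hq n c d hg.symm⟩
  have hΦ0 : Φ 0 = 1 := by
    have h := C.map_add 0 0
    rwa [add_zero, right_eq_mul] at h
  have hone : coordMap ⟨1, one_mem_golayCode⟩ = 0 := (coordMap_presents.ker _).mpr (Or.inr rfl)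
  have hne1 : ∀ c : ↥golayCode, (hammingNorm (c : WW) = 8 ∨ hammingNorm (c : WW) = 12) →
      Φ (coordMap c) ≠ 1 := by
    intro c hc e
    rcases (coordMap_presents.ker c).1 (C.inj (e.trans hΦ0.symm)) with h | h
    · rw [h, hammingNorm_zero] at hc; omega
    · rw [h, one_eq_wordOf, weight_wordOf] at hc
      revert hc; decide +kernel
  refine ⟨hiso, hcardN, z, hzA, Φ (coordMap c₁), C.mem _, hc₀z ▸ hne1 c₀ (Or.inl hc₀),
    hne1 c₁ (Or.inr hc₁), ?_, ?_⟩
  · intro n hn e
    obtain ⟨d, hd, hd8⟩ := hsmul ⟨n, hn⟩ c₀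
    rw [← hc₀z] at e
    have e' : coordMap d = coordMap c₁ := C.inj ((hq ⟨n, hn⟩ c₀ d hd).symm.trans e)
    have h12 := hc₁
    rcases (coordMap_presents.ker (d - c₁)).1 (by rw [map_sub, e', sub_self]) with h | h
    · rw [Submodule.coe_sub, sub_eq_zero] at h
      rw [← h, hd8, hc₀] at h12; omega
    · rw [Submodule.coe_sub, sub_eq_iff_eq_add] at h
      have h8 : hammingNorm ((1 : WW) + wordOf dodMask) = 8 := by
        rw [show (1 : WW) + wordOf dodMask = (d : WW) from h.symm]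
        exact hd8.trans hc₀
      rw [one_eq_wordOf, ← wordOf_xor, weight_wordOf] at h8
      revert h8; decide +kernel
  · intro a ha hane
    obtain ⟨x, rfl⟩ := C.surj a ha
    obtain ⟨c, rfl⟩ := coordMap_presents.surj x
    have hcase : (∃ d : ↥golayCode, hammingNorm (d : WW) = 8 ∧ coordMap d = coordMap c) ∨
        hammingNorm (c : WW) = 12 := by
      rcases weight_cases c with h | h | h | h | h
      · exact absurd (by rw [show c = 0 from Subtype.ext h, map_zero, hΦ0]) hane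
      · exact absurd (by rw [show c = ⟨1, one_mem_golayCode⟩ from Subtype.ext h, hone, hΦ0]) hane
      · exact Or.inl ⟨c, h, rfl⟩
      · exact Or.inr h
      · exact Or.inl ⟨c + ⟨1, one_mem_golayCode⟩, h, by rw [map_add, hone, add_zero]⟩
    rcases hcase with ⟨d, hd, hdc⟩ | h12
    · obtain ⟨n, hn, e⟩ := hmovec d c₀ (octad_transitive (octad_of_weight d.2 hd) ho)
      exact ⟨n, hn, Or.inl (by rw [← hdc, e, hc₀z])⟩
    · have hdod : ∀ c : ↥golayCode, hammingNorm (c : WW) = 12 → supp (c : WW) ∈ dodecads :=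
        fun c h => ⟨⟨c, c.2, rfl⟩, h⟩
      obtain ⟨n, hn, e⟩ := hmovec c c₁ (dodecad_transitive (hdod c h12) (hdod c₁ hc₁))
      exact ⟨n, hn, Or.inr e⟩

end CfsgLib.ConwayType.GolayModel
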