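import Cfsg.Agent.Lib.ConwayType.Golay.Beta

/-!
The exchanging element can be chosen in the normaliser, fixing the plane of middle vectors, mapping the
three lifts into their own groups, with prescribed images of the root maps on the plane.
-/

set_option autoImplicit false
set_option linter.unusedSectionVars false
set_option maxRecDepth 100000
set_option synthInstance.maxSize 1000
set_option maxHeartbeats 4000000

namespace CfsgLib.ConwayType.Golay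

open CfsgLib.ExtraspecialLarge CfsgLib.ConwayType

/-- The numbered functionals on the plane, as vectors. -/
def mV (m : ℕ) : V :=
  (bif m.testBit 0 then (1 : ZMod 2) else 0) • f2V + (bif m.testBit 1 then (1 : ZMod 2) else 0) • f3V +
    (bif m.testBit 2 then (1 : ZMod 2) else 0) • f4V

theorem mV_mid : ∀ m : Fin 8, Mid (mV m) := by decide +kernel

theorem shift_fix : ∀ m : Fin 8, ∀ p ∈ [((2 : Fin 8), (4 : Fin 8), (1 : Fin 8)), (1, 4, 3), (1, 2, 7)],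
    ∀ x : Fin 8, (x : ℕ) = (p.2.2 : ℕ) ^^^ GolayTable.iota m p.1 p.2.1 →
      Mid (sgf (wVec true (cN p.1)) (wVec true (cN p.2.1)) (mV m)) ∧
      wVec true (cN x) + (mV m + sgf (wVec true (cN p.1)) (wVec true (cN p.2.1)) (mV m)) =
        wVec true (cN p.2.2) := by
  decide +kernel

theorem code_single : cN (1 : Fin 8) = Pi.single 1 1 ∧ cN (2 : Fin 8) = Pi.single 2 1 ∧
    cN (4 : Fin 8) = Pi.single 3 1 := by decide +kernel

theorem code_vec : wVec true (cN (1 : Fin 8)) = e2V ∧ wVec true (cN (2 : Fin 8)) = e3V ∧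
    wVec true (cN (4 : Fin 8)) = e4V ∧ wVec true (cN (3 : Fin 8)) = e2V + e3V ∧
    wVec true (cN (7 : Fin 8)) = e2V + e3V + e4V := by decide +kernel

variable {G : Type*} [Group G] [Finite G]
variable {z : G} {Qf : G → Subgroup G} {θ : G → V} {ρ : G → O} {J : Subgroup O} {y h : G}
variable (P : PairSetting z Qf θ ρ J y h) {Y : (Fin 4 → ZMod 2) → G} (hY : ∀ v, Y v ∈ Qf z)
  (hYθ : ∀ v, θ (Y v) = wVec true v)
include P hY hYθ

/-- The parameters of the seven lines determine those of three of them up to a shift. -/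
theorem exists_param (hYadd : ∀ u v, Y (u + v) = Y u * Y v)
    (hA : Cfsg.IsElementaryAbelian 2 (AU z Qf θ (InW true)))
    {φ ψ : V → V} (F : Phi z Qf θ ρ y h φ ψ)
    (hn : h ∈ Subgroup.normalizer (AU z Qf θ (InW true) : Set G))
    (hφ : φ e2V = e2V ∧ φ e3V = e3V ∧ φ e4V = e4V) :
    ∃ m : Fin 8, ∀ p ∈ [((2 : Fin 8), (4 : Fin 8), (1 : Fin 8)), (1, 4, 3), (1, 2, 7)],
      ∀ t, OctLift z Qf (Y (cN p.1)) (Y (cN p.2.1)) t →
        ∃ x : Fin 8, (x : ℕ) = (p.2.2 : ℕ) ^^^ GolayTable.iota m p.1 p.2.1 ∧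
          ρ (h * t * h⁻¹) = Te (wVec true (cN x)) (cN_spec x).bl_eV * ρ t := by
  have hne : ∀ {a b : Fin 8}, cN a ≠ 0 → cN b ≠ 0 → cN a ≠ cN b →
      LinePair z Qf θ (Y (cN a)) (Y (cN b)) := fun ha hb hab => linePair_Y P hY hYθ ha hb hab
  have out := fun {a b : Fin 8} (ha : cN a ≠ 0) (hb : cN b ≠ 0) (hab : cN a ≠ cN b) {t : G}
      (T' : OctLift z Qf (Y (cN a)) (Y (cN b)) t) => line_out P hY hYθ F hn hφ ha hb hab T'
  have hmem : ∀ {a b : Fin 8}, cN a ≠ 0 → cN b ≠ 0 → cN a ≠ cN b → ∀ {t : G},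
      OctLift z Qf (Y (cN a)) (Y (cN b)) t → t ∈ AU z Qf θ (InW true) := fun ha hb hab _ T' =>
    octLift_mem_AU P (hne ha hb hab) ⟨_, hYθ _⟩ ⟨_, hYθ _⟩ T'
  have n1 : cN (1 : Fin 8) ≠ 0 := by decide +kernel
  have n2 : cN (2 : Fin 8) ≠ 0 := by decide +kernel
  have n3 : cN (3 : Fin 8) ≠ 0 := by decide +kernel
  have n4 : cN (4 : Fin 8) ≠ 0 := by decide +kernel
  have n5 : cN (5 : Fin 8) ≠ 0 := by decide +kernel
  have n6 : cN (6 : Fin 8) ≠ 0 := by decide +kernel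
  have d12 : cN (1 : Fin 8) ≠ cN (2 : Fin 8) := by decide +kernel
  have d14 : cN (1 : Fin 8) ≠ cN (4 : Fin 8) := by decide +kernel
  have d24 : cN (2 : Fin 8) ≠ cN (4 : Fin 8) := by decide +kernel
  have d43 : cN (4 : Fin 8) ≠ cN (3 : Fin 8) := by decide +kernel
  have d25 : cN (2 : Fin 8) ≠ cN (5 : Fin 8) := by decide +kernel
  have d16 : cN (1 : Fin 8) ≠ cN (6 : Fin 8) := by decide +kernel
  have d35 : cN (3 : Fin 8) ≠ cN (5 : Fin 8) := by decide +kernel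
  have s3 : cN (1 : Fin 8) + cN (2 : Fin 8) = cN (3 : Fin 8) := by decide +kernel
  have s3' : cN (2 : Fin 8) + cN (1 : Fin 8) = cN (3 : Fin 8) := by decide +kernel
  have s5 : cN (4 : Fin 8) + cN (1 : Fin 8) = cN (5 : Fin 8) := by decide +kernel
  have s5' : cN (1 : Fin 8) + cN (4 : Fin 8) = cN (5 : Fin 8) := by decide +kernel
  have s6 : cN (4 : Fin 8) + cN (2 : Fin 8) = cN (6 : Fin 8) := by decide +kernel
  have cls : ∀ a b : Fin 8, ((a : ℕ) ^^^ b) < 8 := by decide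
  -- the point lifts carry their own vector
  have hpt : ∀ p : Fin 8, Y (cN p) ∈ AU z Qf θ (InW true) ∧
      ρ (h * Y (cN p) * h⁻¹) = Te (wVec true (cN p)) (cN_spec p).bl_eV * ρ (Y (cN p)) := by
    intro p
    refine ⟨(mem_AU_Q P.toSetting (hY _)).2 ⟨_, hYθ _⟩, ?_⟩
    have hW : inW z Qf y (Y (cN p)) := (P.W_iff (hY _)).2 (by rw [hYθ]; exact (cN_spec p).bl_eV)
    have h0 := mid_coord _ (cN_spec p)
    rw [(P.wS_spec (P.W_to_Wy hW)).2, P.toSetting.ρ_of_mem (hY _), mul_one]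
    refine Te_congr ?_ _ _
    rw [F.toW _ hW, hYθ, md_of_mid (cN_spec p), wVec_mid_eq _ h0,
      F.add _ _ ((F.smul _ mid_e2V).1.add (F.smul _ mid_e3V).1) (F.smul _ mid_e4V).1,
      F.add _ _ (F.smul _ mid_e2V).1 (F.smul _ mid_e3V).1, (F.smul _ mid_e2V).2, (F.smul _ mid_e3V).2,
      (F.smul _ mid_e4V).2, hφ.1, hφ.2.1, hφ.2.2]
  have third : ∀ {p a b c : Fin 8} {t₁ t₂ : G},
      (∀ d : Fin 3 → ZMod 2, ∑ j, d j • ![cN p, cN a, cN b] j = 0 → d = 0) → cN a + cN b = cN c →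
      cN p ≠ 0 → cN c ≠ 0 → cN p ≠ cN c →
      OctLift z Qf (Y (cN p)) (Y (cN a)) t₁ → OctLift z Qf (Y (cN p)) (Y (cN b)) t₂ →
      OctLift z Qf (Y (cN p)) (Y (cN c)) (t₁ * t₂ * Y (cN p)) := fun {p a b c t₁ t₂} hi hs hp hc hpc T₁ T₂ => by
    have e := pencil P hY hYθ hYadd hA _ _ _ hi _ _ T₁ T₂
    rw [hs] at e
    have := OctLift.shift P ((hne hp hc hpc).shift P) e
    rwa [← mul_assoc z z, P.toSetting.z_sq, one_mul] at this
  obtain ⟨u12, U12⟩ := octLift_exists P (hne n1 n2 d12)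
  obtain ⟨u14, U14⟩ := octLift_exists P (hne n1 n4 d14)
  obtain ⟨u24, U24⟩ := octLift_exists P (hne n2 n4 d24)
  obtain ⟨⟨zz, hz⟩, oz⟩ := out n1 n2 d12 U12
  obtain ⟨⟨yy, hy⟩, oy⟩ := out n1 n4 d14 U14
  obtain ⟨⟨xx, hx⟩, ox⟩ := out n2 n4 d24 U24
  have m12 := hmem n1 n2 d12 U12
  have m14 := hmem n1 n4 d14 U14
  have m24 := hmem n2 n4 d24 U24
  have T43 := third (p := 4) (a := 2) (b := 1) (c := 3) (by decide +kernel) s3' n4 n3 d43 U24.swap U14.swap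
  have T25 := third (p := 2) (a := 4) (b := 1) (c := 5) (by decide +kernel) s5 n2 n5 d25 U24 U12.swap
  have T16 := third (p := 1) (a := 4) (b := 2) (c := 6) (by decide +kernel) s6 n1 n6 d16 U14 U12
  have T31 : OctLift z Qf (Y (cN (3 : Fin 8))) (Y (cN (1 : Fin 8))) u12 := by
    have := (OctLift.line_prod P (hne n1 n2 d12) U12).swap
    rwa [← hYadd, s3] at this
  have T35 := third (p := 3) (a := 1) (b := 4) (c := 5) (by decide +kernel) s5' n3 n5 d35 T31 T43.swap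
  have mul3 : ∀ {t₁ t₂ : G} {x₁ x₂ p : Fin 8}, t₁ ∈ AU z Qf θ (InW true) → t₂ ∈ AU z Qf θ (InW true) →
      ρ (h * t₁ * h⁻¹) = Te (wVec true (cN x₁)) (cN_spec x₁).bl_eV * ρ t₁ →
      ρ (h * t₂ * h⁻¹) = Te (wVec true (cN x₂)) (cN_spec x₂).bl_eV * ρ t₂ →
      ∀ x : Fin 8, (x : ℕ) = (x₁ : ℕ) ^^^ x₂ ^^^ p →
        ρ (h * (t₁ * t₂ * Y (cN p)) * h⁻¹) =
          Te (wVec true (cN x)) (cN_spec x).bl_eV * ρ (t₁ * t₂ * Y (cN p)) := by
    intro t₁ t₂ x₁ x₂ p h₁ h₂ e₁ e₂ x hx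
    have e := out_mul P hn h₁ h₂ e₁ e₂ (x := ⟨_, cls x₁ x₂⟩) rfl
    exact out_mul P hn (mul_mem h₁ h₂) (hpt p).1 e (hpt p).2 hx
  have e43 := mul3 m24 m14 hx hy (p := 4) ⟨_, cls ⟨_, cls xx yy⟩ 4⟩ rfl
  have e25 := mul3 m24 m12 hx hz (p := 2) ⟨_, cls ⟨_, cls xx zz⟩ 2⟩ rfl
  have e16 := mul3 m14 m12 hy hz (p := 1) ⟨_, cls ⟨_, cls yy zz⟩ 1⟩ rfl
  have e35 := mul3 m12 (hmem n4 n3 d43 T43) hz e43 (p := 3)
    ⟨_, cls ⟨_, cls zz ⟨_, cls ⟨_, cls xx yy⟩ 4⟩⟩ 3⟩ rfl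
  have h1 := ox xx hx
  have h2 := oy yy hy
  have h3 := oz zz hz
  have h4 := (out n4 n3 d43 T43).2 _ e43
  have h5 := (out n2 n5 d25 T25).2 _ e25
  have h6 := (out n1 n6 d16 T16).2 _ e16
  have h7 := (out n3 n5 d35 T35).2 _ e35
  have key : ∀ a b c : Fin 8, (c : ℕ) ^^^ ((a : ℕ) ^^^ b ^^^ 4) ^^^ 3 = (a : ℕ) ^^^ b ^^^ c ^^^ 7 := by
    decide +kernel
  obtain ⟨m, hm, ex, ey, ez⟩ := GolayTable.diag_unique xx.isLt yy.isLt zz.isLt h1 h2 h3 h4 h5 h6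
    (by rw [← key xx yy zz]; exact h7)
  refine ⟨⟨m, hm⟩, ?_⟩
  have huniq : ∀ {a b : Fin 8} {t u : G}, cN a ≠ 0 → cN b ≠ 0 → cN a ≠ cN b →
      OctLift z Qf (Y (cN a)) (Y (cN b)) u → OctLift z Qf (Y (cN a)) (Y (cN b)) t → ∀ x : Fin 8,
      ρ (h * u * h⁻¹) = Te (wVec true (cN x)) (cN_spec x).bl_eV * ρ u →
      ρ (h * t * h⁻¹) = Te (wVec true (cN x)) (cN_spec x).bl_eV * ρ t := by
    intro a b t u ha hb hab U T' x hx
    rcases octLift_unique P (hne ha hb hab) U T' with rfl | rfl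
    · exact hx
    · have hu := hmem ha hb hab U
      have hk := comm_z_of_mem P.toSetting ((Subgroup.mem_normalizer_iff.1 hn u).1 hu)
      have hyz : ρ y = 1 := P.toSetting.ρ_of_mem P.y_mem
      rw [show h * (z * u) * h⁻¹ = h * z * h⁻¹ * (h * u * h⁻¹) by group, P.hz,
        P.toSetting.ρ_mul P.yz_comm hk, hyz, one_mul, P.toSetting.ρ_mul rfl U.comm,
        P.toSetting.ρ_of_mem P.toSetting.z_mem, one_mul]
      exact hx
  intro p hp t T'
  fin_cases hp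
  · exact ⟨xx, ex, huniq n2 n4 d24 U24 T' xx hx⟩
  · exact ⟨yy, ey, huniq n1 n4 d14 U14 T' yy hy⟩
  · exact ⟨zz, ez, huniq n1 n2 d12 U12 T' zz hz⟩

omit hY hYθ in
theorem apply_Te_T {a b a' b' w w' : V} {hw : bl eV w = 0} {hw' : bl eV w' = 0} {hq : q a = 0}
    {hb : bl a b = 0} {hq' : q a' = 0} {hb' : bl a' b' = 0} (e1 : w = w') (e2 : a = a') (e3 : b = b') :
    Te w hw * T a b hq hb = Te w' hw' * T a' b' hq' hb' := by
  subst e1 e2 e3; rfl

/-- The normalised exchanging element. -/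
theorem exists_gauged_swap (hYadd : ∀ u v, Y (u + v) = Y u * Y v)
    (hA : Cfsg.IsElementaryAbelian 2 (AU z Qf θ (InW true))) :
    ∃ h' φ ψ, PairSetting z Qf θ ρ J y h' ∧ Phi z Qf θ ρ y h' φ ψ ∧
      h' ∈ Subgroup.normalizer (AU z Qf θ (InW true) : Set G) ∧
      (φ e2V = e2V ∧ φ e3V = e3V ∧ φ e4V = e4V) ∧
      (∀ j : Fin 4, j ≠ 0 → h' * Y (Pi.single j 1) * h'⁻¹ ∈ Qf (Y (Pi.single j 1))) ∧
      (∀ t, OctLift z Qf (Y (Pi.single 2 1)) (Y (Pi.single 3 1)) t →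
        ρ (h' * t * h'⁻¹) = Te e2V mid_e2V.bl_eV * T e3V e4V q_e3V (by decide)) ∧
      (∀ t, OctLift z Qf (Y (Pi.single 1 1)) (Y (Pi.single 3 1)) t →
        ρ (h' * t * h'⁻¹) = Te (e2V + e3V) (mid_e2V.add mid_e3V).bl_eV * T e2V e4V q_e2V (by decide)) ∧
      (∀ t, OctLift z Qf (Y (Pi.single 1 1)) (Y (Pi.single 2 1)) t →
        ρ (h' * t * h'⁻¹) = Te (e2V + e3V + e4V) ((mid_e2V.add mid_e3V).add mid_e4V).bl_eV *
          T e2V e3V q_e2V (by decide)) := by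
  obtain ⟨h₁, φ, ψ, P₁, F₁, hn₁, hφ⟩ := exists_swap P hA
  obtain ⟨r, -, P₂, F₂, hn₂, hg⟩ := exists_gauge P₁ F₁ hn₁ hφ (fun j => Y (Pi.single j 1))
    (fun j => hY _) (fun j => by rw [hYθ, wVec_single])
  obtain ⟨m, hm⟩ := exists_param P₂ hY hYθ hYadd hA F₂ hn₂ hφ
  obtain ⟨c, hcz, hcy, hρc, hcn, hshift⟩ := exists_shift P₂ (mV_mid m)
  have P₃ := pair_mul P₂ hcz hcy
  have F₃ := phi_congr P₃ (phi_mul P₂ F₂ hcz hcy) (φ' := φ) (ψ' := ψ)
    (fun w hw => by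
      beta_reduce
      rw [hρc, md_ap_Te _ (F₂.mid w hw).1])
    (fun w hw => by
      beta_reduce
      rw [hρc, show (Te (mV m) (mV_mid m).bl_eV)⁻¹ = Te (mV m) (mV_mid m).bl_eV from
        inv_eq_of_mul_eq_one_right (T_mul_self _ _), md_ap_Te _ hw])
  refine ⟨c * (r * h₁), φ, ψ, P₃, F₃, mul_mem hcn hn₂, hφ, fun j hj => ?_, ?_⟩
  · have hxW : InW true (θ (Y (Pi.single j 1))) := ⟨_, hYθ _⟩
    have h0 : θ (Y (Pi.single j 1)) ≠ 0 := by
      rw [hYθ, wVec_single]; exact (basV_spec true j).2.1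
    have hmid : Mid (θ (Y (Pi.single j 1))) := by
      rw [hYθ, wVec_single]
      fin_cases j
      · exact absurd rfl hj
      exacts [mid_e2V, mid_e3V, mid_e4V]
    obtain ⟨-, -, -, hp⟩ := lift_spec P (hY (Pi.single j 1)) hxW.sing h0
    rw [show c * (r * h₁) * Y (Pi.single j 1) * (c * (r * h₁))⁻¹ =
      c * (r * h₁ * Y (Pi.single j 1) * (r * h₁)⁻¹) * c⁻¹ by group]
    exact hshift _ _ (P₂.W_to_Wy ((P.W_iff (hY _)).2 hmid.bl_eV)) (hY _) hxW hp (hg j hj)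
  · obtain ⟨v1, v2, v4, v3, v7⟩ := code_vec
    obtain ⟨c1, c2, c4⟩ := code_single
    have key : ∀ p ∈ [((2 : Fin 8), (4 : Fin 8), (1 : Fin 8)), (1, 4, 3), (1, 2, 7)],
        cN p.1 ≠ 0 → cN p.2.1 ≠ 0 → cN p.1 ≠ cN p.2.1 → ∀ t,
        OctLift z Qf (Y (cN p.1)) (Y (cN p.2.1)) t →
        ρ (c * (r * h₁) * t * (c * (r * h₁))⁻¹) =
          Te (wVec true (cN p.2.2)) (cN_spec p.2.2).bl_eV *
            T (wVec true (cN p.1)) (wVec true (cN p.2.1)) (wVec_spec true _) (bl_wVec true _ _) := by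
      intro p hp ha hb hab t T'
      obtain ⟨x, hx, e⟩ := hm p hp t T'
      obtain ⟨hTm, hw⟩ := shift_fix m p hp x hx
      have L := linePair_Y P hY hYθ ha hb hab
      have ht := octLift_mem_AU P L ⟨_, hYθ _⟩ ⟨_, hYθ _⟩ T'
      have hk := comm_z_of_mem P.toSetting ((Subgroup.mem_normalizer_iff.1 hn₂ t).1 ht)
      have hρt : ρ t = T (wVec true (cN p.1)) (wVec true (cN p.2.1)) (wVec_spec true _) (bl_wVec true _ _) := by
        rw [octLift_ρ P L T']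
        exact T_congr (hYθ _) (hYθ _) _ _
      rw [hρt] at e
      rw [show c * (r * h₁) * t * (c * (r * h₁))⁻¹ = c * (r * h₁ * t * (r * h₁)⁻¹) * c⁻¹ by group,
        ρ_shift P₂ (cN_spec p.1) (cN_spec p.2.1) (wVec_spec true _) (bl_wVec true _ _) (cN_spec x)
          (mV_mid m) hTm hcz hk hρc e]
      exact congrArg (· * _) (Te_congr hw _ _)
    refine ⟨fun t T' => ?_, fun t T' => ?_, fun t T' => ?_⟩
    · rw [key (2, 4, 1) (by simp) (by decide +kernel) (by decide +kernel) (by decide +kernel) t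
        (by rw [c2, c4]; exact T')]
      exact apply_Te_T P v1 v2 v4
    · rw [key (1, 4, 3) (by simp) (by decide +kernel) (by decide +kernel) (by decide +kernel) t
        (by rw [c1, c4]; exact T')]
      exact apply_Te_T P v3 v1 v4
    · rw [key (1, 2, 7) (by simp) (by decide +kernel) (by decide +kernel) (by decide +kernel) t
        (by rw [c1, c2]; exact T')]
      exact apply_Te_T P v7 v1 v2

end CfsgLib.ConwayType.Golay
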