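import Cfsg.Agent.Lib.ConwayType.Swap

/-!
Root lifts over a totally singular line and a half element over a third singular vector: in one of the two
classes of totally singular four-spaces they commute.
-/

set_option autoImplicit false
set_option linter.unusedSectionVars false
set_option maxRecDepth 100000
set_option synthInstance.maxSize 1000
set_option maxHeartbeats 4000000

namespace CfsgLib.ConwayType.Golay

open CfsgLib.ExtraspecialLarge CfsgLib.ConwayType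

theorem line_values_check : ∀ m : V, Mid m → bl m e2V = 1 → bl m f2V = 1 → bl m e3V = 0 → bl m e4V = 0 →
    ∀ v : V, Mid v → bl v e3V = 0 → bl v e4V = 0 → bl v m = 1 → q v = 0 := by
  rw [forall_mid]
  intro b c d h i j
  rw [forall_mid]
  revert b c d h i j
  decide +kernel

theorem line_q_check : ∀ m : V, Mid m → bl m e2V = 1 → bl m f2V = 1 → bl m e3V = 0 → bl m e4V = 0 →
    q m = 1 := by
  rw [forall_mid]; decide +kernel

theorem line_fixed_check : ∀ m : V, Mid m → sgf e3V e4V m = m → bl m e3V = 0 ∧ bl m e4V = 0 := by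
  rw [forall_mid]; decide +kernel

variable {G : Type*} [Group G] [Finite G]
variable {z : G} {Qf : G → Subgroup G} {θ : G → V} {ρ : G → O} {J : Subgroup O} {y h : G}
variable (P : PairSetting z Qf θ ρ J y h)
include P

theorem root_comm_y {a b : V} {y₂ s : G} (R : IsRoot z Qf θ ρ a b y₂ s) (ha : Mid a) (hb : Mid b) :
    s * y = y * s := by
  have e := R.pairing y P.y_mem (by rw [P.θy, bl_comm, ha.bl_eV])
  rw [P.θy, hb.bl_eV, zp_zero, zp_zero, mul_one] at e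
  exact conj_fix_iff.1 (mul_inv_eq_one.1 e)

/-- The commutator of a root lift at a mid vector with an element of the second half. -/
theorem root_comm_gen {a b : V} {y₂ s₂ : G} (R : IsRoot z Qf θ ρ a b y₂ s₂) (ha : Mid a) (ha0 : a ≠ 0)
    (hqa : q a = 0) (hab : bl a b = 0) (hb : Mid b) (hqb : q b = 0) {σ : G} (hσ : inWy z Qf y σ)
    (hσa : bl a (wS ρ σ) = 0) (hσb : bl b (wS ρ σ) = 0) :
    ∃ k : ZMod 2, s₂ * σ * s₂⁻¹ * σ⁻¹ = zp z k := by
  have hy : s₂ * y = y * s₂ := root_comm_y P R ha hb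
  have hσy₂ : σ * y₂ = y₂ * σ := by
    have e := P.comm_eq hσ ((P.W_iff R.memQ).2 (by rw [R.θy]; exact ha.bl_eV))
    rw [R.θy, hσa, zp_zero, zp_zero, mul_one, mul_inv_eq_one] at e
    exact conj_fix_iff.1 e
  obtain ⟨hw, eσ⟩ := P.wS_spec hσ
  have hcomm : ρ s₂ * ρ σ = ρ σ * ρ s₂ := by
    refine CfsgLib.ClassicalForms.orth_ext fun x => ?_
    change ap (ρ s₂ * ρ σ) x = ap (ρ σ * ρ s₂) x
    rw [ap_mul, ap_mul, R.act, R.act, eσ, Te, ap_T, ap_T, sgf_eq eV, sgf_eq eV, sgf_eq a, sgf_eq a]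
    have h1 : bl (wS ρ σ) a = 0 := by rw [bl_comm]; exact hσa
    have h2 : bl (wS ρ σ) b = 0 := by rw [bl_comm]; exact hσb
    have h3 : bl eV a = 0 := ha.bl_eV
    have h4 : bl eV b = 0 := hb.bl_eV
    have h3' : bl a eV = 0 := by rw [bl_comm]; exact h3
    have h4' : bl b eV = 0 := by rw [bl_comm]; exact h4
    simp only [bl_add_left, bl_smul_left, h1, h2, h3, h4, h3', h4', hσa, hσb, hqb, zero_mul, mul_zero,
      add_zero]
    abel
  have h1 : s₂ * σ * s₂⁻¹ * σ⁻¹ ∈ Qf z := by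
    refine (P.ρ_ker _ (comm_mul (comm_mul (comm_mul R.comm hσ.2) (comm_inv R.comm)) (comm_inv hσ.2))).1 ?_
    rw [P.toSetting.ρ_mul (comm_mul (comm_mul R.comm hσ.2) (comm_inv R.comm)) (comm_inv hσ.2),
      P.toSetting.ρ_conj R.comm hσ.2, P.toSetting.ρ_inv hσ.2, hcomm]
    group
  have h2 : s₂ * σ * s₂⁻¹ * σ⁻¹ ∈ Qf y :=
    (Qf y).mul_mem (P.goody.norm s₂ hy σ hσ.1) ((Qf y).inv_mem hσ.1)
  have h3 : s₂ * σ * s₂⁻¹ * σ⁻¹ ∈ Qf y₂ := by
    rw [show s₂ * σ * s₂⁻¹ * σ⁻¹ = s₂ * (σ * s₂⁻¹ * σ⁻¹) by group]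
    exact (Qf y₂).mul_mem R.mem (R.good.norm σ hσy₂ _ ((Qf y₂).inv_mem R.mem))
  have h0 : θ (s₂ * σ * s₂⁻¹ * σ⁻¹) = 0 := by
    rcases P.θ_inter h1 h2 with e | e
    · exact e
    · rcases R.inter _ h1 h3 with e' | e'
      · exact e'
      · rw [e] at e'
        exact absurd (show a = 0 by rw [← md_of_mid ha, ← e', md_eV]) ha0
  rcases (P.θ_ker _ h1).1 h0 with e | e
  · exact ⟨0, by rw [e, zp_zero]⟩
  · exact ⟨1, by rw [e, zp_one]⟩

omit P in
/-- A half element over `c` and a root lift over the line `a`, `b` orthogonal to it commute. -/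
def GoodLine (z : G) (Qf : G → Subgroup G) (θ : G → V) (ρ : G → O) (y : G) (a b c : V) : Prop :=
  ∃ y₂ s σ, IsRoot z Qf θ ρ a b y₂ s ∧ inWy z Qf y σ ∧ wS ρ σ = c ∧ s * σ = σ * s

omit P in
/-- The hypotheses on the three vectors. -/
structure Triple (a b c : V) : Prop where
  ha : Mid a
  hb : Mid b
  hc : Mid c
  qa : q a = 0
  qb : q b = 0
  qc : q c = 0
  ab : bl a b = 0
  ca : bl c a = 0
  cb : bl c b = 0
  a0 : a ≠ 0
  indep : ∀ s t r : ZMod 2, s • b + t • a = r • c → s = 0 ∧ t = 0 ∧ r = 0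

/-- Some third vector is good. -/
theorem exists_good : ∃ a b c : V, Triple a b c ∧ GoodLine z Qf θ ρ y a b c := by
  classical
  by_contra hbad
  push Not at hbad
  have bad : ∀ (a b c : V), Triple a b c → ∀ y₂ s σ, IsRoot z Qf θ ρ a b y₂ s → inWy z Qf y σ →
      wS ρ σ = c → s * σ * s⁻¹ * σ⁻¹ = z := by
    intro a b c T y₂ s σ R hσ hw
    obtain ⟨k, hk⟩ := root_comm_gen P R T.ha T.a0 T.qa T.ab T.hb T.qb hσ
      (by rw [hw, bl_comm, T.ca]) (by rw [hw, bl_comm, T.cb])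
    rcases z2_cases k with rfl | rfl
    · rw [zp_zero, mul_inv_eq_one] at hk
      exact absurd (mul_inv_eq_iff_eq_mul.1 hk) fun e => hbad a b c T ⟨y₂, s, σ, R, hσ, hw, e⟩
    · rw [hk, zp_one]
  have T1 : Triple e3V e4V e2V :=
    ⟨mid_e3V, mid_e4V, mid_e2V, by decide, by decide, by decide, by decide, by decide, by decide,
      by decide, by decide⟩
  have T2 : Triple e3V e4V f2V :=
    ⟨mid_e3V, mid_e4V, mid_f2V, by decide, by decide, by decide, by decide, by decide, by decide,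
      by decide, by decide⟩
  obtain ⟨y₂, s, R⟩ := P.exists_root (a := e3V) (p := e4V) q_e3V (by decide) (by decide)
  have hsy : s * y = y * s := root_comm_y P R mid_e3V mid_e4V
  have hs2 : s * s = 1 := by rw [R.sq, show q e4V = 0 by decide, zp_zero]
  obtain ⟨σe, hσe, hσew⟩ := P.exists_Wy mid_e2V
  obtain ⟨σf, hσf, hσfw⟩ := P.exists_Wy mid_f2V
  have hce := bad _ _ _ T1 _ _ _ R hσe hσew
  have hcf := bad _ _ _ T2 _ _ _ R hσf hσfw
  have hρs : ρ s = T e3V e4V q_e3V (by decide) := CfsgLib.ClassicalForms.orth_ext fun x => by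
    change ap (ρ s) x = ap (T _ _ _ _) x
    rw [R.act, ap_T]
  -- the transfer between the two halves
  obtain ⟨A, B, hAB, hadd, hA⟩ := P.exists_A
  have hB : ∀ τ, inWy z Qf y τ → md (θ (h⁻¹ * τ * h)) = B (wS ρ τ) := by
    intro τ hτ
    have hx := P.Wy_to_W' hτ
    have e := hA _ hx
    rw [show h * (h⁻¹ * τ * h) * h⁻¹ = τ by group] at e
    rw [e, (hAB _ (mid_md ((P.W_iff hx.1).1 hx))).2.2.2]
  have hBm : ∀ m, Mid m → Mid (B m) := fun m hm => (hAB m hm).2.1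
  have hAm : ∀ m, Mid m → Mid (A m) := fun m hm => (hAB m hm).1
  have hBA : ∀ m, Mid m → B (A m) = m := fun m hm => (hAB m hm).2.2.2
  have hBq : ∀ m, Mid m → q (B m) = q m := by
    intro m hm
    obtain ⟨τ, hτ, rfl⟩ := P.exists_Wy hm
    have hx := P.Wy_to_W' hτ
    rw [← hB τ hτ, q_md ((P.W_iff hx.1).1 hx)]
    refine P.zp_z_inj ?_
    rw [← P.toSetting.sq_eq hx.1, show h⁻¹ * τ * h * (h⁻¹ * τ * h) = h⁻¹ * (τ * τ) * h by group,
      P.sq_wS hτ]
    rcases z2_cases (q (wS ρ τ)) with a | a <;> rw [a]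
    · simp
    · exact P.hz'
  have hBb : ∀ m m', Mid m → Mid m' → bl (B m) (B m') = bl m m' := by
    intro m m' hm hm'
    have e := hBq _ (hm.add hm')
    rw [(hadd m m' hm hm').2, q_add, q_add, hBq m hm, hBq m' hm'] at e
    exact add_left_cancel e
  have hB0 : B 0 = 0 := by
    have h0 := (hadd 0 0 mid_zero mid_zero).2
    rw [add_zero, vadd_self] at h0
    exact h0
  have hBinj : ∀ m, Mid m → B m = 0 → m = 0 := by
    intro m hm e
    have := (hAB m hm).2.2.1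
    rw [e] at this
    rw [← this]
    have h0 := (hadd 0 0 mid_zero mid_zero).1
    rw [add_zero, vadd_self] at h0
    exact h0
  have hBs : ∀ (c : ZMod 2) (m : V), Mid m → Mid (c • m) ∧ B (c • m) = c • B m := by
    intro c m hm
    rcases z2_cases c with rfl | rfl
    · rw [zero_smul, zero_smul]; exact ⟨mid_zero, hB0⟩
    · rw [one_smul, one_smul]; exact ⟨hm, rfl⟩
  set a' := B e3V with ha'_def
  set b' := B e4V with hb'_def
  have hqa' : q a' = 0 := by rw [ha'_def, hBq _ mid_e3V, q_e3V]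
  have hqb' : q b' = 0 := by rw [hb'_def, hBq _ mid_e4V]; decide
  have hab' : bl a' b' = 0 := by rw [ha'_def, hb'_def, hBb _ _ mid_e3V mid_e4V]; decide
  have ham : Mid a' := hBm _ mid_e3V
  have hbm : Mid b' := hBm _ mid_e4V
  -- the transported involution
  set K := h⁻¹ * s * h with hK
  have hKz : K * z = z * K := PairSetting.conj_comm (g := h⁻¹) (by rw [inv_inv]) (by rw [inv_inv, P.hz']) hsy
  have hKy : K * y = y * K := PairSetting.conj_comm (g := h⁻¹) (by rw [inv_inv]) (by rw [inv_inv, P.hy']) R.comm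
  have hK2 : K * K = 1 := by
    rw [hK, show h⁻¹ * s * h * (h⁻¹ * s * h) = h⁻¹ * (s * s) * h by group, hs2]; group
  have hρK2 : ρ K * ρ K = 1 := by rw [← P.toSetting.ρ_mul hKz hKz, hK2, P.toSetting.ρ_one]
  have hKe : ap (ρ K) eV = eV := P.ρy hKz hKy
  set R' := T a' b' hqa' hab' with hR'_def
  have hr : ∀ m, Mid m → Mid (sgf e3V e4V m) ∧ md (sgf a' b' (B m)) = B (sgf e3V e4V m) ∧
      sgf e3V e4V (sgf e3V e4V m) = m := by
    intro m hm
    have h1 := hBs (bl m e3V) e4V mid_e4V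
    have h2 := hBs (bl m e4V) e3V mid_e3V
    have e : sgf e3V e4V m = m + bl m e3V • e4V + bl m e4V • e3V := by
      rw [sgf_eq, show q e4V = 0 by decide, zero_mul, add_zero]
    have hrm : Mid (sgf e3V e4V m) := by rw [e]; exact (hm.add h1.1).add h2.1
    refine ⟨hrm, ?_, ?_⟩
    · rw [e, (hadd _ _ (hm.add h1.1) h2.1).2, (hadd _ _ hm h1.1).2, h1.2, h2.2, sgf_eq, hqb', zero_mul,
        add_zero, ha'_def, hb'_def, hBb _ _ hm mid_e3V, hBb _ _ hm mid_e4V, md_add, md_add, md_smul,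
        md_smul, md_of_mid (hBm m hm), md_of_mid (hBm _ mid_e3V), md_of_mid (hBm _ mid_e4V)]
    · rw [← ap_T e3V e4V q_e3V (by decide), ← ap_T e3V e4V q_e3V (by decide), ← ap_mul, T_mul_self, ap_one]
  have hG : ∀ m, Mid m → md (ap (ρ K) (B m)) = B (sgf e3V e4V m) := by
    intro m hm
    obtain ⟨τ, hτ, rfl⟩ := P.exists_Wy hm
    obtain ⟨hτ', hτw⟩ := P.wS_conj R.comm hsy hτ
    rw [hρs, ap_T, md_of_mid (hr _ hm).1] at hτw
    have hx := P.Wy_to_W' hτ
    rw [← hτw, ← hB _ hτ', ← hB _ hτ, md_ap hKe, ← P.ρ_act K hKz _ hx.1]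
    congr 2
    rw [hK]; group
  have hR'e : ap R' eV = eV := by
    simp only [hR'_def, ap_T, sgf_eq, ham.bl_eV, hbm.bl_eV, zero_smul, mul_zero, add_zero]
  have hX : ap (ρ K * R') eV = eV := by rw [ap_mul, hR'e, hKe]
  obtain ⟨w2, hw2, hw2M, hXe, -⟩ := eq_Te hX fun v hv => by
    obtain ⟨m, hm, rfl⟩ : ∃ m, Mid m ∧ B m = v := ⟨A v, hAm v hv, hBA v hv⟩
    rw [ap_mul, ← md_ap hKe, hR'_def, ap_T, (hr m hm).2.1, hG _ (hr m hm).1, (hr m hm).2.2]
  have hρK : ρ K = Te w2 hw2 * R' := by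
    rw [← hXe, hR'_def, mul_assoc, T_mul_self, mul_one]
  have hfix : ∀ τ, inWy z Qf y τ → s * τ * s⁻¹ * τ⁻¹ = z → bl e3V (wS ρ τ) = 0 →
      bl e4V (wS ρ τ) = 0 → bl (B (wS ρ τ)) w2 = 1 := by
    intro τ hτ e ha1 hb1
    have hM := (P.wS_spec hτ).1
    have hx := P.Wy_to_W' hτ
    have hbx := (P.W_iff hx.1).1 hx
    have h1 : bl (θ (h⁻¹ * τ * h)) a' = 0 := by
      rw [← bl_md_left ham.bl_eV, hB τ hτ, ha'_def, hBb _ _ hM mid_e3V, bl_comm, ha1]
    have h2 : bl (θ (h⁻¹ * τ * h)) b' = 0 := by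
      rw [← bl_md_left hbm.bl_eV, hB τ hτ, hb'_def, hBb _ _ hM mid_e4V, bl_comm, hb1]
    have e1 : ap (ρ K) (θ (h⁻¹ * τ * h)) = eV + θ (h⁻¹ * τ * h) := by
      rw [← P.ρ_act K hKz _ hx.1, show K * (h⁻¹ * τ * h) * K⁻¹ =
        h⁻¹ * (s * τ * s⁻¹ * τ⁻¹) * h * (h⁻¹ * τ * h) by rw [hK]; group, e, P.hy',
        P.θ_mul _ P.y_mem _ hx.1, P.θy]
    rw [hρK, ap_mul, show ap R' (θ (h⁻¹ * τ * h)) = θ (h⁻¹ * τ * h) by
      simp only [hR'_def, ap_T, sgf_eq, h1, h2, zero_smul, mul_zero, add_zero],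
      Te, ap_T, sgf_eq, bl_comm (θ _) eV, hbx, zero_smul, mul_zero, add_zero, add_zero,
      add_comm eV] at e1
    rw [← hB τ hτ, bl_md_left hw2]
    rcases z2_cases (bl (θ (h⁻¹ * τ * h)) w2) with a | a
    · rw [a, zero_smul] at e1
      exact absurd (add_left_cancel e1) (by decide)
    · exact a
  obtain ⟨m, hm, hBm2⟩ : ∃ m, Mid m ∧ B m = w2 := ⟨A w2, hAm w2 hw2M, hBA w2 hw2M⟩
  have hme : bl m e2V = 1 := by
    have := hfix σe hσe hce (by rw [hσew]; decide) (by rw [hσew]; decide)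
    rwa [hσew, ← hBm2, hBb _ _ mid_e2V hm, bl_comm] at this
  have hmf : bl m f2V = 1 := by
    have := hfix σf hσf hcf (by rw [hσfw]; decide) (by rw [hσfw]; decide)
    rwa [hσfw, ← hBm2, hBb _ _ mid_f2V hm, bl_comm] at this
  have hcom : R' * Te w2 hw2 * R'⁻¹ = Te w2 hw2 := by
    have h1 : (Te w2 hw2)⁻¹ = Te w2 hw2 := inv_eq_of_mul_eq_one_right (T_mul_self _ _)
    rw [hρK] at hρK2
    calc R' * Te w2 hw2 * R'⁻¹ = (Te w2 hw2)⁻¹ * (Te w2 hw2 * R' * (Te w2 hw2 * R')) * (R' * R')⁻¹ := by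
          group
      _ = Te w2 hw2 := by rw [hρK2, hR'_def, T_mul_self, h1]; group
  rw [conj_Te hR'e hw2] at hcom
  have hfm := (Te_eq_iff _ _).1 hcom
  rw [md_md, md_of_mid hw2M, ← hBm2, hR'_def, ap_T, (hr m hm).2.1] at hfm
  have hrm : sgf e3V e4V m = m := by
    refine vadd_eq_zero.1 (hBinj _ ((hr m hm).1.add hm) ?_)
    rw [(hadd _ _ (hr m hm).1 hm).2, hfm, vadd_self]
  obtain ⟨hm3, hm4⟩ := line_fixed_check m hm hrm
  have hqm : q w2 = 1 := by rw [← hBm2, hBq m hm]; exact line_q_check m hm hme hmf hm3 hm4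
  -- the two singular summands of `w2`
  set c1 := B e2V with hc1
  set c2 := w2 + B e2V with hc2
  have hc1m : Mid c1 := hBm _ mid_e2V
  have hc2m : Mid c2 := hw2M.add hc1m
  have hc1a : bl c1 a' = 0 := by rw [hc1, ha'_def, hBb _ _ mid_e2V mid_e3V]; decide
  have hc1b : bl c1 b' = 0 := by rw [hc1, hb'_def, hBb _ _ mid_e2V mid_e4V]; decide
  have hwa : bl w2 a' = 0 := by rw [← hBm2, ha'_def, hBb _ _ hm mid_e3V]; exact hm3
  have hwb : bl w2 b' = 0 := by rw [← hBm2, hb'_def, hBb _ _ hm mid_e4V]; exact hm4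
  have hwc : bl w2 c1 = 1 := by rw [← hBm2, hc1, hBb _ _ hm mid_e2V]; exact hme
  have hind : ∀ s t r : ZMod 2, s • b' + t • a' = r • eV → s = 0 ∧ t = 0 ∧ r = 0 := by
    intro s t r e
    have e1 := congrArg md e
    rw [md_add, md_smul, md_smul, md_smul, md_eV, smul_zero, md_of_mid ham, md_of_mid hbm, ha'_def,
      hb'_def, ← (hBs s _ mid_e4V).2, ← (hBs t _ mid_e3V).2,
      ← (hadd _ _ (hBs s _ mid_e4V).1 (hBs t _ mid_e3V).1).2] at e1
    have h2 := hBinj _ ((hBs s _ mid_e4V).1.add (hBs t _ mid_e3V).1) e1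
    have hdec : ∀ s t : ZMod 2, s • e4V + t • e3V = 0 → s = 0 ∧ t = 0 := by decide
    obtain ⟨hs, ht⟩ := hdec s t h2
    subst hs ht
    refine ⟨rfl, rfl, ?_⟩
    rw [zero_smul, zero_smul, add_zero] at e
    rcases z2_cases r with rfl | rfl
    · rfl
    · rw [one_smul] at e; exact absurd e.symm (by decide)
  have hind' : ∀ c : V, Mid c → bl c c1 = 1 → ∀ s t r : ZMod 2, s • b' + t • a' = r • c →
      s = 0 ∧ t = 0 ∧ r = 0 := by
    intro c _ hcc s t r e
    have hr0 : r = 0 := by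
      have := congrArg (fun v => bl v c1) e
      simp only [bl_add_left, bl_smul_left, bl_comm b' c1, bl_comm a' c1, hc1a, hc1b, hcc, mul_zero,
        add_zero, mul_one] at this
      exact this.symm
    subst hr0
    obtain ⟨hs, ht, -⟩ := hind s t 0 (by rw [e, zero_smul, zero_smul])
    exact ⟨hs, ht, rfl⟩
  have hqc1 : q c1 = 0 := by rw [hc1, hBq _ mid_e2V, q_e2V]
  have T1' : Triple a' b' c1 := by
    refine ⟨ham, hbm, hc1m, hqa', hqb', hqc1, hab', hc1a, hc1b, fun e => absurd (hBinj _ mid_e3V e) (by decide),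
      fun s t r e => ?_⟩
    have hr0 : r = 0 := by
      have := congrArg (fun v => bl v (B f2V)) e
      have z1 : bl b' (B f2V) = 0 := by rw [hb'_def, hBb _ _ mid_e4V mid_f2V]; decide
      have z2 : bl a' (B f2V) = 0 := by rw [ha'_def, hBb _ _ mid_e3V mid_f2V]; decide
      have z3 : bl c1 (B f2V) = 1 := by rw [hc1, hBb _ _ mid_e2V mid_f2V]; decide
      simp only [bl_add_left, bl_smul_left, z1, z2, z3, mul_zero, add_zero, mul_one] at this
      exact this.symm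
    subst hr0
    obtain ⟨hs, ht, -⟩ := hind s t 0 (by rw [e, zero_smul, zero_smul])
    exact ⟨hs, ht, rfl⟩
  have T2' : Triple a' b' c2 := by
    refine ⟨ham, hbm, hc2m, hqa', hqb', ?_, hab', ?_, ?_, fun e => absurd (hBinj _ mid_e3V e) (by decide),
      hind' c2 hc2m ?_⟩
    · rw [hc2, q_add, hqm, ← hc1, hqc1, hwc]; decide
    · rw [hc2, bl_add_left, hwa, ← hc1, hc1a, add_zero]
    · rw [hc2, bl_add_left, hwb, ← hc1, hc1b, add_zero]
    · rw [hc2, bl_add_left, ← hc1, hwc, bl_self, add_zero]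
  obtain ⟨y', s', R2⟩ := P.exists_root hqa' T1'.a0 hab'
  have hs'y : s' * y = y * s' := root_comm_y P R2 ham hbm
  obtain ⟨τ1, hτ1, hτ1w⟩ := P.exists_Wy hc1m
  obtain ⟨τ2, hτ2, hτ2w⟩ := P.exists_Wy hc2m
  have hk1 := bad _ _ _ T1' _ _ _ R2 hτ1 hτ1w
  have hk2 := bad _ _ _ T2' _ _ _ R2 hτ2 hτ2w
  set σ := τ1 * τ2 with hσ_def
  have hσ : inWy z Qf y σ := P.Wy_mul hτ1 hτ2
  have hσw : wS ρ σ = w2 := by
    rw [hσ_def, P.wS_mul hτ1 hτ2, hτ1w, hτ2w, hc2, ← hc1, add_comm w2 c1, ← add_assoc, vadd_self, zero_add]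
  have hκ : s' * σ * s'⁻¹ = σ := by
    have e1 : s' * τ1 * s'⁻¹ = z * τ1 := by rw [← hk1]; group
    have e2 : s' * τ2 * s'⁻¹ = z * τ2 := by rw [← hk2]; group
    calc s' * σ * s'⁻¹ = (s' * τ1 * s'⁻¹) * (s' * τ2 * s'⁻¹) := by rw [hσ_def]; group
      _ = z * (τ1 * z) * τ2 := by rw [e1, e2]; group
      _ = (z * z) * (τ1 * τ2) := by rw [hτ1.2]; group
      _ = σ := by rw [P.toSetting.z_sq, one_mul]
  -- the decomposition of the involution
  obtain ⟨hwσ, eσ⟩ := P.wS_spec hσ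
  have hρσ : ρ σ = Te w2 hw2 := by rw [eσ]; exact Te_congr hσw _ _
  have hρs' : ρ s' = R' := CfsgLib.ClassicalForms.orth_ext fun x => by
    change ap (ρ s') x = ap R' x
    rw [R2.act, hR'_def, ap_T]
  set u := s'⁻¹ * (σ⁻¹ * K) with hu_def
  have huQ : u ∈ Qf z := by
    refine (P.ρ_ker _ (comm_mul (comm_inv R2.comm) (comm_mul (comm_inv hσ.2) hKz))).1 ?_
    rw [P.toSetting.ρ_mul (comm_inv R2.comm) (comm_mul (comm_inv hσ.2) hKz),
      P.toSetting.ρ_mul (comm_inv hσ.2) hKz, P.toSetting.ρ_inv R2.comm, P.toSetting.ρ_inv hσ.2,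
      hρs', hρσ, hρK]
    group
  have hu : inW z Qf y u :=
    ⟨huQ, comm_mul (comm_inv hs'y) (comm_mul (comm_inv (P.goody.comm σ hσ.1)) hKy)⟩
  set g := s' * u with hg
  have hKg : K = σ * g := by rw [hg, hu_def]; group
  have huz := P.toSetting.comm_z huQ
  have hgy : g * y = y * g := comm_mul hs'y hu.2
  have hs'2 : s' * s' = 1 := by rw [R2.sq, hqb', zp_zero]
  have hggy : g * g ∈ Qf y := by
    rw [show g * g = σ⁻¹ * (K * σ⁻¹ * K⁻¹) * (K * K) by rw [hKg]; group, hK2, mul_one]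
    exact (Qf y).mul_mem ((Qf y).inv_mem hσ.1) (P.goody.norm K hKy _ ((Qf y).inv_mem hσ.1))
  have hsu : s' * u * s'⁻¹ ∈ Qf z := P.toSetting.conj_mem_Q R2.comm huQ
  have hgg : g * g = s' * u * s'⁻¹ * u := by
    calc g * g = s' * u * s'⁻¹ * (s' * s') * u := by rw [hg]; group
      _ = _ := by rw [hs'2, mul_one]
  have hggQ : g * g ∈ Qf z := hgg ▸ (Qf z).mul_mem hsu huQ
  obtain ⟨i, j, hij⟩ := P.D_cases hggQ hggy
  have e := congrArg θ hij
  rw [P.θ_zp_mul, hgg, P.θ_mul _ hsu _ huQ, P.ρ_act s' R2.comm u huQ, R2.act, sgf_eq, hqb', zero_mul,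
    add_zero, show θ u + bl (θ u) a' • b' + bl (θ u) b' • a' + θ u =
      bl (θ u) a' • b' + bl (θ u) b' • a' + (θ u + θ u) by abel, vadd_self, add_zero] at e
  obtain ⟨h1, h2, rfl⟩ := hind _ _ _ e
  have hcu : s' * u * s'⁻¹ = u := by
    have e1 := R2.pairing u huQ (by rw [bl_comm]; exact h1)
    rw [h2, zp_zero, zp_zero, mul_one, mul_inv_eq_one] at e1
    exact e1
  rw [hcu, P.toSetting.sq_eq huQ] at hgg
  have hbu : bl eV (θ u) = 0 := (P.W_iff huQ).1 hu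
  set l := bl (θ u) w2 with hldef
  have hus : σ * u * σ⁻¹ * u⁻¹ = zp z l * zp y l := by
    have := P.comm_eq hσ hu
    rwa [hσw] at this
  have hsg : σ * g * σ⁻¹ * g⁻¹ = zp z l * zp y l := by
    have hc : s' * (zp z l * zp y l) = zp z l * zp y l * s' :=
      (Commute.mul_right (show Commute s' (zp z l) from zp_comm R2.comm l)
        (show Commute s' (zp y l) from zp_comm hs'y l)).eq
    have hκ' : σ * s' * σ⁻¹ = s' := by
      rw [mul_inv_eq_iff_eq_mul]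
      exact (mul_inv_eq_iff_eq_mul.1 hκ).symm
    calc σ * g * σ⁻¹ * g⁻¹ = (σ * s' * σ⁻¹) * (σ * u * σ⁻¹ * u⁻¹) * s'⁻¹ := by rw [hg]; group
      _ = zp z l * zp y l := by rw [hκ', hus, hc, mul_inv_cancel_right]
  have ht : K * K = σ * g * σ⁻¹ * g⁻¹ * (g * zp y (q w2) * g) := by
    rw [hKg, ← hσw, ← P.sq_wS hσ]; group
  rw [hK2, hsg, zp_comm hgy (q w2), mul_assoc (zp y (q w2)) g g, hgg, hqm] at ht
  have e2 := congrArg θ ht
  have hzy : zp y 1 * zp z (q (θ u)) = zp z (q (θ u)) * zp y 1 :=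
    zp_comm (zp_comm P.yz_comm.symm 1).symm _
  have hsplit : zp z l * zp y l * (zp z (q (θ u)) * zp y 1) = zp z (l + q (θ u)) * zp y (l + 1) := by
    rw [zp_add P.toSetting.z_sq l (q (θ u)), zp_add P.y_sq]
    exact (Commute.mul_mul_mul_comm (show Commute (zp y l) (zp z (q (θ u))) from
      zp_comm (zp_comm P.yz_comm.symm l).symm _) _ _)
  rw [hzy, hsplit, P.θ_zp_mul, P.toSetting.θ_one] at e2
  have hl1 : l = 1 := by
    rcases z2_cases (l + 1) with a | a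
    · exact CharTwo.add_eq_zero.1 a
    · rw [a, one_smul] at e2; exact absurd e2.symm (by decide)
  -- the norm of `u`
  have hq0 : q (θ u) = 0 := by
    have hmu : Mid (md (θ u)) := mid_md hbu
    obtain ⟨n, hn, hnv⟩ : ∃ n, Mid n ∧ B n = md (θ u) := ⟨A (md (θ u)), hAm _ hmu, hBA _ hmu⟩
    rw [← q_md hbu, ← hnv, hBq n hn]
    refine line_values_check m hm hme hmf hm3 hm4 n hn ?_ ?_ ?_
    · rw [← hBb _ _ hn mid_e3V, hnv, bl_md_left ham.bl_eV]; exact h1
    · rw [← hBb _ _ hn mid_e4V, hnv, bl_md_left hbm.bl_eV]; exact h2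
    · rw [← hBb _ _ hn hm, hnv, hBm2, bl_md_left hw2, ← hldef]; exact hl1
  rw [hl1, hq0, show zp z (1 : ZMod 2) * zp y 1 * (zp y 1 * zp z 0) = z by
    rw [zp_zero, mul_one, zp_one, zp_one, mul_assoc, P.y_sq, mul_one]] at ht
  exact P.toSetting.z_ne ht.symm

end CfsgLib.ConwayType.Golay
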