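import Cfsg.Agent.Lib.ConwayType.Main
import Cfsg.Agent.Lib.ConwayType.NotConj
import Cfsg.Agent.Lib.ConwayType.Golay.Space

/-!
The incidence `v ∈ Qf u` between conjugates of `z`: symmetry, triangles lie on lines, the lifts of
the points of the line of an element over a root map, and the classes of the lifts.
-/

set_option autoImplicit false
set_option linter.unusedSectionVars false
set_option maxRecDepth 100000
set_option synthInstance.maxSize 1000
set_option maxHeartbeats 4000000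

namespace CfsgLib.ConwayType.Golay

open CfsgLib.ExtraspecialLarge CfsgLib.ConwayType

variable {G : Type*} [Group G] [Finite G]
variable {z : G} {Qf : G → Subgroup G} {θ : G → V} {ρ : G → O} {J : Subgroup O} {y h : G}

/-- A conjugate of `z`. -/
def Pt (z u : G) : Prop := ∃ g, g * z * g⁻¹ = u

omit [Finite G] in
theorem Pt.conj {u : G} (hu : Pt z u) (c : G) : Pt z (c * u * c⁻¹) := by
  obtain ⟨g, rfl⟩ := hu
  exact ⟨c * g, by group⟩

omit [Finite G] in
theorem pt_self : Pt z z := ⟨1, by group⟩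

omit [Finite G] in
theorem Pt.isConj {u : G} (hu : Pt z u) : IsConj z u := isConj_iff.2 hu

variable (P : PairSetting z Qf θ ρ J y h)
include P

theorem pt_y : Pt z y := ⟨h, P.hz⟩

theorem Pt.good {u : G} (hu : Pt z u) : Good (Qf u) u := P.core.good_of_conj hu

theorem conj_mem_Qf {c u x : G} (hx : x ∈ Qf u) : c * x * c⁻¹ ∈ Qf (c * u * c⁻¹) :=
  P.core.conj_mem c u hx

theorem conj_mem_Qf' {c u x : G} (hx : c * x * c⁻¹ ∈ Qf (c * u * c⁻¹)) : x ∈ Qf u := by
  have := P.core.conj_mem c⁻¹ _ hx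
  rwa [show c⁻¹ * (c * x * c⁻¹) * c⁻¹⁻¹ = x by group,
    show c⁻¹ * (c * u * c⁻¹) * c⁻¹⁻¹ = u by group] at this

theorem pt_symm {u v : G} (hu : Pt z u) (hv : Pt z v) (h' : v ∈ Qf u) : u ∈ Qf v := by
  obtain ⟨g, rfl⟩ := hu
  obtain ⟨k, rfl⟩ := hv
  refine conj_mem_Qf' P (c := g⁻¹) ?_
  rw [show g⁻¹ * (g * z * g⁻¹) * g⁻¹⁻¹ = z by group,
    show g⁻¹ * (k * z * k⁻¹) * g⁻¹⁻¹ = g⁻¹ * k * z * (g⁻¹ * k)⁻¹ by group]
  refine P.core.symm ?_
  have := conj_mem_Qf P (c := g⁻¹) h'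
  rwa [show g⁻¹ * (g * z * g⁻¹) * g⁻¹⁻¹ = z by group,
    show g⁻¹ * (k * z * k⁻¹) * g⁻¹⁻¹ = g⁻¹ * k * z * (g⁻¹ * k)⁻¹ by group] at this

theorem pt_of_mem_z {x : G} (hx : x ∈ Qf z) (h2 : x * x = 1) (h1 : x ≠ 1) : Pt z x := by
  obtain ⟨c, -, e | e⟩ := P.Q_cases hx h2 h1
  · refine ⟨c⁻¹, ?_⟩
    calc c⁻¹ * z * c⁻¹⁻¹ = c⁻¹ * (c * x * c⁻¹) * c⁻¹⁻¹ := by rw [e]
      _ = x := by group
  · refine ⟨c⁻¹ * h, ?_⟩
    calc c⁻¹ * h * z * (c⁻¹ * h)⁻¹ = c⁻¹ * (h * z * h⁻¹) * c := by group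
      _ = c⁻¹ * (c * x * c⁻¹) * c := by rw [P.hz, e]
      _ = x := by group

theorem pt_of_mem {u x : G} (hu : Pt z u) (hx : x ∈ Qf u) (h2 : x * x = 1) (h1 : x ≠ 1) :
    Pt z x := by
  obtain ⟨g, rfl⟩ := hu
  have hx' : g⁻¹ * x * g⁻¹⁻¹ ∈ Qf z := by
    have := conj_mem_Qf P (c := g⁻¹) hx
    rwa [show g⁻¹ * (g * z * g⁻¹) * g⁻¹⁻¹ = z by group] at this
  obtain ⟨e2, e1⟩ := P.toSetting.conj_involution (c := g⁻¹) h2 h1
  have := (pt_of_mem_z P hx' e2 e1).conj g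
  rwa [show g * (g⁻¹ * x * g⁻¹⁻¹) * g⁻¹ = x by group] at this

theorem exists_to_y {x : G} (hx : x ∈ Qf z) (h2 : x * x = 1) (h1 : x ≠ 1) (hz : x ≠ z) :
    ∃ c, c * z = z * c ∧ c * x * c⁻¹ = y := by
  obtain ⟨c, hc, e | e⟩ := P.Q_cases hx h2 h1
  · refine absurd ?_ hz
    have h' := conj_inv_eq e
    rw [← h', mul_assoc, ← hc]; group
  · exact ⟨c, hc, e⟩

/-- The common part of two groups. -/
theorem inter_z {x w : G} (hx : x ∈ Qf z) (h2 : x * x = 1) (h1 : x ≠ 1) (hz : x ≠ z)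
    (hw : w ∈ Qf z) (hwx : w ∈ Qf x) : w = 1 ∨ w = z ∨ w = x ∨ w = z * x := by
  obtain ⟨c, hc, e⟩ := exists_to_y P hx h2 h1 hz
  have hcz := conj_fix_iff.2 hc
  have hw' : c * w * c⁻¹ ∈ Qf z := P.toSetting.conj_mem_Q hc hw
  have hwy : c * w * c⁻¹ ∈ Qf y := by rw [← e]; exact conj_mem_Qf P hwx
  obtain ⟨a, b, he⟩ := P.D_cases hw' hwy
  have he' : w = zp z a * zp x b := by
    have hw0 : w = c⁻¹ * (c * w * c⁻¹) * c := by group
    rw [he] at hw0
    rw [hw0]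
    rcases z2_cases a with rfl | rfl <;> rcases z2_cases b with rfl | rfl <;>
      simp only [zp_zero, zp_one, mul_one, one_mul]
    · group
    · rw [← e]; group
    · conv_lhs => rw [← hcz]
      group
    · conv_lhs => rw [← hcz, ← e]
      group
  rcases z2_cases a with rfl | rfl <;> rcases z2_cases b with rfl | rfl <;>
    simp only [zp_zero, zp_one, mul_one, one_mul] at he' <;> simp [he']

/-- Triangles lie on lines. -/
theorem trio {u x w : G} (hu : Pt z u) (hx : x ∈ Qf u) (h2 : x * x = 1) (h1 : x ≠ 1) (hxu : x ≠ u)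
    (hw : w ∈ Qf u) (hwx : w ∈ Qf x) : w = 1 ∨ w = u ∨ w = x ∨ w = u * x := by
  obtain ⟨g, rfl⟩ := hu
  have hm : ∀ {a : G}, a ∈ Qf (g * z * g⁻¹) → g⁻¹ * a * g⁻¹⁻¹ ∈ Qf z := fun ha => by
    have := conj_mem_Qf P (c := g⁻¹) ha
    rwa [show g⁻¹ * (g * z * g⁻¹) * g⁻¹⁻¹ = z by group] at this
  obtain ⟨e2, e1⟩ := P.toSetting.conj_involution (c := g⁻¹) h2 h1
  have hz : g⁻¹ * x * g⁻¹⁻¹ ≠ z := fun e => hxu (by rw [← e]; group)
  have hb : ∀ a b : G, g⁻¹ * a * g⁻¹⁻¹ = b → a = g * b * g⁻¹ := fun a b e => by rw [← e]; group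
  rcases inter_z P (hm hx) e2 e1 hz (hm hw) (conj_mem_Qf P hwx) with e | e | e | e
  · exact Or.inl (by rw [hb _ _ e]; group)
  · exact Or.inr (Or.inl (hb _ _ e))
  · exact Or.inr (Or.inr (Or.inl (by rw [hb _ _ e]; group)))
  · exact Or.inr (Or.inr (Or.inr (by rw [hb _ _ e]; group)))

/-- An involution over a nontrivial Siegel map times a lift off its line is not conjugate to `z`. -/
theorem not_pt_mul {s u : G} (hs : inWy z Qf y s) (hu : inW z Qf y u) (hw0 : wS ρ s ≠ 0)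
    (hq : q (wS ρ s) = 0) (hb : bl (θ u) (wS ρ s) = 0) (hqu : q (θ u) = 0) (hm0 : md (θ u) ≠ 0)
    (hmw : md (θ u) ≠ wS ρ s) : ¬ Pt z (s * u) := by
  intro hp
  obtain ⟨s₁, u₁, T1⟩ := P.exists_rep_of mid_e2V e3V
  obtain ⟨c, -, -, e⟩ := P.orbit_e T1 hs hu hw0 hq hb hqu hm0 hmw
  exact P.not_isConj_t1 T1 (hp.isConj.trans (isConj_iff.2 ⟨c, e⟩))

theorem q_wS_zero {t : G} (ht : inWy z Qf y t) (ht2 : t * t = 1) : q (wS ρ t) = 0 := by
  have e := P.sq_wS ht
  rw [ht2] at e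
  rcases z2_cases (q (wS ρ t)) with a | a
  · exact a
  · rw [a, zp_one] at e; exact absurd e.symm P.goody.ne_one

theorem inW_inv_ne {x : G} (hx : x ∈ Qf z) (h0 : md (θ x) = 0) :
    x = 1 ∨ x = z ∨ x = y ∨ x = z * y := by
  have hd := md_decomp (θ x)
  rw [h0, zero_add] at hd
  rcases z2_cases (θ x (.inl 0)) with a | a <;> rw [a] at hd
  · rcases (P.θ_ker x hx).1 (by simpa using hd) with e | e
    exacts [Or.inl e, Or.inr (Or.inl e)]
  · rw [one_smul, ← P.θy] at hd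
    rcases P.toSetting.eq_or_of_θ hx P.y_mem hd with e | e
    exacts [Or.inr (Or.inr (Or.inl e)), Or.inr (Or.inr (Or.inr e))]

/-- A further point of `Qf z` whose group contains an element of the second half. -/
theorem second_point {t x : G} (ht : inWy z Qf y t) (ht2 : t * t = 1) (htQ : t ∉ Qf z)
    (hx : x ∈ Qf z) (hx2 : x * x = 1) (hne : md (θ x) ≠ 0) (htx : t ∈ Qf x) :
    inW z Qf y x ∧ md (θ x) = wS ρ t ∧ t * y ∈ Qf (z * x) := by
  have hw0 : wS ρ t ≠ 0 := fun e => htQ (P.mem_of_wS_zero ht e)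
  have ht1 : t ≠ 1 := fun e => htQ (e ▸ one_mem _)
  have hx1 : x ≠ 1 := fun e => hne (by rw [e, P.toSetting.θ_one, md_zero])
  have hpx : Pt z x := pt_of_mem_z P hx hx2 hx1
  have hpt : Pt z t := pt_of_mem P (pt_y P) ht.1 ht2 ht1
  have hxt : x ∈ Qf t := pt_symm P hpx hpt htx
  have hyt : y ∈ Qf t := pt_symm P (pt_y P) hpt ht.1
  have hxy : x * y = y * x := by
    rcases (Pt.good P hpt).cases_conj x hxt y hyt with e | e
    · exact conj_fix_iff.1 e
    · exfalso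
      rcases P.toSetting.good.cases_conj x hx y P.y_mem with e' | e' <;> rw [e] at e'
      · exact ht1 (mul_eq_right.1 e')
      · exact htQ (by rw [mul_right_cancel e']; exact P.toSetting.z_mem)
  have hW : inW z Qf y x := ⟨hx, hxy⟩
  have hbe := (P.W_iff hx).1 hW
  have hb : bl (θ x) (wS ρ t) = 0 := by
    have e := P.comm_eq ht hW
    have htx' : t * x = x * t := (Pt.good P hpx).comm t htx
    rw [htx', show x * t * t⁻¹ * x⁻¹ = 1 by group] at e
    rcases z2_cases (bl (θ x) (wS ρ t)) with a | a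
    · exact a
    · rw [a, zp_one, zp_one] at e
      have e' : θ (z * y) = 0 := by rw [← e, P.toSetting.θ_one]
      rw [P.toSetting.θ_z_mul P.y_mem, P.θy] at e'
      exact absurd e' (by decide)
  have hmw : md (θ x) = wS ρ t := by
    by_contra hmw
    refine not_pt_mul P ht hW hw0 (q_wS_zero P ht ht2) hb ((P.θ_sq x hx).1 hx2) hne hmw ?_
    refine pt_of_mem P hpx ((Qf x).mul_mem htx (Pt.good P hpx).mem) ?_ ?_
    · calc t * x * (t * x) = t * (x * t) * x := by group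
        _ = t * (t * x) * x := by rw [← (Pt.good P hpx).comm t htx]
        _ = 1 := by rw [← mul_assoc t t, ht2, one_mul, hx2]
    · intro e
      exact htQ (by rw [eq_inv_of_mul_eq_one_left e]; exact (Qf z).inv_mem hx)
  refine ⟨hW, hmw, ?_⟩
  obtain ⟨hM, -⟩ := P.wS_spec ht
  obtain ⟨v, hv, hv1⟩ : ∃ v, Mid v ∧ bl (wS ρ t) v = 1 := by
    by_contra hn
    push Not at hn
    exact hw0 (mid_nondeg _ hM fun v hv => (z2_cases _).resolve_right (hn v hv))
  obtain ⟨r, hrW, hθr⟩ := P.exists_W v hv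
  have hbr : bl (θ r) (wS ρ t) = 1 := by rw [hθr, bl_comm]; exact hv1
  have e := P.comm_eq ht hrW
  rw [hbr, zp_one, zp_one] at e
  have hrx : r * x * r⁻¹ = z * x := by
    rw [P.toSetting.conj_eq hrW.1 hx, show bl (θ r) (θ x) = 1 by
      rw [bl_comm, ← bl_md_left ((P.W_iff hrW.1).1 hrW), hmw, bl_comm, hbr], zp_one]
  have hrt : r * t * r⁻¹ = t * (z * y) := by
    have e' : r⁻¹ * t⁻¹ * r * t = z * y := by
      have hc : (z * y) * r = r * (z * y) :=
        ((Commute.mul_right (show Commute r z from P.toSetting.comm_z hrW.1) hrW.2).symm).eq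
      calc r⁻¹ * t⁻¹ * r * t = r⁻¹ * t⁻¹ * (t * r * t⁻¹ * r⁻¹)⁻¹ * t * r := by group
        _ = _ := ?_
      rw [e, show (z * y)⁻¹ = z * y from inv_eq_of_mul_eq_one_right (by
        rw [mul_assoc, ← mul_assoc y, P.yz_comm, mul_assoc z, P.y_sq, mul_one, P.toSetting.z_sq])]
      have hct : (z * y) * t = t * (z * y) :=
        ((Commute.mul_right (show Commute t z from ht.2) (P.goody.comm t ht.1)).symm).eq
      calc r⁻¹ * t⁻¹ * (z * y) * t * r = r⁻¹ * t⁻¹ * (z * y * t) * r := by group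
        _ = r⁻¹ * (z * y * r) := by rw [hct]; group
        _ = z * y := by rw [hc]; group
    calc r * t * r⁻¹ = t * (t⁻¹ * r * t * r⁻¹) := by group
      _ = t * (r * (r⁻¹ * t⁻¹ * r * t) * r⁻¹) := by group
      _ = t * (z * y) := by
        rw [e']
        congr 1
        exact conj_fix_iff.2 (Commute.mul_right (show Commute r z from P.toSetting.comm_z hrW.1) hrW.2)
  have h3 : t * (z * y) ∈ Qf (z * x) := by rw [← hrt, ← hrx]; exact conj_mem_Qf P htx
  have hpzx : Pt z (z * x) := by rw [← hrx]; exact hpx.conj r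
  have hz' : z ∈ Qf (z * x) :=
    pt_symm P pt_self hpzx ((Qf z).mul_mem P.toSetting.z_mem hx)
  have := (Qf (z * x)).mul_mem h3 hz'
  rwa [mul_assoc, mul_assoc z y z, P.yz_comm, ← mul_assoc z z, P.toSetting.z_sq, one_mul] at this

/-- Every lift of the parameter of an involution of the second half gives a point. -/
theorem line_lift {t x : G} (ht : inWy z Qf y t) (ht2 : t * t = 1) (htQ : t ∉ Qf z)
    (hx : x ∈ Qf z) (hθx : md (θ x) = wS ρ t) : t ∈ Qf x ∨ t ∈ Qf (z * x) := by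
  have hw0 : wS ρ t ≠ 0 := fun e => htQ (P.mem_of_wS_zero ht e)
  obtain ⟨hM, et⟩ := P.wS_spec ht
  have hq := q_wS_zero P ht ht2
  obtain ⟨y₂, s, R⟩ := P.exists_root (a := wS ρ t) (p := eV) hq hw0 (by rw [bl_comm]; exact hM.bl_eV)
  have hρs : ρ s = Te (wS ρ t) hM.bl_eV := by
    rw [Te, T_symm q_eV hq hM.bl_eV]
    exact CfsgLib.ClassicalForms.orth_ext fun v => by
      change ap (ρ s) v = ap (T _ _ _ _) v
      rw [R.act, ap_T]
  have hs2 : s * s = 1 := by rw [R.sq, q_eV, zp_zero]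
  have hs1 : s ∉ Qf z := fun e => by
    have h1 := P.toSetting.ρ_of_mem e
    rw [hρs] at h1
    have h2 := (Te_eq_iff hM.bl_eV (bl_zero_right eV)).1 (h1.trans (Te_zero).symm)
    rw [md_of_mid hM, md_zero] at h2
    exact hw0 h2
  have hy2p : Pt z y₂ := pt_of_mem_z P R.memQ ((P.θ_sq _ R.memQ).2 (by rw [R.θy, hq]))
    fun e => hw0 (by rw [← R.θy, e, P.toSetting.θ_one])
  have hsp : Pt z s := pt_of_mem P hy2p R.mem hs2 fun e => hs1 (e ▸ one_mem _)
  obtain ⟨u, hu, hsu, hbu, hqu⟩ := P.decompose hM hw0 R.comm hs2 hρs ht rfl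
  rw [hq] at hbu hqu
  have hy2z : z ∈ Qf y₂ := pt_symm P pt_self hy2p R.memQ
  obtain ⟨b, hb⟩ : ∃ b : ZMod 2, t * zp y b ∈ Qf y₂ := by
    have hcase : md (θ u) = 0 ∨ md (θ u) = wS ρ t := by
      by_contra hn
      push Not at hn
      exact not_pt_mul P ht hu hw0 hq hbu hqu hn.1 hn.2 (hsu ▸ hsp)
    have key : ∀ d : ZMod 2, md (θ (u * zp y₂ d)) = 0 → ∃ b : ZMod 2, t * zp y b ∈ Qf y₂ := by
      intro d h0
      have hud : u * zp y₂ d ∈ Qf z := (Qf z).mul_mem hu.1 (zp_mem R.memQ d)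
      have hs' : t * (u * zp y₂ d) ∈ Qf y₂ := by
        rw [← mul_assoc, ← hsu]
        exact (Qf y₂).mul_mem R.mem (zp_mem R.good.mem d)
      rcases inW_inv_ne P hud h0 with e | e | e | e <;> rw [e] at hs'
      · exact ⟨0, by simpa using hs'⟩
      · exact ⟨0, by simpa [mul_assoc, P.toSetting.z_sq] using (Qf y₂).mul_mem hs' hy2z⟩
      · exact ⟨1, by simpa using hs'⟩
      · refine ⟨1, ?_⟩
        have := (Qf y₂).mul_mem hs' hy2z
        rw [zp_one]
        rwa [mul_assoc, mul_assoc z y z, P.yz_comm, ← mul_assoc z z, P.toSetting.z_sq,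
          one_mul] at this
    rcases hcase with h0 | h0
    · exact key 0 (by rw [zp_zero, mul_one]; exact h0)
    · refine key 1 ?_
      rw [zp_one, P.θ_mul u hu.1 y₂ R.memQ, md_add, h0, R.θy, md_of_mid hM, vadd_self]
  obtain ⟨x₀, hx0, hx0θ, hx0t⟩ : ∃ x₀, x₀ ∈ Qf z ∧ md (θ x₀) = wS ρ t ∧ t ∈ Qf x₀ := by
    rcases z2_cases b with rfl | rfl
    · rw [zp_zero, mul_one] at hb
      exact ⟨y₂, R.memQ, by rw [R.θy, md_of_mid hM], hb⟩
    · rw [zp_one] at hb
      have hty : inWy z Qf y (t * y) := P.Wy_mul ht ⟨P.goody.mem, P.yz_comm⟩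
      have hc : t * y = y * t := P.goody.comm t ht.1
      have h2 : t * y * (t * y) = 1 := by
        rw [mul_assoc, ← mul_assoc y t y, ← hc, mul_assoc t y y, P.y_sq, mul_one, ht2]
      have hQ : t * y ∉ Qf z := fun e => htQ (by
        have := (Qf z).mul_mem e P.y_mem
        rwa [mul_assoc, P.y_sq, mul_one] at this)
      obtain ⟨-, -, h3⟩ := second_point P hty h2 hQ R.memQ
        ((P.θ_sq _ R.memQ).2 (by rw [R.θy, hq])) (by rw [R.θy, md_of_mid hM]; exact hw0) hb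
      rw [mul_assoc, P.y_sq, mul_one] at h3
      exact ⟨z * y₂, (Qf z).mul_mem P.toSetting.z_mem R.memQ,
        by rw [P.toSetting.θ_z_mul R.memQ, R.θy, md_of_mid hM], h3⟩
  have hx02 : x₀ * x₀ = 1 := (P.θ_sq _ hx0).2 (by
    have hd := md_decomp (θ x₀)
    rw [hd, hx0θ, q_add, hq, bl_smul_right, bl_comm, hM.bl_eV, mul_zero, zero_add, add_zero]
    rcases z2_cases (θ x₀ (.inl 0)) with a | a <;> rw [a] <;> simp [q_eV])
  have hne0 : md (θ x₀) ≠ 0 := by rw [hx0θ]; exact hw0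
  have hp0 : Pt z x₀ := pt_of_mem_z P hx0 hx02 fun e => hne0 (by rw [e, P.toSetting.θ_one, md_zero])
  have hpt : Pt z t := pt_of_mem P (pt_y P) ht.1 ht2 fun e => htQ (e ▸ one_mem _)
  have hyx : t ∈ Qf (y * x₀) := by
    have hy0 := second_point P ht ht2 htQ hx0 hx02 hne0 hx0t
    have hyQ : y * x₀ ∈ Qf z := (Qf z).mul_mem P.y_mem hx0
    refine pt_symm P hpt (pt_of_mem_z P hyQ ?_ ?_)
      ((Qf t).mul_mem (pt_symm P (pt_y P) hpt ht.1) (pt_symm P hp0 hpt hx0t))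
    · rw [mul_assoc, ← mul_assoc x₀ y x₀, hy0.1.2, mul_assoc y x₀ x₀, hx02, mul_one, P.y_sq]
    · intro e
      apply hne0
      rw [show x₀ = y⁻¹ from (inv_eq_of_mul_eq_one_right e).symm, P.toSetting.θ_inv P.y_mem, P.θy,
        md_eV]
  have hrest : ∀ v ∈ Qf z, t ∈ Qf v → θ x = θ v → t ∈ Qf x ∨ t ∈ Qf (z * x) := by
    intro v hv htv e
    rcases P.toSetting.eq_or_of_θ hx hv e with e' | e' <;> rw [e']
    · exact Or.inl htv
    · exact Or.inr (by rw [← mul_assoc, P.toSetting.z_sq, one_mul]; exact htv)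
  have hd := md_decomp (θ x)
  have hd0 := md_decomp (θ x₀)
  rw [hθx] at hd
  rw [hx0θ] at hd0
  by_cases hc : θ x (.inl 0) = θ x₀ (.inl 0)
  · exact hrest x₀ hx0 hx0t (by rw [hd, hd0, hc])
  · refine hrest (y * x₀) ((Qf z).mul_mem P.y_mem hx0) hyx ?_
    rw [P.θ_mul y P.y_mem x₀ hx0, P.θy, hd, hd0]
    rcases z2_cases (θ x (.inl 0)) with a | a <;> rcases z2_cases (θ x₀ (.inl 0)) with a' | a' <;>
      rw [a, a'] at hc ⊢ <;> first | exact absurd rfl hc | skip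
    · rw [zero_smul, one_smul, add_zero, add_left_comm, vadd_self, add_zero]
    · rw [one_smul, zero_smul, add_zero, add_comm]

end CfsgLib.ConwayType.Golay
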