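import Cfsg.Agent.Lib.ConwayType.Golay.Incidence

/-!
Distinguished lifts of the root maps along totally singular lines, their classes, and the position
of their images under the element interchanging `z` and `y`.
-/

set_option autoImplicit false
set_option linter.unusedSectionVars false
set_option maxRecDepth 100000
set_option synthInstance.maxSize 1000
set_option maxHeartbeats 4000000

namespace CfsgLib.ConwayType.Golay

open CfsgLib.ExtraspecialLarge CfsgLib.ConwayType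

variable {G : Type*} [Group G] [Finite G]
variable {z : G} {Qf : G → Subgroup G} {θ : G → V} {ρ : G → O} {J : Subgroup O} {y h : G}

/-- Two lifts spanning a totally singular line. -/
structure LinePair (z : G) (Qf : G → Subgroup G) (θ : G → V) (Xa Xb : G) : Prop where
  ma : Xa ∈ Qf z
  mb : Xb ∈ Qf z
  qa : q (θ Xa) = 0
  qb : q (θ Xb) = 0
  orth : bl (θ Xa) (θ Xb) = 0
  a0 : θ Xa ≠ 0
  b0 : θ Xb ≠ 0
  ne : θ Xa ≠ θ Xb

/-- An involution outside `Qf z` in the groups of two points. -/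
structure OctLift (z : G) (Qf : G → Subgroup G) (Xa Xb t : G) : Prop where
  comm : t * z = z * t
  sq : t * t = 1
  notMem : t ∉ Qf z
  memA : t ∈ Qf Xa
  memB : t ∈ Qf Xb

theorem OctLift.swap {Xa Xb t : G} (T : OctLift z Qf Xa Xb t) : OctLift z Qf Xb Xa t :=
  ⟨T.comm, T.sq, T.notMem, T.memB, T.memA⟩

theorem LinePair.swap {Xa Xb : G} (L : LinePair z Qf θ Xa Xb) : LinePair z Qf θ Xb Xa :=
  ⟨L.mb, L.ma, L.qb, L.qa, by rw [bl_comm]; exact L.orth, L.b0, L.a0, L.ne.symm⟩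

variable (P : PairSetting z Qf θ ρ J y h)
include P

theorem lift_spec {X : G} (hX : X ∈ Qf z) (hq : q (θ X) = 0) (h0 : θ X ≠ 0) :
    X * X = 1 ∧ X ≠ 1 ∧ X ≠ z ∧ Pt z X := by
  have h2 := (P.θ_sq X hX).2 hq
  have h1 : X ≠ 1 := fun e => h0 (by rw [e, P.toSetting.θ_one])
  exact ⟨h2, h1, fun e => h0 (by rw [e, P.toSetting.θ_z]), pt_of_mem_z P hX h2 h1⟩

theorem LinePair.shift {Xa Xb : G} (L : LinePair z Qf θ Xa Xb) : LinePair z Qf θ Xa (z * Xb) := by
  have e := P.toSetting.θ_z_mul L.mb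
  exact ⟨L.ma, (Qf z).mul_mem P.toSetting.z_mem L.mb, L.qa, by rw [e]; exact L.qb,
    by rw [e]; exact L.orth, L.a0, by rw [e]; exact L.b0, by rw [e]; exact L.ne⟩

theorem LinePair.prod {Xa Xb : G} (L : LinePair z Qf θ Xa Xb) :
    LinePair z Qf θ Xa (Xa * Xb) := by
  have e := P.θ_mul _ L.ma _ L.mb
  refine ⟨L.ma, (Qf z).mul_mem L.ma L.mb, L.qa, ?_, ?_, L.a0, ?_, ?_⟩
  · rw [e, q_add, L.qa, L.qb, L.orth, add_zero, add_zero]
  · rw [e, bl_add_right, bl_self, L.orth, add_zero]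
  · rw [e]; exact fun e' => L.ne (vadd_eq_zero.1 e')
  · rw [e]; exact fun e' => L.b0 (left_eq_add.1 e')

/-- The frame of a point and an element in its group. -/
theorem exists_frame_of {X t : G} (hX : X ∈ Qf z) (hq : q (θ X) = 0) (h0 : θ X ≠ 0)
    (htz : t * z = z * t) (htX : t ∈ Qf X) :
    ∃ c, c * z = z * c ∧ c * X * c⁻¹ = y ∧ inWy z Qf y (c * t * c⁻¹) ∧ ap (ρ c) (θ X) = eV := by
  obtain ⟨h2, h1, hz, -⟩ := lift_spec P hX hq h0
  obtain ⟨c, hc, e⟩ := exists_to_y P hX h2 h1 hz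
  refine ⟨c, hc, e, ⟨?_, comm_mul (comm_mul hc htz) (comm_inv hc)⟩, ?_⟩
  · rw [← e]; exact conj_mem_Qf P htX
  · rw [← P.ρ_act c hc X hX, e, P.θy]

theorem frame_notMem {c t : G} (hc : c * z = z * c) (htQ : t ∉ Qf z) : c * t * c⁻¹ ∉ Qf z :=
  fun e => htQ (conj_mem_Qf' P (c := c) (by rwa [conj_fix_iff.2 hc]))

/-- The two points determine the image and give the rule of halves. -/
theorem points_rule {Xa Xb t : G} (L : LinePair z Qf θ Xa Xb) (T : OctLift z Qf Xa Xb t) :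
    ρ t = CfsgLib.ConwayType.T (θ Xa) (θ Xb) L.qa L.orth ∧ t * Xa ∈ Qf (z * Xb) := by
  obtain ⟨c, hc, e, ht', hca⟩ := exists_frame_of P L.ma L.qa L.a0 T.comm T.memA
  have hmB := P.toSetting.conj_mem_Q hc L.mb
  have hθB := P.ρ_act c hc Xb L.mb
  obtain ⟨hb2, hb1, -, -⟩ := lift_spec P L.mb L.qb L.b0
  obtain ⟨ht2, -⟩ := P.toSetting.conj_involution (c := c) T.sq (fun e => T.notMem (e ▸ one_mem _))
  have hne : md (θ (c * Xb * c⁻¹)) ≠ 0 := by
    intro h0
    have hd := md_decomp (θ (c * Xb * c⁻¹))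
    rw [h0, zero_add, hθB] at hd
    rcases z2_cases (θ (c * Xb * c⁻¹) (.inl 0)) with a | a
    · rw [hθB] at a; rw [a, zero_smul] at hd
      exact L.b0 (ap_inj (ρ c) (hd.trans (ap_zero _).symm))
    · rw [hθB] at a; rw [a, one_smul, ← hca] at hd
      exact L.ne (ap_inj (ρ c) hd).symm
  obtain ⟨hW, hmd, hrule⟩ := second_point P ht' ht2 (frame_notMem P hc T.notMem) hmB
    (P.toSetting.conj_involution (c := c) hb2 hb1).1 hne (conj_mem_Qf P T.memB)
  constructor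
  · obtain ⟨hM, et⟩ := P.wS_spec ht'
    have hgb : bl eV (ap (ρ c) (θ Xb)) = 0 := by rw [← hθB]; exact (P.W_iff hmB).1 hW
    have h1 : ρ (c * t * c⁻¹) = Te (ap (ρ c) (θ Xb)) hgb := by
      rw [et, Te_md hgb]
      exact Te_congr (by rw [← hmd, hθB]) _ _
    rw [P.toSetting.ρ_conj hc T.comm] at h1
    calc ρ t = (ρ c)⁻¹ * (ρ c * ρ t * (ρ c)⁻¹) * (ρ c)⁻¹⁻¹ := by group
      _ = _ := by
        rw [h1, Te, conj_T]
        exact T_congr (by rw [← hca, ap_inv_ap]) (by rw [ap_inv_ap]) _ _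
  · refine conj_mem_Qf' P (c := c) ?_
    rwa [show c * (t * Xa) * c⁻¹ = c * t * c⁻¹ * (c * Xa * c⁻¹) by group,
      show c * (z * Xb) * c⁻¹ = c * z * c⁻¹ * (c * Xb * c⁻¹) by group, e, conj_fix_iff.2 hc]

theorem octLift_ρ {Xa Xb t : G} (L : LinePair z Qf θ Xa Xb) (T : OctLift z Qf Xa Xb t) :
    ρ t = CfsgLib.ConwayType.T (θ Xa) (θ Xb) L.qa L.orth := (points_rule P L T).1

theorem OctLift.shift {Xa Xb t : G} (L : LinePair z Qf θ Xa Xb) (T : OctLift z Qf Xa Xb t) :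
    OctLift z Qf Xa (z * Xb) (t * Xa) := by
  obtain ⟨ha2, -, -, hpa⟩ := lift_spec P L.ma L.qa L.a0
  have hc := (Pt.good P hpa).comm t T.memA
  refine ⟨comm_mul T.comm (P.toSetting.comm_z L.ma), ?_, ?_,
    (Qf Xa).mul_mem T.memA (Pt.good P hpa).mem, (points_rule P L T).2⟩
  · rw [mul_assoc, ← mul_assoc Xa t Xa, ← hc, mul_assoc t Xa Xa, ha2, mul_one, T.sq]
  · intro e
    apply T.notMem
    have := (Qf z).mul_mem e L.ma
    rwa [mul_assoc, ha2, mul_one] at this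

/-- An element over the root map of the line in the group of a point is, for either lift of the
other point, in its group or in that of the other lift. -/
theorem lift_or {Xa Xb t : G} (L : LinePair z Qf θ Xa Xb) (htz : t * z = z * t) (ht2 : t * t = 1)
    (htQ : t ∉ Qf z) (htA : t ∈ Qf Xa)
    (hρ : ρ t = CfsgLib.ConwayType.T (θ Xa) (θ Xb) L.qa L.orth) :
    t ∈ Qf Xb ∨ t ∈ Qf (z * Xb) := by
  obtain ⟨c, hc, e, ht', hca⟩ := exists_frame_of P L.ma L.qa L.a0 htz htA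
  have hθB := P.ρ_act c hc Xb L.mb
  have hgb : bl eV (ap (ρ c) (θ Xb)) = 0 := by rw [← hca, bl_ap, L.orth]
  have hw : wS ρ (c * t * c⁻¹) = md (θ (c * Xb * c⁻¹)) := by
    rw [hθB]
    refine P.wS_eq (w := ap (ρ c) (θ Xb)) hgb ?_
    rw [P.toSetting.ρ_conj hc htz, hρ, conj_T, Te]
    exact T_congr hca rfl _ _
  rcases line_lift P ht'
    (P.toSetting.conj_involution (c := c) ht2 (fun e => htQ (e ▸ one_mem _))).1
    (frame_notMem P hc htQ) (P.toSetting.conj_mem_Q hc L.mb) hw.symm with h1 | h1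
  · exact Or.inl (conj_mem_Qf' P (c := c) h1)
  · refine Or.inr (conj_mem_Qf' P (c := c) ?_)
    rwa [show c * (z * Xb) * c⁻¹ = c * z * c⁻¹ * (c * Xb * c⁻¹) by group, conj_fix_iff.2 hc]

theorem T_ne_one {a b : V} (hqa : q a = 0) (hab : bl a b = 0) (ha0 : a ≠ 0) (hb0 : b ≠ 0)
    (hne : a ≠ b) : CfsgLib.ConwayType.T a b hqa hab ≠ 1 := by
  obtain ⟨g, hg, hge⟩ := P.half.exists_transport hqa ha0
  intro e
  have hgb : bl eV (ap g⁻¹ b) = 0 := by rw [← bl_ap g, hge, ap_ap_inv, hab]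
  have h1 : Te (ap g⁻¹ b) hgb = 1 := by
    have h2 : g⁻¹ * CfsgLib.ConwayType.T a b hqa hab * g⁻¹⁻¹ = 1 := by rw [e]; group
    rw [conj_T] at h2
    rw [← h2, Te]
    exact T_congr (by rw [← hge, ap_inv_ap]) rfl _ _
  have h3 := (Te_eq_iff hgb (bl_zero_right eV)).1 (h1.trans Te_zero.symm)
  rw [md_zero] at h3
  have hd := md_decomp (ap g⁻¹ b)
  rw [h3, zero_add] at hd
  rcases z2_cases (ap g⁻¹ b (.inl 0)) with a' | a' <;> rw [a'] at hd
  · rw [zero_smul] at hd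
    exact hb0 (ap_inj g⁻¹ (hd.trans (ap_zero _).symm))
  · rw [one_smul] at hd
    exact hne (by rw [← hge, ← hd, ap_ap_inv])

theorem octLift_exists {Xa Xb : G} (L : LinePair z Qf θ Xa Xb) :
    ∃ t, OctLift z Qf Xa Xb t := by
  obtain ⟨y₂, s, R⟩ := P.exists_root L.qa L.a0 L.orth
  have hs2 : s * s = 1 := by rw [R.sq, L.qb, zp_zero]
  obtain ⟨t, htz, ht2, htA, hρ⟩ : ∃ t, t * z = z * t ∧ t * t = 1 ∧ t ∈ Qf Xa ∧
      ρ t = CfsgLib.ConwayType.T (θ Xa) (θ Xb) L.qa L.orth := by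
    have hρs : ρ s = CfsgLib.ConwayType.T (θ Xa) (θ Xb) L.qa L.orth :=
      CfsgLib.ClassicalForms.orth_ext fun v => by
        change ap (ρ s) v = ap (CfsgLib.ConwayType.T _ _ _ _) v
        rw [R.act, ap_T]
    rcases P.toSetting.eq_or_of_θ L.ma R.memQ R.θy.symm with e | e
    · exact ⟨s, R.comm, hs2, e ▸ R.mem, hρs⟩
    obtain ⟨v, hv⟩ : ∃ v, bl v (θ Xa) = 1 := by
      by_contra hn
      push Not at hn
      obtain ⟨g, hg, hge⟩ := P.half.exists_transport L.qa L.a0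
      have h1 := (z2_cases _).resolve_right (hn (ap g fV))
      rw [← hge, bl_ap] at h1
      exact absurd h1 (by decide)
    obtain ⟨r, hr, hθr⟩ := P.θ_surj v
    have hrz := P.toSetting.comm_z hr
    have hry : r * y₂ * r⁻¹ = Xa := by
      rw [P.toSetting.conj_eq hr R.memQ, hθr, R.θy, hv, zp_one, ← e]
    refine ⟨r * s * r⁻¹, comm_mul (comm_mul hrz R.comm) (comm_inv hrz), ?_,
      hry ▸ conj_mem_Qf P R.mem, ?_⟩
    · rw [show r * s * r⁻¹ * (r * s * r⁻¹) = r * (s * s) * r⁻¹ by group, hs2]; group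
    · rw [P.toSetting.ρ_conj hrz R.comm, P.toSetting.ρ_of_mem hr, one_mul, inv_one, mul_one, hρs]
  have htQ : t ∉ Qf z := fun e => by
    have h1 := P.toSetting.ρ_of_mem e
    rw [hρ] at h1
    exact T_ne_one P _ _ L.a0 L.b0 L.ne h1
  rcases lift_or P L htz ht2 htQ htA hρ with h1 | h1
  · exact ⟨t, htz, ht2, htQ, htA, h1⟩
  · refine ⟨t * Xa, ?_⟩
    have := OctLift.shift P (LinePair.shift P L) ⟨htz, ht2, htQ, htA, h1⟩
    rwa [← mul_assoc, P.toSetting.z_sq, one_mul] at this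

theorem octLift_unique {Xa Xb t t' : G} (L : LinePair z Qf θ Xa Xb) (T₁ : OctLift z Qf Xa Xb t)
    (T₂ : OctLift z Qf Xa Xb t') : t' = t ∨ t' = z * t := by
  obtain ⟨ha2, ha1, haz, -⟩ := lift_spec P L.ma L.qa L.a0
  obtain ⟨hb2, hb1, hbz, -⟩ := lift_spec P L.mb L.qb L.b0
  have he : t' * t⁻¹ ∈ Qf z := by
    refine (P.ρ_ker _ (comm_mul T₂.comm (comm_inv T₁.comm))).1 ?_
    rw [P.toSetting.ρ_mul T₂.comm (comm_inv T₁.comm), P.toSetting.ρ_inv T₁.comm, octLift_ρ P L T₂,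
      octLift_ρ P L T₁, mul_inv_cancel]
  have hA := inter_z P L.ma ha2 ha1 haz he ((Qf Xa).mul_mem T₂.memA ((Qf Xa).inv_mem T₁.memA))
  have hB := inter_z P L.mb hb2 hb1 hbz he ((Qf Xb).mul_mem T₂.memB ((Qf Xb).inv_mem T₁.memB))
  have hθ : θ (t' * t⁻¹) = 0 := by
    have h1 : θ (t' * t⁻¹) = 0 ∨ θ (t' * t⁻¹) = θ Xa := by
      rcases hA with e | e | e | e <;> rw [e]
      · exact Or.inl P.toSetting.θ_one
      · exact Or.inl P.toSetting.θ_z
      · exact Or.inr rfl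
      · exact Or.inr (P.toSetting.θ_z_mul L.ma)
    have h2 : θ (t' * t⁻¹) = 0 ∨ θ (t' * t⁻¹) = θ Xb := by
      rcases hB with e | e | e | e <;> rw [e]
      · exact Or.inl P.toSetting.θ_one
      · exact Or.inl P.toSetting.θ_z
      · exact Or.inr rfl
      · exact Or.inr (P.toSetting.θ_z_mul L.mb)
    rcases h1 with e | e
    · exact e
    · rcases h2 with e' | e'
      · exact e'
      · exact absurd (e.symm.trans e') L.ne
  rcases (P.θ_ker _ he).1 hθ with e | e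
  · exact Or.inl (mul_inv_eq_one.1 e)
  · exact Or.inr (mul_inv_eq_iff_eq_mul.1 e)

/-- Commutation of the lift with the lifts orthogonal to the line. -/
theorem octLift_comm {Xa Xb t x : G} (L : LinePair z Qf θ Xa Xb) (T : OctLift z Qf Xa Xb t)
    (hx : x ∈ Qf z) (hxa : bl (θ x) (θ Xa) = 0) (hxb : bl (θ x) (θ Xb) = 0) : t * x = x * t := by
  obtain ⟨c, hc, e, ht', hca⟩ := exists_frame_of P L.ma L.qa L.a0 T.comm T.memA
  have hx' := P.toSetting.conj_mem_Q hc hx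
  have hθx := P.ρ_act c hc x hx
  have hW : inW z Qf y (c * x * c⁻¹) := (P.W_iff hx').2 (by rw [hθx, ← hca, bl_ap, bl_comm, hxa])
  have hgb : bl eV (ap (ρ c) (θ Xb)) = 0 := by rw [← hca, bl_ap, L.orth]
  have hw : wS ρ (c * t * c⁻¹) = md (ap (ρ c) (θ Xb)) := by
    refine P.wS_eq (w := ap (ρ c) (θ Xb)) hgb ?_
    rw [P.toSetting.ρ_conj hc T.comm, octLift_ρ P L T, conj_T, Te]
    exact T_congr hca rfl _ _
  have he := P.comm_eq ht' hW
  have hb0 : bl (θ (c * x * c⁻¹)) (wS ρ (c * t * c⁻¹)) = 0 := by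
    rw [hw, bl_comm, bl_md_left ((P.W_iff hx').1 hW), hθx, bl_ap, bl_comm, hxb]
  rw [hb0, zp_zero, zp_zero, one_mul, mul_inv_eq_one] at he
  have h' := mul_inv_eq_iff_eq_mul.1 he
  calc t * x = c⁻¹ * (c * t * c⁻¹ * (c * x * c⁻¹)) * c := by group
    _ = c⁻¹ * (c * x * c⁻¹ * (c * t * c⁻¹)) * c := by rw [h']
    _ = x * t := by group

/-- A lift times an element off its line is not a conjugate of `z`. -/
theorem not_pt_off {Xa Xb t e : G} (L : LinePair z Qf θ Xa Xb) (T : OctLift z Qf Xa Xb t)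
    (he : e ∈ Qf z) (hq : q (θ e) = 0) (hea : bl (θ e) (θ Xa) = 0) (heb : bl (θ e) (θ Xb) = 0)
    (h0 : θ e ≠ 0) (h1 : θ e ≠ θ Xa) (h2 : θ e ≠ θ Xb) (h3 : θ e ≠ θ Xa + θ Xb) :
    ¬ Pt z (t * e) := by
  obtain ⟨c, hc, ey, ht', hca⟩ := exists_frame_of P L.ma L.qa L.a0 T.comm T.memA
  have he' := P.toSetting.conj_mem_Q hc he
  have hθe := P.ρ_act c hc e he
  have hge : bl eV (θ (c * e * c⁻¹)) = 0 := by rw [hθe, ← hca, bl_ap, bl_comm, hea]
  have hgb : bl eV (ap (ρ c) (θ Xb)) = 0 := by rw [← hca, bl_ap, L.orth]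
  have hw : wS ρ (c * t * c⁻¹) = md (ap (ρ c) (θ Xb)) := by
    refine P.wS_eq (w := ap (ρ c) (θ Xb)) hgb ?_
    rw [P.toSetting.ρ_conj hc T.comm, octLift_ρ P L T, conj_T, Te]
    exact T_congr hca rfl _ _
  intro hp
  have hp' := hp.conj c
  rw [show c * (t * e) * c⁻¹ = c * t * c⁻¹ * (c * e * c⁻¹) by group] at hp'
  refine not_pt_mul P ht' ((P.W_iff he').2 hge) ?_ ?_ ?_ ?_ ?_ ?_ hp'
  · intro hz
    exact frame_notMem P hc T.notMem (P.mem_of_wS_zero ht' hz)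
  · rw [hw, q_md hgb, q_ap, L.qb]
  · rw [hw, bl_comm, bl_md_left hge, hθe, bl_ap, bl_comm, heb]
  · rw [hθe, q_ap, hq]
  · intro hm
    have hd := md_decomp (θ (c * e * c⁻¹))
    rw [hm, zero_add] at hd
    rcases z2_cases (θ (c * e * c⁻¹) (.inl 0)) with a | a <;> rw [a, hθe] at hd
    · exact h0 (ap_inj (ρ c) (by rw [hd, ap_zero, zero_smul]))
    · exact h1 (ap_inj (ρ c) (by rw [hd, hca, one_smul]))
  · intro hm
    rw [hw, hθe] at hm
    have hd := md_decomp (ap (ρ c) (θ e + θ Xb))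
    rw [ap_add, md_add, hm, vadd_self, zero_add] at hd
    rcases z2_cases ((ap (ρ c) (θ e) + ap (ρ c) (θ Xb)) (.inl 0)) with a | a <;> rw [a] at hd
    · rw [zero_smul, vadd_eq_zero] at hd
      exact h2 (ap_inj (ρ c) hd)
    · rw [one_smul] at hd
      refine h3 (ap_inj (ρ c) ?_)
      rw [ap_add, hca, ← hd, add_assoc, vadd_self, add_zero]

/-- Membership in the group of a point for a lift times an element of its line. -/
theorem mem_point_of_span {Xa Xb t e : G} (L : LinePair z Qf θ Xa Xb) (T : OctLift z Qf Xa Xb t)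
    (he : e ∈ Qf z) (hv : θ e = 0 ∨ θ e = θ Xa ∨ θ e = θ Xb ∨ θ e = θ Xa + θ Xb) :
    Commute t e ∧ (t * e ∈ Qf Xa ∨ t * e ∈ Qf (z * Xa)) := by
  obtain ⟨ha2, ha1, -, hpa⟩ := lift_spec P L.ma L.qa L.a0
  obtain ⟨hb2, hb1, -, hpb⟩ := lift_spec P L.mb L.qb L.b0
  have hmA : (z * Xa) ∈ Qf z := (Qf z).mul_mem P.toSetting.z_mem L.ma
  obtain ⟨-, -, -, hpza⟩ := lift_spec P hmA (by rw [P.toSetting.θ_z_mul L.ma]; exact L.qa)
    (by rw [P.toSetting.θ_z_mul L.ma]; exact L.a0)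
  have hzA : z ∈ Qf Xa := pt_symm P pt_self hpa L.ma
  have hzA' : z ∈ Qf (z * Xa) := pt_symm P pt_self hpza hmA
  have ctz : Commute t z := T.comm
  have cta : Commute t Xa := (Pt.good P hpa).comm t T.memA
  have ctb : Commute t Xb := (Pt.good P hpb).comm t T.memB
  have haA' : Xa ∈ Qf (z * Xa) := by
    have := (Qf (z * Xa)).mul_mem hzA' (Pt.good P hpza).mem
    rwa [← mul_assoc, P.toSetting.z_sq, one_mul] at this
  have hbr := (OctLift.shift P L.swap T.swap).memB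
  have hin : ∀ w : G, θ w = 0 → w ∈ Qf z → Commute t w ∧ w ∈ Qf Xa ∧ w ∈ Qf (z * Xa) := by
    intro w h0 hw
    rcases (P.θ_ker w hw).1 h0 with rfl | rfl
    · exact ⟨Commute.one_right t, one_mem _, one_mem _⟩
    · exact ⟨ctz, hzA, hzA'⟩
  rcases hv with h | h | h | h
  · obtain ⟨c, m, -⟩ := hin e h he
    exact ⟨c, Or.inl ((Qf Xa).mul_mem T.memA m)⟩
  · obtain ⟨c, m, -⟩ := hin (e * Xa) (by rw [P.θ_mul e he Xa L.ma, h, vadd_self])
      ((Qf z).mul_mem he L.ma)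
    have e' : e = e * Xa * Xa := by rw [mul_assoc, ha2, mul_one]
    rw [e']
    exact ⟨c.mul_right cta, Or.inl ((Qf Xa).mul_mem T.memA ((Qf Xa).mul_mem m (Pt.good P hpa).mem))⟩
  · obtain ⟨c, -, m⟩ := hin (Xb * e) (by rw [P.θ_mul Xb L.mb e he, h, vadd_self])
      ((Qf z).mul_mem L.mb he)
    have e' : e = Xb * (Xb * e) := by rw [← mul_assoc, hb2, one_mul]
    rw [e']
    refine ⟨ctb.mul_right c, Or.inr ?_⟩
    rw [← mul_assoc]
    exact (Qf (z * Xa)).mul_mem hbr m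
  · obtain ⟨c, -, m⟩ := hin (Xb * e * Xa) (by
        rw [P.θ_mul _ ((Qf z).mul_mem L.mb he) Xa L.ma, P.θ_mul Xb L.mb e he, h,
          show θ Xb + (θ Xa + θ Xb) + θ Xa = (θ Xb + θ Xb) + (θ Xa + θ Xa) by abel, vadd_self,
          vadd_self, add_zero])
      ((Qf z).mul_mem ((Qf z).mul_mem L.mb he) L.ma)
    have e' : e = Xb * (Xb * e * Xa) * Xa := by
      rw [mul_assoc Xb e Xa, ← mul_assoc Xb Xb, hb2, one_mul, mul_assoc, ha2, mul_one]
    rw [e']
    refine ⟨(ctb.mul_right c).mul_right cta, Or.inr ?_⟩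
    rw [← mul_assoc, ← mul_assoc]
    exact (Qf (z * Xa)).mul_mem ((Qf (z * Xa)).mul_mem hbr m) haA'

/-- A lift times an element of its line is a conjugate of `z`. -/
theorem pt_on {Xa Xb t e : G} (L : LinePair z Qf θ Xa Xb) (T : OctLift z Qf Xa Xb t)
    (he : e ∈ Qf z) (hq : q (θ e) = 0)
    (hv : θ e = 0 ∨ θ e = θ Xa ∨ θ e = θ Xb ∨ θ e = θ Xa + θ Xb) : Pt z (t * e) := by
  obtain ⟨hc, hm⟩ := mem_point_of_span P L T he hv
  have h2 : t * e * (t * e) = 1 := by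
    rw [hc.symm.mul_mul_mul_comm, T.sq, (P.θ_sq e he).2 hq, one_mul]
  have h1 : t * e ≠ 1 := fun h => T.notMem (by
    rw [eq_inv_of_mul_eq_one_left h]; exact (Qf z).inv_mem he)
  obtain ⟨-, -, -, hpa⟩ := lift_spec P L.ma L.qa L.a0
  obtain ⟨-, -, -, hpza⟩ := lift_spec P ((Qf z).mul_mem P.toSetting.z_mem L.ma)
    (by rw [P.toSetting.θ_z_mul L.ma]; exact L.qa) (by rw [P.toSetting.θ_z_mul L.ma]; exact L.a0)
  rcases hm with hm | hm
  · exact pt_of_mem P hpa hm h2 h1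
  · exact pt_of_mem P hpza hm h2 h1

/-- The classes of the elements over the root map of a line centralised by the lifts of the line. -/
theorem pt_mul_iff {Xa Xb t e : G} (L : LinePair z Qf θ Xa Xb) (T : OctLift z Qf Xa Xb t)
    (he : e ∈ Qf z) (hq : q (θ e) = 0) (hea : bl (θ e) (θ Xa) = 0) (heb : bl (θ e) (θ Xb) = 0) :
    Pt z (t * e) ↔ (θ e = 0 ∨ θ e = θ Xa ∨ θ e = θ Xb ∨ θ e = θ Xa + θ Xb) := by
  refine ⟨fun hp => ?_, pt_on P L T he hq⟩
  by_contra hn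
  push Not at hn
  exact not_pt_off P L T he hq hea heb hn.1 hn.2.1 hn.2.2.1 hn.2.2.2 hp

/-- The rule of halves at an arbitrary centre. -/
theorem rule_at {u X Y k : G} (hu : Pt z u) (hX : X ∈ Qf u) (hY : Y ∈ Qf u) (hX2 : X * X = 1)
    (hX1 : X ≠ 1) (hXu : X ≠ u) (hY2 : Y * Y = 1) (hY1 : Y ≠ 1) (hYu : Y ≠ u) (hYX : Y ≠ X)
    (hYuX : Y ≠ u * X) (hXY : X * Y = Y * X) (hk : k * u = u * k) (hk2 : k * k = 1) (hkQ : k ∉ Qf u)
    (hkX : k ∈ Qf X) (hkY : k ∈ Qf Y) : k * X ∈ Qf (u * Y) := by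
  obtain ⟨g, rfl⟩ := hu
  set c : G → G := fun a => g⁻¹ * a * g⁻¹⁻¹ with hc
  have hcz : c (g * z * g⁻¹) = z := by simp only [hc]; group
  have hcm : ∀ {a b : G}, a ∈ Qf b → c a ∈ Qf (c b) := fun ha => conj_mem_Qf P ha
  have hci : ∀ {a b : G}, c a = c b → a = b := fun e => by
    simpa [hc] using e
  have hcmul : ∀ a b : G, c (a * b) = c a * c b := fun a b => by simp only [hc]; group
  have hc1 : c 1 = 1 := by simp only [hc]; group
  have hX' : c X ∈ Qf z := hcz ▸ hcm hX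
  have hY' : c Y ∈ Qf z := hcz ▸ hcm hY
  have sX : c X * c X = 1 := by rw [← hcmul, hX2, hc1]
  have sY : c Y * c Y = 1 := by rw [← hcmul, hY2, hc1]
  have hne : ∀ {a b : G}, a ≠ b → c a ≠ c b := fun h e => h (hci e)
  have L : LinePair z Qf θ (c X) (c Y) := by
    refine ⟨hX', hY', (P.θ_sq _ hX').1 sX, (P.θ_sq _ hY').1 sY,
      P.toSetting.bl_of_comm hX' hY' (by rw [← hcmul, ← hcmul, hXY]), ?_, ?_, ?_⟩
    · intro e
      rcases (P.θ_ker _ hX').1 e with h | h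
      · exact hne hX1 (h.trans hc1.symm)
      · exact hne hXu (h.trans hcz.symm)
    · intro e
      rcases (P.θ_ker _ hY').1 e with h | h
      · exact hne hY1 (h.trans hc1.symm)
      · exact hne hYu (h.trans hcz.symm)
    · intro e
      rcases P.toSetting.eq_or_of_θ hY' hX' e.symm with h | h
      · exact hne hYX h
      · exact hne hYuX (by rw [h, hcmul, hcz])
  have T : OctLift z Qf (c X) (c Y) (c k) := by
    refine ⟨?_, by rw [← hcmul, hk2, hc1], fun e => hkQ ?_, hcm hkX, hcm hkY⟩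
    · rw [← hcz, ← hcmul, ← hcmul, hk]
    · rw [← hcz] at e; exact conj_mem_Qf' P e
  have h3 := (points_rule P L T).2
  rw [← hcz, ← hcmul, ← hcmul] at h3
  exact conj_mem_Qf' P h3

omit [Finite G] P in
theorem exists_dual {a b : V} (ha : Mid a) (hb : Mid b) (ha0 : a ≠ 0) (hne : a ≠ b) :
    ∃ v, bl v a = 1 ∧ bl v b = 0 ∧ bl eV v = 0 := by
  have hex : ∀ {w : V}, Mid w → w ≠ 0 → ∃ v, Mid v ∧ bl v w = 1 := by
    intro w hw hw0
    by_contra hn
    push Not at hn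
    exact hw0 (mid_nondeg w hw fun v hv => by
      rw [bl_comm]; exact (z2_cases _).resolve_right (hn v hv))
  obtain ⟨v₁, hm₁, h₁⟩ := hex ha ha0
  rcases z2_cases (bl v₁ b) with e | e
  · exact ⟨v₁, h₁, e, hm₁.bl_eV⟩
  obtain ⟨v₂, hm₂, h₂⟩ := hex (ha.add hb) fun h => hne (vadd_eq_zero.1 h)
  rw [bl_add_right] at h₂
  rcases z2_cases (bl v₂ a) with e' | e' <;> rw [e'] at h₂
  · rw [zero_add] at h₂
    exact ⟨v₁ + v₂, by rw [bl_add_left, h₁, e', add_zero],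
      by rw [bl_add_left, e, h₂, CharTwo.add_self_eq_zero], (hm₁.add hm₂).bl_eV⟩
  · refine ⟨v₂, e', ?_, hm₂.bl_eV⟩
    rcases z2_cases (bl v₂ b) with f | f
    · exact f
    · rw [f, CharTwo.add_self_eq_zero] at h₂; exact absurd h₂ zero_ne_one

/-- The image of a lift under the interchanging element is no root map on a line meeting `⟨eV, a'⟩`. -/
theorem quadrangle {Xa Xb t : G} (L : LinePair z Qf θ Xa Xb) (T : OctLift z Qf Xa Xb t)
    (hWa : inW z Qf y Xa) (hWb : inW z Qf y Xb) {a' b' : V} (ha : wS ρ (h * Xa * h⁻¹) = a')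
    (hb : wS ρ (h * Xb * h⁻¹) = b') (ha0 : a' ≠ 0) (hb0 : b' ≠ 0) (hne : a' ≠ b') (μ ν : ZMod 2) :
    ∀ (hp : q (a' + μ • eV) = 0) (hpp : bl (a' + μ • eV) (b' + ν • eV) = 0),
      ρ (h * t * h⁻¹) ≠ CfsgLib.ConwayType.T (a' + μ • eV) (b' + ν • eV) hp hpp := by
  intro hp hpp hρ
  have hty : t * y = y * t := octLift_comm P L T P.y_mem
    (by rw [P.θy]; exact (P.W_iff L.ma).1 hWa) (by rw [P.θy]; exact (P.W_iff L.mb).1 hWb)
  obtain ⟨ha2, ha1, haz, hpa⟩ := lift_spec P L.ma L.qa L.a0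
  obtain ⟨hb2, hb1, hbz, hpb⟩ := lift_spec P L.mb L.qb L.b0
  set K := h * Xa * h⁻¹ with hK
  set Kb := h * Xb * h⁻¹ with hKb
  set k := h * t * h⁻¹ with hk
  have hKW : inWy z Qf y K := P.W_to_Wy hWa
  have hKbW : inWy z Qf y Kb := P.W_to_Wy hWb
  obtain ⟨hK2, hK1⟩ := P.toSetting.conj_involution (c := h) ha2 ha1
  obtain ⟨hKb2, -⟩ := P.toSetting.conj_involution (c := h) hb2 hb1
  obtain ⟨hMa, eK⟩ := P.wS_spec hKW
  rw [ha] at hMa
  have hMb : Mid b' := hb ▸ (P.wS_spec hKbW).1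
  have hqa : q a' = 0 := ha ▸ q_wS_zero P hKW hK2
  have hqb : q b' = 0 := hb ▸ q_wS_zero P hKbW hKb2
  have hkz : k * z = z * k := PairSetting.conj_comm (g := h) rfl P.hy hty
  have hky : k * y = y * k := PairSetting.conj_comm (g := h) rfl P.hz T.comm
  have hk2 : k * k = 1 := (P.toSetting.conj_involution (c := h) T.sq
    (fun e => T.notMem (e ▸ one_mem _))).1
  have hkK : k ∈ Qf K := conj_mem_Qf P T.memA
  have hmdp : md (a' + μ • eV) = a' := by
    rw [md_add, md_smul, md_eV, smul_zero, add_zero, md_of_mid hMa]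
  have hmdp' : md (b' + ν • eV) = b' := by
    rw [md_add, md_smul, md_eV, smul_zero, add_zero, md_of_mid hMb]
  set p := a' + μ • eV with hp_def
  set p' := b' + ν • eV with hp'_def
  have hqp' : q p' = 0 := by
    rw [hp'_def, q_add, hqb, bl_smul_right, bl_comm, hMb.bl_eV, mul_zero, zero_add, add_zero]
    rcases z2_cases ν with e | e <;> rw [e] <;> simp [q_eV]
  have hp0 : p ≠ 0 := fun e => ha0 (by rw [← hmdp, e, md_zero])
  have hp'0 : p' ≠ 0 := fun e => hb0 (by rw [← hmdp', e, md_zero])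
  have hpne : p ≠ p' := fun e => hne (by rw [← hmdp, e, hmdp'])
  have hKQ : K ∉ Qf z := fun e => ha0 (by rw [← ha]; exact P.wS_of_mem e)
  have hkQ : k ∉ Qf z := fun e => T_ne_one P hp hpp hp0 hp'0 hpne
    (hρ.symm.trans (P.toSetting.ρ_of_mem e))
  -- the two root maps differ
  have hdiff : ρ k ≠ ρ K := by
    intro e
    obtain ⟨v, hva, hvb, hve⟩ := exists_dual hMa hMb ha0 hne
    have hve' : bl v eV = 0 := by rw [bl_comm]; exact hve
    have h1 := congrArg (fun g => ap g v) e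
    simp only [hρ, eK, ap_T, Te, ha] at h1
    simp only [sgf_eq, hve', hqp', zero_mul, mul_zero, add_zero, zero_smul] at h1
    simp only [hp_def, hp'_def, bl_add_right, bl_smul_right, hva, hvb, hve', mul_zero, add_zero,
      zero_smul, one_smul, mul_one, zero_add] at h1
    rw [← hp'_def, ← hp_def, hqp', zero_smul, add_zero] at h1
    have h2 := congrArg md (add_left_cancel h1)
    rw [hmdp', md_eV] at h2
    exact hb0 h2
  -- `k` over its line
  obtain ⟨Zp, hZp, hθZp⟩ := P.θ_surj p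
  obtain ⟨Zp', hZp', hθZp'⟩ := P.θ_surj p'
  have Lp : LinePair z Qf θ Zp Zp' := ⟨hZp, hZp', by rw [hθZp]; exact hp, by rw [hθZp']; exact hqp',
    by rw [hθZp, hθZp']; exact hpp, by rw [hθZp]; exact hp0, by rw [hθZp']; exact hp'0,
    by rw [hθZp, hθZp']; exact hpne⟩
  obtain ⟨s₀, S₀⟩ := octLift_exists P Lp
  have hρ₀ : ρ s₀ = ρ k := by
    rw [octLift_ρ P Lp S₀, hρ]
    exact T_congr hθZp hθZp' _ _
  set e := s₀ * k with he_def
  have hke : k = s₀ * e := by rw [he_def, ← mul_assoc, S₀.sq, one_mul]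
  have he : e ∈ Qf z := by
    refine (P.ρ_ker _ (comm_mul S₀.comm hkz)).1 ?_
    rw [P.toSetting.ρ_mul S₀.comm hkz, hρ₀, ← P.toSetting.ρ_mul hkz hkz, hk2, P.toSetting.ρ_one]
  have hfix : ap (ρ s₀) (θ e) = θ e := by
    rw [← P.ρ_act s₀ S₀.comm e he, show s₀ * e * s₀⁻¹ = e⁻¹ by
      rw [mul_inv_eq_iff_eq_mul]
      calc s₀ * e = e⁻¹ * (e * (s₀ * e)) := by group
        _ = e⁻¹ * s₀ := by
          congr 1
          calc e * (s₀ * e) = s₀⁻¹ * (s₀ * e * (s₀ * e)) := by group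
            _ = s₀ := by rw [← hke, hk2, mul_one, inv_eq_of_mul_eq_one_right S₀.sq],
      P.toSetting.θ_inv he]
  rw [octLift_ρ P Lp S₀, ap_T, sgf_eq] at hfix
  simp only [hθZp, hθZp', hqp', zero_mul, add_zero] at hfix
  have hb12 : bl (θ e) p = 0 ∧ bl (θ e) p' = 0 := by
    rw [add_assoc, add_eq_left] at hfix
    have h3 := congrArg md hfix
    rw [md_add, md_smul, md_smul, hmdp, hmdp', md_zero] at h3
    rcases z2_cases (bl (θ e) p) with f | f <;> rcases z2_cases (bl (θ e) p') with f' | f' <;>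
      rw [f, f'] at h3 ⊢
    · exact ⟨rfl, rfl⟩
    · rw [zero_smul, one_smul, zero_add] at h3; exact absurd h3 ha0
    · rw [zero_smul, one_smul, add_zero] at h3; exact absurd h3 hb0
    · rw [one_smul, one_smul, vadd_eq_zero] at h3; exact absurd h3.symm hne
  have hea : bl (θ e) (θ Zp) = 0 := by rw [hθZp]; exact hb12.1
  have heb : bl (θ e) (θ Zp') = 0 := by rw [hθZp']; exact hb12.2
  have hse := octLift_comm P Lp S₀ he hea heb
  have hqe : q (θ e) = 0 := (P.θ_sq e he).1 (by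
    rw [← hk2, hke, (show Commute s₀ e from hse).symm.mul_mul_mul_comm, S₀.sq, one_mul])
  have hpK : Pt z K := (pt_of_mem_z P L.ma ha2 ha1).conj h
  have hpk : Pt z (s₀ * e) := hke ▸ pt_of_mem P hpK hkK hk2 fun e' => hkQ (e' ▸ one_mem _)
  obtain ⟨-, hmem⟩ := mem_point_of_span P Lp S₀ he ((pt_mul_iff P Lp S₀ he hqe hea heb).1 hpk)
  obtain ⟨u, hu, hθu, hku⟩ : ∃ u, u ∈ Qf z ∧ θ u = p ∧ k ∈ Qf u := by
    rw [← hke] at hmem
    rcases hmem with m | m
    · exact ⟨Zp, hZp, hθZp, m⟩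
    · exact ⟨z * Zp, (Qf z).mul_mem P.toSetting.z_mem hZp,
        by rw [P.toSetting.θ_z_mul hZp, hθZp], m⟩
  -- no point over `p` has both in its group
  have hnot : ∀ w, w ∈ Qf z → θ w = p → K ∈ Qf w → k ∉ Qf w := by
    intro w hw hθw hKw hkw
    obtain ⟨hw2, -, -, hpw⟩ := lift_spec P hw (by rw [hθw]; exact hp) (by rw [hθw]; exact hp0)
    rcases trio P hpw hKw hK2 hK1 (fun e' => hKQ (e' ▸ hw)) hkw hkK with e' | e' | e' | e'
    · exact hkQ (e' ▸ one_mem _)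
    · exact hkQ (e' ▸ hw)
    · exact hdiff (by rw [e'])
    · exact hdiff (by rw [e', P.toSetting.ρ_mul (P.toSetting.comm_z hw) hKW.2,
        P.toSetting.ρ_of_mem hw, one_mul])
  rcases line_lift P hKW hK2 hKQ hu (by rw [hθu, hmdp, ha]) with hKu | hKu
  · exact hnot u hu hθu hKu hku
  have hu' : z * u ∈ Qf z := (Qf z).mul_mem P.toSetting.z_mem hu
  have hθu' : θ (z * u) = p := by rw [P.toSetting.θ_z_mul hu, hθu]
  obtain ⟨hu2, hu1, huz, hpu⟩ := lift_spec P hu (by rw [hθu]; exact hp) (by rw [hθu]; exact hp0)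
  obtain ⟨-, -, -, hpu'⟩ := lift_spec P hu' (by rw [hθu']; exact hp) (by rw [hθu']; exact hp0)
  have huu' : u ∈ Qf (z * u) := by
    have := (Qf (z * u)).mul_mem (pt_symm P pt_self hpu' hu') (Pt.good P hpu').mem
    rwa [← mul_assoc, P.toSetting.z_sq, one_mul] at this
  have hzu : z * u * u = z := by rw [mul_assoc, hu2, mul_one]
  have cKz : Commute K z := hKW.2
  have cKu : Commute K u := by
    have := cKz.mul_right (show Commute K (z * u) from (Pt.good P hpu').comm K hKu)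
    rwa [← mul_assoc, P.toSetting.z_sq, one_mul] at this
  have ckz : Commute k z := hkz
  have hr := rule_at P hpu' hKu huu' hK2 hK1 (fun e' => hKQ (e' ▸ hu')) hu2 hu1
    (fun e' => P.toSetting.z_ne (by rw [← hzu]; nth_rewrite 1 [← e']; exact hu2))
    (fun e' => hKQ (e' ▸ hu)) ?_ cKu.eq (ckz.mul_right ((Pt.good P hpu).comm k hku)).eq hk2
    (hnot _ hu' hθu' hKu) hkK hku
  · rw [hzu] at hr
    have h4 := P.toSetting.ρ_of_mem hr
    rw [P.toSetting.ρ_mul hkz hKW.2] at h4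
    refine hdiff ?_
    rw [eq_inv_of_mul_eq_one_left h4, inv_eq_of_mul_eq_one_right]
    rw [← P.toSetting.ρ_mul hKW.2 hKW.2, hK2, P.toSetting.ρ_one]
  · intro e'
    refine hKQ ?_
    rw [show K = (z * u)⁻¹ * u by rw [eq_inv_mul_iff_mul_eq]; exact e'.symm]
    exact (Qf z).mul_mem ((Qf z).inv_mem hu') hu

end CfsgLib.ConwayType.Golay
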