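import Cfsg.Agent.Lib.ConwayType.Golay.LeviModel

/-!
A complement to `⟨z⟩` over the second four-space, and root lifts normalising it taken from the
conjugates of an elementary abelian group over the first four-space.
-/

set_option autoImplicit false
set_option linter.unusedSectionVars false
set_option maxRecDepth 100000
set_option synthInstance.maxSize 1000
set_option maxHeartbeats 4000000

namespace CfsgLib.ConwayType.Golay

open CfsgLib.ExtraspecialLarge CfsgLib.ConwayType CfsgLib.ConwayType.Golay.Unitriangular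

variable {G : Type*} [Group G] [Finite G]
variable {z : G} {Qf : G → Subgroup G} {θ : G → V} {ρ : G → O} {J : Subgroup O}

/-- An elementary abelian group in the centraliser over the first four-space, with all root maps in it. -/
structure EGroup (z : G) (Qf : G → Subgroup G) (θ : G → V) (ρ : G → O) (A : Subgroup G) : Prop where
  sq : ∀ a ∈ A, a * a = 1
  comm : ∀ a ∈ A, a * z = z * a
  memQ : ∀ x ∈ Qf z, InE (θ x) → x ∈ A
  fix : ∀ a ∈ A, ∀ v, InE v → ap (ρ a) v = v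
  root : ∀ u v (hu : InE u) (hv : InE v), u ≠ 0 →
    ∃ a ∈ A, ρ a = T u v (root_ok hu hv).1 (root_ok hu hv).2.2

/-- A complement to `⟨z⟩` over the second four-space. -/
structure FBase (z : G) (Qf : G → Subgroup G) (θ : G → V) (F₀ : Subgroup G) : Prop where
  le : F₀ ≤ Qf z
  inF : ∀ x ∈ F₀, InF (θ x)
  inj : ∀ x ∈ F₀, θ x = 0 → x = 1
  surj : ∀ v, InF v → ∃ x ∈ F₀, θ x = v
  card : Nat.card F₀ = 16
  gen : ∀ K : Subgroup G, (∀ x ∈ F₀, ∀ k, θ x = fvec k → x ∈ K) → F₀ ≤ K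

theorem inF_iff : ∀ v : V, InF v ↔ v = vec 0 0 0 0 (v (.inr 0)) (v (.inr 1)) (v (.inr 2)) (v (.inr 3)) := by
  intro v
  refine ⟨fun h => ?_, fun h => by rw [h]; intro i; fin_cases i <;> rfl⟩
  conv_lhs => rw [eq_vec v, h 0, h 1, h 2, h 3]

theorem InF.bl {u v : V} (hu : InF u) (hv : InF v) : CfsgLib.ConwayType.bl u v = 0 := by
  simp [CfsgLib.ConwayType.bl, hu 0, hu 1, hu 2, hu 3, hv 0, hv 1, hv 2, hv 3]

variable (S : Setting z Qf θ ρ J)
include S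

theorem exists_fBase : ∃ F₀ : Subgroup G, FBase z Qf θ F₀ := by
  classical
  choose φ hφ hφθ using fun k => S.θ_surj (fvec k)
  have hsq : ∀ k, φ k * φ k = 1 := fun k => (S.θ_sq _ (hφ k)).2 (by rw [hφθ]; exact (fvec_ok k).2)
  have hcomm : ∀ k l, φ k * φ l = φ l * φ k := fun k l =>
    S.comm_of_bl (hφ k) (hφ l) (by rw [hφθ, hφθ]; exact (fvec_ok k).1.bl (fvec_ok l).1)
  have hc : ∀ k l s t, Commute (zp (φ k) s) (zp (φ l) t) := fun k l s t =>
    zp_comm (zp_comm (hcomm l k) s).symm t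
  let f : Multiplicative (Fin 4 → ZMod 2) →* G :=
    { toFun := fun t => zp (φ 0) (t.toAdd 0) * zp (φ 1) (t.toAdd 1) * zp (φ 2) (t.toAdd 2) *
        zp (φ 3) (t.toAdd 3)
      map_one' := by simp
      map_mul' := fun s t => by
        simp only [toAdd_mul, Pi.add_apply, zp_add (hsq _)]
        rw [(hc 0 1 _ _).mul_mul_mul_comm, ((hc 0 2 _ _).mul_left (hc 1 2 _ _)).mul_mul_mul_comm,
          (((hc 0 3 _ _).mul_left (hc 1 3 _ _)).mul_left (hc 2 3 _ _)).mul_mul_mul_comm] }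
  have hmem : ∀ t, f t ∈ Qf z := fun t => (Qf z).mul_mem ((Qf z).mul_mem ((Qf z).mul_mem
    (zp_mem (hφ 0) _) (zp_mem (hφ 1) _)) (zp_mem (hφ 2) _)) (zp_mem (hφ 3) _)
  have hzθ : ∀ k s, θ (zp (φ k) s) = s • fvec k := by
    intro k s
    rcases z2_cases s with rfl | rfl
    · rw [zp_zero, S.θ_one, zero_smul]
    · rw [zp_one, one_smul, hφθ]
  have hθ : ∀ t : Multiplicative (Fin 4 → ZMod 2),
      θ (f t) = vec 0 0 0 0 (t.toAdd 0) (t.toAdd 1) (t.toAdd 2) (t.toAdd 3) := by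
    intro t
    show θ (_ * _ * _ * _) = _
    rw [S.θ_mul _ ((Qf z).mul_mem ((Qf z).mul_mem (zp_mem (hφ 0) _) (zp_mem (hφ 1) _)) (zp_mem (hφ 2) _)) _
      (zp_mem (hφ 3) _), S.θ_mul _ ((Qf z).mul_mem (zp_mem (hφ 0) _) (zp_mem (hφ 1) _)) _ (zp_mem (hφ 2) _),
      S.θ_mul _ (zp_mem (hφ 0) _) _ (zp_mem (hφ 1) _), hzθ, hzθ, hzθ, hzθ]
    funext i
    rcases i with i | i <;> fin_cases i <;> simp [fvec, fV, f2V, f3V, f4V, vec]
  have hker : ∀ t, θ (f t) = 0 → t = 1 := by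
    intro t h
    rw [hθ] at h
    refine Multiplicative.toAdd.injective (funext fun i => ?_)
    have := congrFun h (.inr i)
    fin_cases i <;> simpa [vec] using this
  have hinj : Function.Injective f := by
    rw [injective_iff_map_eq_one]
    exact fun t h => hker t (by rw [h, S.θ_one])
  refine ⟨f.range, ⟨?_, ?_, ?_, ?_, ?_, ?_⟩⟩
  · rintro _ ⟨t, rfl⟩; exact hmem t
  · rintro _ ⟨t, rfl⟩ i; rw [hθ]; fin_cases i <;> rfl
  · rintro _ ⟨t, rfl⟩ h; rw [hker t h, map_one]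
  · intro v hv
    refine ⟨f (Multiplicative.ofAdd fun i => v (.inr i)), ⟨_, rfl⟩, ?_⟩
    rw [hθ]; exact ((inF_iff v).1 hv).symm
  · rw [Nat.card_congr (MonoidHom.ofInjective hinj).toEquiv.symm, Nat.card_congr Multiplicative.toAdd]
    simp
  · intro K hK
    have hφK : ∀ k, φ k ∈ K := by
      intro k
      refine hK _ ⟨Multiplicative.ofAdd (Pi.single k 1), ?_⟩ k (hφθ k)
      show _ * _ * _ * _ = φ k
      fin_cases k <;> simp [Pi.single_apply]
    rintro _ ⟨t, rfl⟩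
    exact K.mul_mem (K.mul_mem (K.mul_mem (zp_mem (hφK 0) _) (zp_mem (hφK 1) _)) (zp_mem (hφK 2) _))
      (zp_mem (hφK 3) _)

variable {F₀ : Subgroup G} (F : FBase z Qf θ F₀)
include F

theorem FBase.z_not_mem : z ∉ F₀ := fun h => S.z_ne (F.inj z h S.θ_z)

theorem FBase.cases_mem {x : G} (hx : x ∈ Qf z) (h : InF (θ x)) :
    ∃ s : ZMod 2, ∃ f ∈ F₀, θ f = θ x ∧ x = zp z s * f := by
  obtain ⟨f, hf, hfθ⟩ := F.surj _ h
  rcases S.eq_or_of_θ hx (F.le hf) hfθ.symm with e | e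
  · exact ⟨0, f, hf, hfθ, by rw [zp_zero, one_mul, e]⟩
  · exact ⟨1, f, hf, hfθ, by rw [zp_one, e]⟩

theorem FBase.inF_of_norm {x : G} (hx : x ∈ Qf z) (hn : x ∈ Subgroup.normalizer (F₀ : Set G)) :
    InF (θ x) := by
  refine inF_of_bl _ fun k => ?_
  obtain ⟨f, hf, hfθ⟩ := F.surj _ (fvec_ok k).1
  have h1 : x * f * x⁻¹ ∈ F₀ := (Subgroup.mem_normalizer_iff.mp hn f).1 hf
  rw [S.conj_eq hx (F.le hf)] at h1
  rcases z2_cases (bl (θ x) (fvec k)) with e | e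
  · exact e
  · rw [hfθ, e, zp_one, F₀.mul_mem_cancel_right hf] at h1
    exact absurd h1 (F.z_not_mem S)

omit S in
theorem FBase.norm_of_gen {c : G} (h : ∀ k, ∀ f ∈ F₀, θ f = fvec k → c * f * c⁻¹ ∈ F₀) :
    c ∈ Subgroup.normalizer (F₀ : Set G) := by
  classical
  have hle : F₀ ≤ F₀.comap (MulAut.conj c).toMonoidHom := F.gen _ fun x hx k hk => by
    rw [Subgroup.mem_comap]
    exact h k x hx hk
  rw [Subgroup.mem_normalizer_iff]
  intro x
  refine ⟨fun hx => hle hx, fun hx => ?_⟩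
  let g : ↥F₀ → ↥F₀ := fun f => ⟨c * f * c⁻¹, hle f.2⟩
  have hg : Function.Surjective g := Finite.surjective_of_injective fun a b e => by
    have := congrArg Subtype.val e
    simp only [g, mul_left_inj, mul_right_inj] at this
    exact Subtype.ext this
  obtain ⟨f, hf⟩ := hg ⟨c * x * c⁻¹, hx⟩
  have := congrArg Subtype.val hf
  simp only [g, mul_left_inj, mul_right_inj] at this
  rw [← this]; exact f.2

variable {A : Subgroup G} (E : EGroup z Qf θ ρ A)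
include E

/-- Over each of the four-spaces, the root lifts normalising `F₀` form an elementary abelian group
modulo `F₀`. -/
theorem exists_good_group (p : V × V) (hp : p ∈ levPairs) :
    ∃ B : Subgroup G, (∀ b ∈ B, b * b = 1) ∧
      (∀ u v, InE (pf p u) → InE (pf p v) → (∀ w, InF w → InF (sgf u v w)) → u ≠ 0 →
        ∀ (hu : q u = 0) (huv : bl u v = 0),
          (∃ r, r * z = z * r ∧ r ∈ Subgroup.normalizer (F₀ : Set G) ∧ ρ r = T u v hu huv) ∧
          ∀ r, r * z = z * r → r ∈ Subgroup.normalizer (F₀ : Set G) → ρ r = T u v hu huv →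
            ∃ b ∈ B, b * z = z * b ∧ b ∈ Subgroup.normalizer (F₀ : Set G) ∧ b⁻¹ * r ∈ F₀) := by
  classical
  obtain ⟨h1, h2⟩ := levPairs_ok p hp
  obtain ⟨g, hg, hgx⟩ := S.half.exists_pair h1 h2
  obtain ⟨c, hc, rfl⟩ := S.ρ_surj g hg
  have hinv : ∀ v, ap (ρ c) (ap (ρ c) v) = v := fun v => by rw [hgx, hgx, levPairs_invol p hp]
  have hinv' : ∀ v, ap (ρ c)⁻¹ v = ap (ρ c) v := fun v => ap_inj (ρ c) (by rw [ap_ap_inv, hinv])
  set B := A.map (MulAut.conj c).toMonoidHom with hB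
  have hBmem : ∀ a ∈ A, c * a * c⁻¹ ∈ B := fun a ha => ⟨a, ha, rfl⟩
  have hBcases : ∀ b ∈ B, ∃ a ∈ A, b = c * a * c⁻¹ := by
    rintro _ ⟨a, ha, rfl⟩
    exact ⟨a, ha, rfl⟩
  have hBsq : ∀ b ∈ B, b * b = 1 := fun b hb => by
    obtain ⟨a, ha, rfl⟩ := hBcases b hb
    rw [show c * a * c⁻¹ * (c * a * c⁻¹) = c * (a * a) * c⁻¹ by group, E.sq a ha]; group
  have hBz : ∀ b ∈ B, b * z = z * b := fun b hb => by
    obtain ⟨a, ha, rfl⟩ := hBcases b hb
    exact comm_mul (comm_mul hc (E.comm a ha)) (comm_inv hc)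
  have hBab : ∀ a ∈ B, ∀ b ∈ B, a * b * a⁻¹ = b := fun a ha b hb => by
    have h := hBsq _ (B.mul_mem ha hb)
    have ha' : a⁻¹ = a := inv_eq_of_mul_eq_one_right (hBsq a ha)
    have hb' : b⁻¹ = b := inv_eq_of_mul_eq_one_right (hBsq b hb)
    rw [ha']
    calc a * b * a = (a * b * (a * b)) * b⁻¹ := by group
      _ = b := by rw [h, one_mul, hb']
  have hBQ : ∀ x ∈ Qf z, InE (pf p (θ x)) → x ∈ B := fun x hx h => by
    have hx' : c⁻¹ * x * c ∈ Qf z := by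
      have := S.conj_mem_Q (comm_inv hc) hx
      rwa [inv_inv] at this
    have hθ : θ (c⁻¹ * x * c) = pf p (θ x) := by
      have := S.ρ_act c⁻¹ (comm_inv hc) x hx
      rw [inv_inv, S.ρ_inv hc, hinv', hgx] at this
      exact this
    have := hBmem _ (E.memQ _ hx' (hθ.symm ▸ h))
    rwa [show c * (c⁻¹ * x * c) * c⁻¹ = x by group] at this
  refine ⟨B, hBsq, fun u v hu hv hF hu0 hqu huv => ?_⟩
  -- a lift of the root map
  have hu' : InE (ap (ρ c) u) := by rw [hgx]; exact hu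
  have hv' : InE (ap (ρ c) v) := by rw [hgx]; exact hv
  have hne : ap (ρ c) u ≠ 0 := fun e => hu0 (ap_inj (ρ c) (e.trans (ap_zero _).symm))
  obtain ⟨a, ha, hρa⟩ := E.root _ _ hu' hv' hne
  set b₀ := c * a * c⁻¹ with hb₀
  have hb₀B : b₀ ∈ B := hBmem a ha
  have hρb₀ : ρ b₀ = T u v hqu huv := by
    rw [hb₀, S.ρ_conj hc (E.comm a ha), hρa, conj_T, T_congr (hinv u) (hinv v)]
  choose φ hφ hφθ using fun k => F.surj _ (fvec_ok k).1
  have hφQ : ∀ k, φ k ∈ Qf z := fun k => F.le (hφ k)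
  have hcon : ∀ k, ∃ s : ZMod 2, ∃ f ∈ F₀, θ f = sgf u v (fvec k) ∧ b₀ * φ k * b₀⁻¹ = zp z s * f := by
    intro k
    have hQ := S.conj_mem_Q (hBz _ hb₀B) (hφQ k)
    have hθ : θ (b₀ * φ k * b₀⁻¹) = sgf u v (fvec k) := by
      rw [S.ρ_act _ (hBz _ hb₀B) _ (hφQ k), hφθ, hρb₀, ap_T]
    obtain ⟨s, f, hf, hfθ, e⟩ := F.cases_mem S hQ (by rw [hθ]; exact hF _ (fvec_ok k).1)
    exact ⟨s, f, hf, hfθ.trans hθ, e⟩
  choose d f hf hfθ hd using hcon
  have hd0 : ∀ k, InE (pf p (fvec k)) → d k = 0 := by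
    intro k hk
    have hφB : φ k ∈ B := hBQ _ (hφQ k) (by rw [hφθ]; exact hk)
    have e := hd k
    rw [hBab _ hb₀B _ hφB] at e
    rcases z2_cases (d k) with a | a
    · exact a
    · rw [a, zp_one] at e
      have : φ k * (f k)⁻¹ = z := mul_inv_eq_iff_eq_mul.2 e
      exact absurd (this ▸ F₀.mul_mem (hφ k) (F₀.inv_mem (hf k))) (F.z_not_mem S)
  obtain ⟨hcorr, hbl⟩ := corr_ok p hp d hd0
  obtain ⟨e, he, heθ⟩ := S.θ_surj (corr p d)
  have heB : e ∈ B := hBQ e he (heθ.symm ▸ hcorr)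
  have hbl' : ∀ k, bl (θ e) (θ (f k)) = d k := by
    intro k
    rw [heθ, hfθ, ← ap_T u v hqu huv, ← hbl k]
    have hfix : ap (T u v hqu huv) (corr p d) = corr p d := by
      rw [← hρb₀, ← heθ, ← S.ρ_act _ (hBz _ hb₀B) e he, hBab _ hb₀B _ heB]
    conv_lhs => rw [← hfix]
    rw [bl_ap]
  set b₁ := e * b₀ with hb₁
  have hb₁B : b₁ ∈ B := B.mul_mem heB hb₀B
  have hb₁z : b₁ * z = z * b₁ := hBz _ hb₁B
  have hρb₁ : ρ b₁ = T u v hqu huv := by
    rw [hb₁, S.ρ_mul (S.comm_z he) (hBz _ hb₀B), S.ρ_of_mem he, one_mul, hρb₀]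
  have hb₁N : b₁ ∈ Subgroup.normalizer (F₀ : Set G) := by
    refine F.norm_of_gen fun k x hx hxk => ?_
    have hxφ : x = φ k := by
      rcases S.eq_or_of_θ (F.le hx) (hφQ k) (hxk.trans (hφθ k).symm) with h | h
      · exact h
      · exact absurd (by rw [h] at hx; exact (F₀.mul_mem_cancel_right (hφ k)).1 hx) (F.z_not_mem S)
    rw [hxφ, hb₁, show e * b₀ * φ k * (e * b₀)⁻¹ = e * (b₀ * φ k * b₀⁻¹) * e⁻¹ by group, hd k,
      show e * (zp z (d k) * f k) * e⁻¹ = (e * zp z (d k) * e⁻¹) * (e * f k * e⁻¹) by group,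
      conj_fix_iff.2 (zp_comm (S.comm_z he) (d k)), S.conj_eq he (F.le (hf k)), hbl' k, ← mul_assoc,
      ← zp_add S.z_sq, CharTwo.add_self_eq_zero, zp_zero, one_mul]
    exact hf k
  refine ⟨⟨b₁, hb₁z, hb₁N, hρb₁⟩, fun r hrz hrN hρr => ?_⟩
  have hxz : b₁⁻¹ * r * z = z * (b₁⁻¹ * r) := comm_mul (comm_inv hb₁z) hrz
  have hxQ : b₁⁻¹ * r ∈ Qf z := (S.ρ_ker _ hxz).1 (by
    rw [S.ρ_mul (comm_inv hb₁z) hrz, S.ρ_inv hb₁z, hρb₁, hρr, inv_mul_cancel])
  have hxN : b₁⁻¹ * r ∈ Subgroup.normalizer (F₀ : Set G) := mul_mem (inv_mem hb₁N) hrN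
  obtain ⟨s, f', hf', -, hx⟩ := F.cases_mem S hxQ (F.inF_of_norm S hxQ hxN)
  have hzB : z ∈ B := hBQ z S.z_mem (by
    rw [S.θ_z, ← hgx, ap_zero]; exact fun i => rfl)
  have hzN : zp z s ∈ Subgroup.normalizer (F₀ : Set G) := by
    rw [Subgroup.mem_normalizer_iff]
    intro y
    refine ⟨fun hy => ?_, fun hy => ?_⟩
    · rwa [conj_fix_iff.2 (zp_comm (S.comm_z (F.le hy)) s).symm]
    · have hyQ : y ∈ Qf z := by
        have h := (Qf z).mul_mem ((Qf z).mul_mem ((Qf z).inv_mem (zp_mem S.z_mem s)) (F.le hy))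
          (zp_mem S.z_mem s)
        rwa [show (zp z s)⁻¹ * (zp z s * y * (zp z s)⁻¹) * zp z s = y by group] at h
      rwa [conj_fix_iff.2 (zp_comm (S.comm_z hyQ) s).symm] at hy
  refine ⟨b₁ * zp z s, B.mul_mem hb₁B (zp_mem hzB s), hBz _ (B.mul_mem hb₁B (zp_mem hzB s)),
    mul_mem hb₁N hzN, ?_⟩
  rw [show (b₁ * zp z s)⁻¹ * r = (zp z s)⁻¹ * (b₁⁻¹ * r) by group, hx, inv_mul_cancel_left]
  exact hf'

end CfsgLib.ConwayType.Golay
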