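import Mathlib

/-!
Three involutions satisfying the relations of the elementary matrices `x₁₂`, `x₂₃`, `x₃₄` over the field
with two elements generate at most 64 elements.
-/

set_option autoImplicit false
set_option linter.unusedSectionVars false

namespace CfsgLib.ConwayType.Golay.Unitriangular

variable {H : Type*} [Group H]

/-- The relations, with `x`, `y`, `w` the elementary matrices `x₁₃`, `x₂₄`, `x₁₄`. -/
structure Rel (a b c x y w : H) : Prop where
  a2 : a * a = 1
  b2 : b * b = 1
  c2 : c * c = 1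
  x2 : x * x = 1
  y2 : y * y = 1
  w2 : w * w = 1
  hx : x = a * b * a * b
  hy : y = b * c * b * c
  hw : w = a * y * a * y
  ac : a * c = c * a
  ax : a * x = x * a
  bx : b * x = x * b
  dy : b * y = y * b
  cy : c * y = y * c
  xy : x * y = y * x
  aw : a * w = w * a
  bw : b * w = w * b
  cw : c * w = w * c
  xw : x * w = w * x
  yw : y * w = w * y

/-- A power with exponent in `Bool`. -/
def bp (g : H) (i : Bool) : H := bif i then g else 1

theorem bp_comm {g k : H} (h : g * k = k * g) (i : Bool) : g * bp k i = bp k i * g := by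
  cases i <;> simp [bp, h]

theorem mul_bp {g : H} (h : g * g = 1) (i : Bool) : g * bp g i = bp g (!i) := by
  cases i <;> simp [bp, h]

/-- The normal form. -/
def nf (a b c x y w : H) (t : Bool × Bool × Bool × Bool × Bool × Bool) : H :=
  bp w t.1 * (bp x t.2.1 * (bp y t.2.2.1 * (bp a t.2.2.2.1 * (bp c t.2.2.2.2.1 * bp b t.2.2.2.2.2))))

variable {a b c x y w : H}

theorem Rel.aya (R : Rel a b c x y w) : a * y = w * (y * a) := by
  calc a * y = a * y * a * y * (y * a) := by
        rw [← mul_assoc, mul_assoc (a * y * a), R.y2, mul_one, mul_assoc (a * y), R.a2, mul_one]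
    _ = w * (y * a) := by rw [← R.hw]

theorem Rel.cxc (R : Rel a b c x y w) : c * x = w * (x * c) := by
  have hcbc : c * b * c = b * y := by
    rw [R.hy, show b * (b * c * b * c) = (b * b) * (c * b * c) by group, R.b2, one_mul]
  have haya : a * y * a = w * y := by
    rw [R.aya, mul_assoc, mul_assoc, R.a2, mul_one]
  have h1 : c * x * c = w * x := by
    calc c * x * c = (c * a) * b * (a * b * c) := by rw [R.hx]; group
      _ = (a * c) * b * (c * c) * (a * b * c) := by rw [R.c2, mul_one, R.ac]
      _ = a * (c * b * c) * (c * a) * b * c := by group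
      _ = a * (b * y) * (a * c) * b * c := by rw [hcbc, R.ac]
      _ = a * b * (a * a) * y * a * (c * b * c) := by rw [R.a2, mul_one]; group
      _ = a * b * a * (a * y * a) * (b * y) := by rw [hcbc]; group
      _ = a * b * a * w * (y * b) * y := by rw [haya]; group
      _ = a * b * a * (w * b) * (y * y) := by rw [← R.dy]; group
      _ = a * b * a * b * w := by rw [R.y2, mul_one, ← R.bw]; group
      _ = w * x := by rw [← R.hx, R.xw]
  calc c * x = c * x * c * c := by rw [mul_assoc, R.c2, mul_one]
    _ = _ := by rw [h1, mul_assoc]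

theorem Rel.left_a (R : Rel a b c x y w) (t : Bool × Bool × Bool × Bool × Bool × Bool) :
    ∃ s, a * nf a b c x y w t = nf a b c x y w s := by
  obtain ⟨i, j, k, l, m, n⟩ := t
  refine ⟨(xor i k, j, k, !l, m, n), ?_⟩
  simp only [nf]
  rw [← mul_assoc, bp_comm R.aw, mul_assoc, ← mul_assoc a, bp_comm R.ax, mul_assoc, ← mul_assoc a,
    show a * bp y k = bp w k * (bp y k * a) by cases k <;> simp [bp, R.aya],
    mul_assoc, mul_assoc, ← mul_assoc a, mul_bp R.a2, ← mul_assoc (bp x j),
    show bp x j * bp w k = bp w k * bp x j from (bp_comm ((bp_comm R.xw.symm j).symm) k),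
    mul_assoc, ← mul_assoc (bp w i)]
  congr 1
  cases i <;> cases k <;> simp [bp, R.w2]

theorem Rel.left_c (R : Rel a b c x y w) (t : Bool × Bool × Bool × Bool × Bool × Bool) :
    ∃ s, c * nf a b c x y w t = nf a b c x y w s := by
  obtain ⟨i, j, k, l, m, n⟩ := t
  refine ⟨(xor i j, j, k, l, !m, n), ?_⟩
  simp only [nf]
  rw [← mul_assoc, bp_comm R.cw, mul_assoc, ← mul_assoc c,
    show c * bp x j = bp w j * (bp x j * c) by cases j <;> simp [bp, R.cxc],
    mul_assoc, mul_assoc, ← mul_assoc c, bp_comm R.cy, mul_assoc, ← mul_assoc c, bp_comm R.ac.symm,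
    mul_assoc, ← mul_assoc c (bp c m), mul_bp R.c2, ← mul_assoc (bp w i)]
  congr 1
  cases i <;> cases j <;> simp [bp, R.w2]

theorem Rel.left_b (R : Rel a b c x y w) (t : Bool × Bool × Bool × Bool × Bool × Bool) :
    ∃ s, b * nf a b c x y w t = nf a b c x y w s := by
  obtain ⟨i, j, k, l, m, n⟩ := t
  refine ⟨(xor i (l && m), xor j l, xor k m, l, m, !n), ?_⟩
  have hba : b * a = x * (a * b) := by
    have h : b * a * b = x * a := by
      rw [← R.ax, R.hx, show a * (a * b * a * b) = (a * a) * (b * a * b) by group, R.a2, one_mul]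
    calc b * a = b * a * b * b := by rw [mul_assoc, R.b2, mul_one]
      _ = _ := by rw [h, mul_assoc]
  have hbc : b * c = y * (c * b) := by
    calc b * c = b * c * b * c * (c * b) := by
          rw [← mul_assoc, mul_assoc (b * c * b), R.c2, mul_one, mul_assoc (b * c), R.b2, mul_one]
      _ = _ := by rw [← R.hy]
  simp only [nf]
  rw [← mul_assoc, bp_comm R.bw, mul_assoc, ← mul_assoc b, bp_comm R.bx, mul_assoc, ← mul_assoc b,
    bp_comm R.dy, mul_assoc, ← mul_assoc b,
    show b * bp a l = bp x l * (bp a l * b) by cases l <;> simp [bp, hba],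
    mul_assoc, mul_assoc, ← mul_assoc b,
    show b * bp c m = bp y m * (bp c m * b) by cases m <;> simp [bp, hbc],
    mul_assoc, mul_assoc, mul_bp R.b2]
  generalize bp b (!n) = r
  have e1 : ∀ r, y * (x * r) = x * (y * r) := fun r => by rw [← mul_assoc, ← R.xy, mul_assoc]
  have e2 : ∀ r, y * (w * r) = w * (y * r) := fun r => by rw [← mul_assoc, R.yw, mul_assoc]
  have e3 : ∀ r, x * (w * r) = w * (x * r) := fun r => by rw [← mul_assoc, R.xw, mul_assoc]
  have e4 : ∀ r, a * (y * r) = w * (y * (a * r)) := fun r => by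
    rw [← mul_assoc, R.aya, mul_assoc, mul_assoc]
  have s1 : ∀ r, x * (x * r) = r := fun r => by rw [← mul_assoc, R.x2, one_mul]
  have s2 : ∀ r, y * (y * r) = r := fun r => by rw [← mul_assoc, R.y2, one_mul]
  have s3 : ∀ r, w * (w * r) = r := fun r => by rw [← mul_assoc, R.w2, one_mul]
  cases i <;> cases j <;> cases k <;> cases l <;> cases m <;>
    simp [bp, e1, e2, e3, e4, s1, s2, s3]

theorem Rel.closure_le (R : Rel a b c x y w) :
    (Subgroup.closure ({a, b, c} : Set H) : Set H) ⊆ Set.range (nf a b c x y w) := by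
  intro g hg
  induction hg using Subgroup.closure_induction_left with
  | one => exact ⟨(false, false, false, false, false, false), by simp [nf, bp]⟩
  | mul_left u hu v _ ih =>
    obtain ⟨t, rfl⟩ := ih
    simp only [Set.mem_insert_iff, Set.mem_singleton_iff] at hu
    rcases hu with rfl | rfl | rfl
    · obtain ⟨s, hs⟩ := R.left_a t; exact ⟨s, hs.symm⟩
    · obtain ⟨s, hs⟩ := R.left_b t; exact ⟨s, hs.symm⟩
    · obtain ⟨s, hs⟩ := R.left_c t; exact ⟨s, hs.symm⟩
  | inv_mul_cancel u hu v _ ih =>
    obtain ⟨t, rfl⟩ := ih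
    simp only [Set.mem_insert_iff, Set.mem_singleton_iff] at hu
    rcases hu with rfl | rfl | rfl
    · rw [inv_eq_of_mul_eq_one_right R.a2]; obtain ⟨s, hs⟩ := R.left_a t; exact ⟨s, hs.symm⟩
    · rw [inv_eq_of_mul_eq_one_right R.b2]; obtain ⟨s, hs⟩ := R.left_b t; exact ⟨s, hs.symm⟩
    · rw [inv_eq_of_mul_eq_one_right R.c2]; obtain ⟨s, hs⟩ := R.left_c t; exact ⟨s, hs.symm⟩

theorem Rel.card_closure_le (R : Rel a b c x y w) :
    Nat.card ↥(Subgroup.closure ({a, b, c} : Set H)) ≤ 64 := by
  have h1 := Nat.card_mono (Set.finite_range (nf a b c x y w)) R.closure_le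
  have h2 := Finite.card_range_le (nf a b c x y w)
  simp only [Nat.card_prod, Nat.card_eq_fintype_card, Fintype.card_bool] at h2
  rw [SetLike.coe_sort_coe] at h1
  exact h1.trans (h2.trans (by norm_num))

end CfsgLib.ConwayType.Golay.Unitriangular
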