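import Cfsg.Agent.Lib.ConwayType.Data
import Cfsg.Agent.Lib.ConwayType.Golay.Unitriangular

/-!
Root maps fixing the coordinate four-space and its opposite, upper unitriangular on the first one.
-/

set_option autoImplicit false
set_option linter.unusedSectionVars false
set_option maxRecDepth 100000
set_option synthInstance.maxSize 1000
set_option maxHeartbeats 4000000

namespace CfsgLib.ConwayType.Golay

open CfsgLib.ConwayType CfsgLib.ConwayType.Golay.Unitriangular

/-- The span of the first vectors of the hyperbolic pairs. -/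
def InE (v : V) : Prop := ∀ i, v (.inr i) = 0

/-- The span of the second vectors of the hyperbolic pairs. -/
def InF (v : V) : Prop := ∀ i, v (.inl i) = 0

instance : DecidablePred InE := fun v => by unfold InE; infer_instance
instance : DecidablePred InF := fun v => by unfold InF; infer_instance

/-- The pairs of reflection vectors interchanging two hyperbolic pairs' halves: the images of the first
four-space are the four-spaces of its class containing two commuting root lines. -/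
def levPairs : List (V × V) :=
  [(vec 0 0 1 0 0 0 1 0, vec 0 0 0 1 0 0 0 1),
   (vec 0 1 0 0 0 1 0 0, vec 0 0 0 1 0 0 0 1),
   (vec 0 1 0 0 0 1 0 0, vec 0 0 1 0 0 0 1 0),
   (vec 1 0 0 0 1 0 0 0, vec 0 0 0 1 0 0 0 1)]

theorem levPairs_ok : ∀ p ∈ levPairs, q p.1 = 1 ∧ q p.2 = 1 := by decide +kernel

theorem levPairs_invol : ∀ p ∈ levPairs, ∀ x : V, pf p (pf p x) = x := by
  intro p hp
  rw [forall_vec]
  revert p
  decide +kernel

/-- The correcting vector. -/
def corr (p : V × V) (d : Fin 4 → ZMod 2) : V :=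
  vec ((1 + p.1 (.inl 0) + p.2 (.inl 0)) * d 0) ((1 + p.1 (.inl 1) + p.2 (.inl 1)) * d 1)
    ((1 + p.1 (.inl 2) + p.2 (.inl 2)) * d 2) ((1 + p.1 (.inl 3) + p.2 (.inl 3)) * d 3) 0 0 0 0

/-- The basis of the second four-space. -/
def fvec : Fin 4 → V := ![fV, f2V, f3V, f4V]

theorem fvec_ok : ∀ k, InF (fvec k) ∧ q (fvec k) = 0 := by decide

theorem corr_ok : ∀ p ∈ levPairs, ∀ d : Fin 4 → ZMod 2,
    (∀ k, InE (pf p (fvec k)) → d k = 0) →
      InE (pf p (corr p d)) ∧ ∀ k, bl (corr p d) (fvec k) = d k := by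
  decide +kernel

theorem inF_of_bl : ∀ v : V, (∀ k, bl v (fvec k) = 0) → InF v := by
  rw [forall_vec]; decide +kernel

theorem root_ok {u v : V} (hu : InE u) (hv : InE v) : q u = 0 ∧ q v = 0 ∧ bl u v = 0 := by
  have h1 := hu 0; have h2 := hu 1; have h3 := hu 2; have h4 := hu 3
  have h5 := hv 0; have h6 := hv 1; have h7 := hv 2; have h8 := hv 3
  simp [q, bl, h1, h2, h3, h4, h5, h6, h7, h8]

/-- The root map over the line of a first and a second vector. -/
noncomputable def X12 : O := T eV f2V q_eV (by decide)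
/-- The root map over the line of a first and a second vector. -/
noncomputable def X23 : O := T e2V f3V q_e2V (by decide)
/-- The root map over the line of a first and a second vector. -/
noncomputable def X34 : O := T e3V f4V q_e3V (by decide)
/-- The root map over the line of a first and a second vector. -/
noncomputable def X13 : O := T eV f3V q_eV (by decide)
/-- The root map over the line of a first and a second vector. -/
noncomputable def X24 : O := T e2V f4V q_e2V (by decide)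
/-- The root map over the line of a first and a second vector. -/
noncomputable def X14 : O := T eV f4V q_eV (by decide)

theorem X_inF : ∀ v : V, InF v → InF (sgf eV f2V v) ∧ InF (sgf e2V f3V v) ∧ InF (sgf e3V f4V v) := by
  rw [forall_vec]; decide +kernel

theorem X13_eq : X12 * X23 * X12 * X23 = X13 := by
  refine O_ext_basis fun x hx => ?_
  simp only [X12, X23, X13, ap_mul, ap_T]
  revert x
  decide +kernel

theorem X24_eq : X23 * X34 * X23 * X34 = X24 := by
  refine O_ext_basis fun x hx => ?_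
  simp only [X23, X34, X24, ap_mul, ap_T]
  revert x
  decide +kernel

theorem X14_eq : X12 * X24 * X12 * X24 = X14 := by
  refine O_ext_basis fun x hx => ?_
  simp only [X12, X24, X14, ap_mul, ap_T]
  revert x
  decide +kernel

/-- `Bool` as a scalar. -/
def bz (i : Bool) : ZMod 2 := bif i then 1 else 0

theorem bz_inj : Function.Injective bz := by decide

theorem ap_bp (g : O) (i : Bool) {x d : V} (h : ap g x = x + d) :
    ap (bp g i) x = x + bz i • d := by
  cases i
  · simp [bp, bz, ap_one]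
  · simp [bp, bz, h]

theorem X_values :
    (ap X12 eV = eV + 0 ∧ ap X12 e2V = e2V + eV ∧ ap X12 e3V = e3V + 0 ∧ ap X12 e4V = e4V + 0) ∧
    (ap X23 eV = eV + 0 ∧ ap X23 e2V = e2V + 0 ∧ ap X23 e3V = e3V + e2V ∧ ap X23 e4V = e4V + 0) ∧
    (ap X34 eV = eV + 0 ∧ ap X34 e2V = e2V + 0 ∧ ap X34 e3V = e3V + 0 ∧ ap X34 e4V = e4V + e3V) ∧
    (ap X13 eV = eV + 0 ∧ ap X13 e2V = e2V + 0 ∧ ap X13 e3V = e3V + eV ∧ ap X13 e4V = e4V + 0) ∧
    (ap X24 eV = eV + 0 ∧ ap X24 e2V = e2V + 0 ∧ ap X24 e3V = e3V + 0 ∧ ap X24 e4V = e4V + e2V) ∧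
    (ap X14 eV = eV + 0 ∧ ap X14 e2V = e2V + 0 ∧ ap X14 e3V = e3V + 0 ∧ ap X14 e4V = e4V + eV) := by
  simp only [X12, X23, X34, X13, X24, X14, ap_T]
  decide +kernel

/-- The normal form of an upper unitriangular map. -/
noncomputable def nfO (t : Bool × Bool × Bool × Bool × Bool × Bool) : O := nf X12 X23 X34 X13 X24 X14 t

theorem nfO_ext {t t' : Bool × Bool × Bool × Bool × Bool × Bool}
    (e2 : ap (nfO t) e2V = ap (nfO t') e2V) (e3 : ap (nfO t) e3V = ap (nfO t') e3V)
    (e4 : ap (nfO t) e4V = ap (nfO t') e4V) : t = t' := by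
  obtain ⟨⟨a1, a2, a3, a4⟩, ⟨b1, b2, b3, b4⟩, ⟨c1, c2, c3, c4⟩, ⟨x1, x2, x3, x4⟩, ⟨y1, y2, y3, y4⟩,
    ⟨w1, w2, w3, w4⟩⟩ := X_values
  have hval : ∀ i j k l m n : Bool,
      ap (nfO (i, j, k, l, m, n)) e2V = e2V + bz l • eV ∧
      ap (nfO (i, j, k, l, m, n)) e3V = e3V + (bz j • eV + bz n • (e2V + bz l • eV)) ∧
      ap (nfO (i, j, k, l, m, n)) e4V =
        e4V + (bz i • eV + bz k • e2V + bz m • (e3V + bz j • eV)) := by
    intro i j k l m n
    simp only [nfO, nf, ap_mul]
    refine ⟨?_, ?_, ?_⟩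
    · simp only [ap_bp _ _ b2, ap_bp _ _ c2, ap_bp _ _ a2, smul_zero, add_zero, ap_add, ap_smul, ap_bp _ _ y1,
        ap_bp _ _ y2, ap_bp _ _ x1, ap_bp _ _ x2, ap_bp _ _ w1, ap_bp _ _ w2]
    · simp only [ap_bp _ _ b3, ap_add, ap_smul, ap_bp _ _ c2, ap_bp _ _ c3, ap_bp _ _ a2, ap_bp _ _ a3,
        smul_zero, add_zero, ap_bp _ _ y1, ap_bp _ _ y2, ap_bp _ _ y3, ap_bp _ _ x1, ap_bp _ _ x2,
        ap_bp _ _ x3, ap_bp _ _ w1, ap_bp _ _ w2, ap_bp _ _ w3]
      abel
    · simp only [ap_bp _ _ b4, ap_add, ap_smul, smul_zero, add_zero, ap_bp _ _ c4, ap_bp _ _ a3, ap_bp _ _ a4,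
        ap_bp _ _ y3, ap_bp _ _ y4, ap_bp _ _ x2, ap_bp _ _ x3, ap_bp _ _ x4, ap_bp _ _ w1, ap_bp _ _ w2,
        ap_bp _ _ w3, ap_bp _ _ w4, smul_add]
      abel
  obtain ⟨i, j, k, l, m, n⟩ := t
  obtain ⟨i', j', k', l', m', n'⟩ := t'
  obtain ⟨p2, p3, p4⟩ := hval i j k l m n
  obtain ⟨r2, r3, r4⟩ := hval i' j' k' l' m' n'
  rw [e2, r2] at p2
  rw [e3, r3] at p3
  rw [e4, r4] at p4
  have hl := congrFun p2 (.inl 0)
  have hn := congrFun p3 (.inl 1)
  have hj := congrFun p3 (.inl 0)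
  have hm := congrFun p4 (.inl 2)
  have hk := congrFun p4 (.inl 1)
  have hi := congrFun p4 (.inl 0)
  simp [eV, e2V, e3V, e4V, vec] at hl hn hj hm hk hi
  obtain rfl := bz_inj hl
  obtain rfl := bz_inj hn
  obtain rfl := bz_inj (add_right_cancel hj)
  obtain rfl := bz_inj hm
  obtain rfl := bz_inj hk
  obtain rfl := bz_inj (add_right_cancel hi)
  rfl

theorem nfO_inj : Function.Injective nfO := fun t t' e => nfO_ext (by rw [e]) (by rw [e]) (by rw [e])

theorem nfO_fix (t : Bool × Bool × Bool × Bool × Bool × Bool) (h : ∀ v, InE v → ap (nfO t) v = v) :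
    t = (false, false, false, false, false, false) := by
  have h0 : ∀ v, ap (nfO (false, false, false, false, false, false)) v = v := fun v => by
    simp [nfO, nf, bp, ap_one]
  exact nfO_ext (by rw [h0, h _ (by decide)]) (by rw [h0, h _ (by decide)]) (by rw [h0, h _ (by decide)])

theorem X_inE_check : ∀ v : V, InE v →
    InE (sgf eV f2V v) ∧ InE (sgf e2V f3V v) ∧ InE (sgf e3V f4V v) ∧ InE (sgf eV f3V v) ∧
      InE (sgf e2V f4V v) ∧ InE (sgf eV f4V v) := by
  rw [forall_vec]; decide +kernel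

theorem nfO_inE (t : Bool × Bool × Bool × Bool × Bool × Bool) :
    ∀ v, InE v → InE (ap (nfO t) v) := by
  obtain ⟨i, j, k, l, m, n⟩ := t
  intro v hv
  have hb : ∀ (g : O), (∀ u, InE u → InE (ap g u)) → ∀ (s : Bool) (u : V), InE u → InE (ap (bp g s) u) :=
    fun g hg s u hu => by
      cases s
      · exact hu
      · exact hg u hu
  simp only [nfO, nf, ap_mul]
  refine hb _ ?_ _ _ (hb _ ?_ _ _ (hb _ ?_ _ _ (hb _ ?_ _ _ (hb _ ?_ _ _ (hb _ ?_ _ _ hv))))) <;>
    intro u hu <;> simp only [X12, X23, X34, X13, X24, X14, ap_T]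
  exacts [(X_inE_check u hu).2.2.2.2.2, (X_inE_check u hu).2.2.2.1, (X_inE_check u hu).2.2.2.2.1,
    (X_inE_check u hu).1, (X_inE_check u hu).2.2.1, (X_inE_check u hu).2.1]

theorem eq_zero_of_inF : ∀ u : V, InF u → (∀ v, v ∈ [eV, e2V, e3V, e4V] → bl u v = 0) → u = 0 := by
  rw [forall_vec]; decide +kernel

theorem basisE : ∀ v ∈ [eV, e2V, e3V, e4V], InE v := by decide

end CfsgLib.ConwayType.Golay
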