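import Cfsg.Agent.Lib.ConwayType.Golay.Flags
import Cfsg.Agent.Lib.ConwayType.Golay.Exists

/-!
An involution over a root map inside the group of a lift of one of its points is a root lift for that point,
and the action of the extraspecial group on a basis of lifts.
-/

set_option autoImplicit false
set_option linter.unusedSectionVars false
set_option maxRecDepth 100000
set_option synthInstance.maxSize 1000
set_option maxHeartbeats 4000000

namespace CfsgLib.ConwayType.Golay

open CfsgLib.ExtraspecialLarge CfsgLib.ConwayType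

variable {G : Type*} [Group G] [Finite G]
variable {z : G} {Qf : G → Subgroup G} {θ : G → V} {ρ : G → O} {J : Subgroup O} {y h : G}
variable (P : PairSetting z Qf θ ρ J y h)
include P

/-- Conjugates of root lifts by the extraspecial group are root lifts. -/
theorem isRoot_conj {a p : V} {ya s r : G} (R : IsRoot z Qf θ ρ a p ya s) (hr : r ∈ Qf z) :
    IsRoot z Qf θ ρ a p (r * ya * r⁻¹) (r * s * r⁻¹) := by
  have hrz := P.toSetting.comm_z hr
  have hρr := P.toSetting.ρ_of_mem hr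
  have hback : ∀ x ∈ Qf z, r⁻¹ * x * r ∈ Qf z ∧ θ (r⁻¹ * x * r) = θ x := fun x hx => by
    have h1 := P.toSetting.conj_mem_Q (comm_inv hrz) hx
    have h2 := P.ρ_act r⁻¹ (comm_inv hrz) x hx
    rw [P.toSetting.ρ_inv hrz, hρr, inv_one, ap_one] at h2
    rw [inv_inv] at h1 h2
    exact ⟨h1, h2⟩
  refine ⟨P.toSetting.conj_mem_Q hrz R.memQ, ?_, ?_, P.core.conj_mem r ya R.mem,
    comm_mul (comm_mul hrz R.comm) (comm_inv hrz), fun x => ?_, ?_, fun x hx hb => ?_, fun x hx hxy => ?_⟩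
  · rw [P.ρ_act r hrz _ R.memQ, hρr, ap_one, R.θy]
  · have h1 : ya * ya = 1 := R.good.sq_u
    obtain ⟨c, -, e | e⟩ := P.Q_cases R.memQ h1 R.good.ne_one
    · exact P.core.good_of_conj ⟨r * c⁻¹, by
        rw [← conj_inv_eq e]; group⟩
    · exact P.core.good_of_conj ⟨r * c⁻¹ * h, by
        rw [← conj_inv_eq e, ← P.hz]; group⟩
  · rw [P.toSetting.ρ_conj hrz R.comm, hρr, one_mul, inv_one, mul_one]; exact R.act x
  · rw [show r * s * r⁻¹ * (r * s * r⁻¹) = r * (s * s) * r⁻¹ by group, R.sq]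
    rcases z2_cases (q p) with e | e <;> rw [e] <;> simp
  · obtain ⟨hx', hθ⟩ := hback x hx
    have e := R.pairing _ hx' (by rw [hθ]; exact hb)
    rw [hθ] at e
    calc r * s * r⁻¹ * x * (r * s * r⁻¹)⁻¹ * x⁻¹
        = r * (s * (r⁻¹ * x * r) * s⁻¹ * (r⁻¹ * x * r)⁻¹) * r⁻¹ := by group
      _ = _ := by
        rw [e]
        rcases z2_cases (bl (θ x) p) with a | a <;> rw [a]
        · simp
        · simp only [zp_one]
          rw [show r * (z * ya) * r⁻¹ = (r * z * r⁻¹) * (r * ya * r⁻¹) by group, conj_fix_iff.2 hrz]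
  · obtain ⟨hx', hθ⟩ := hback x hx
    have hm : r⁻¹ * x * r ∈ Qf ya := by
      have := P.core.conj_mem r⁻¹ _ hxy
      rwa [inv_inv, show r⁻¹ * (r * ya * r⁻¹) * r = ya by group] at this
    rw [← hθ]
    exact R.inter _ hx' hm

/-- A root lift exists for each lift of the point. -/
theorem exists_root_at {a p : V} (ha0 : a ≠ 0) (hap : bl a p = 0) (hqa : q a = 0) {ya : G}
    (hya : ya ∈ Qf z) (hθa : θ ya = a) {v : V} (hv : bl v a = 1) :
    ∃ s, IsRoot z Qf θ ρ a p ya s := by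
  obtain ⟨y₂, s, R⟩ := P.exists_root hqa ha0 hap
  rcases P.toSetting.eq_or_of_θ hya R.memQ (hθa.trans R.θy.symm) with e | e
  · exact ⟨s, e ▸ R⟩
  · obtain ⟨r, hr, hθr⟩ := P.θ_surj v
    refine ⟨r * s * r⁻¹, ?_⟩
    have h' : r * y₂ * r⁻¹ = ya := by
      rw [e, P.toSetting.conj_eq hr R.memQ, hθr, R.θy, hv, zp_one]
    exact h' ▸ isRoot_conj P R hr

/-- An involution over the root map in the group of the point is a root lift for it. -/
theorem isRoot_of_lift {a b : V} (ha0 : a ≠ 0) (hab : bl a b = 0) (hqa : q a = 0) (hqb : q b = 0)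
    {v : V} (hv : bl v a = 1) {ya t : G} (hya : ya ∈ Qf z) (hθa : θ ya = a) (htz : t * z = z * t)
    (ht2 : t * t = 1) (ht : t ∈ Qf ya) (hρ : ρ t = T a b hqa hab) :
    IsRoot z Qf θ ρ a b ya t := by
  obtain ⟨s, R⟩ := exists_root_at P ha0 hab hqa hya hθa hv
  have hρs : ρ s = T a b hqa hab := CfsgLib.ClassicalForms.orth_ext fun x => by
    change ap (ρ s) x = ap (T _ _ _ _) x
    rw [R.act, ap_T]
  set e := s⁻¹ * t with he_def
  have hez : e * z = z * e := comm_mul (comm_inv R.comm) htz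
  have he : e ∈ Qf z := (P.ρ_ker _ hez).1 (by
    rw [P.toSetting.ρ_mul (comm_inv R.comm) htz, P.toSetting.ρ_inv R.comm, hρs, hρ, inv_mul_cancel])
  have hea : e ∈ Qf ya := (Qf ya).mul_mem ((Qf ya).inv_mem R.mem) ht
  have hθe : bl (θ e) a = 0 ∧ ∀ u, bl a u = 0 → bl (θ e) u = 0 := by
    rcases R.inter e he hea with h0 | h0 <;> rw [h0]
    · simp
    · exact ⟨bl_self a, fun u hu => hu⟩
  refine ⟨hya, hθa, R.good, ht, htz, fun x => by rw [hρ, ap_T], ?_, fun x hx hb => ?_, R.inter⟩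
  · rw [ht2, hqb, zp_zero]
  · have hc : e * x = x * e := P.toSetting.comm_of_bl he hx (hθe.2 _ hb)
    rw [← R.pairing x hx hb, show t = s * e by rw [he_def]; group]
    calc s * e * x * (s * e)⁻¹ * x⁻¹ = s * (e * x) * e⁻¹ * s⁻¹ * x⁻¹ := by group
      _ = s * x * s⁻¹ * x⁻¹ := by rw [hc]; group

end CfsgLib.ConwayType.Golay
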