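import Cfsg.Agent.Lib.ConwayType.Golay.Duads
import Cfsg.Agent.Lib.GolayExt.Modules

/-!
Linear automorphisms of the code modulo the all-one word that preserve the images of the octads come
from `M24`.
-/

set_option autoImplicit false
set_option linter.unusedSectionVars false

namespace CfsgLib.ConwayType.GolayModel

open Cfsg CfsgLib.Golay
open scoped symmDiff Pointwise
open CfsgLib.ExtraspecialLarge (vec supp vec_supp supp_vec vec_symmDiff card_symmDiff_add zmod_two_cases hammingNorm_eq_card_supp)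

local notation "PP" => Equiv.Perm GolayPt
local notation "WW" => GolayPt → ZMod 2

variable {L : Type*} [AddCommGroup L] [Module (ZMod 2) L]

/-- `p` presents `L` as the code modulo the all-one word. -/
structure Presents (p : ↥golayCode →ₗ[ZMod 2] L) : Prop where
  surj : Function.Surjective p
  ker : ∀ c : ↥golayCode, p c = 0 ↔ (c : WW) = 0 ∨ (c : WW) = 1

/-- The images of the octads. -/
def octadImg (p : ↥golayCode →ₗ[ZMod 2] L) : Set L :=
  {x | ∃ c : ↥golayCode, hammingNorm (c : WW) = 8 ∧ p c = x}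

theorem pairs_eq {a b c d : GolayPt} (h : ({a, b} : Finset GolayPt) = {c, d}) :
    (a = c ∧ b = d) ∨ (a = d ∧ b = c) := by
  have h' : ({a, b} : Set GolayPt) = {c, d} := by
    simpa using congrArg (fun s : Finset GolayPt => (s : Set GolayPt)) h
  exact Set.pair_eq_pair_iff.mp h'

variable {p : ↥golayCode →ₗ[ZMod 2] L} (hp : Presents p)
include hp

theorem ev_eq_of_p_eq {T : Finset GolayPt} (hT : Even T.card) {c d : ↥golayCode} (h : p c = p d) :
    ev T (c : WW) = ev T (d : WW) := by
  have h0 : p (c - d) = 0 := by rw [map_sub, h, sub_self]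
  rcases (hp.ker _).mp h0 with e | e
  · rw [Submodule.coe_sub, sub_eq_zero] at e
    rw [e]
  · rw [Submodule.coe_sub] at e
    apply eq_of_add_eq_zero
    rw [← map_add, ← ZModModule.sub_eq_add, e, ev_one]
    exact ZMod.natCast_eq_zero_iff_even.mpr hT

theorem exists_dn {T : Finset GolayPt} (hT : Even T.card) :
    ∃ f : L →ₗ[ZMod 2] ZMod 2, ∀ c : ↥golayCode, f (p c) = ev T (c : WW) := by
  have key : ∀ c : ↥golayCode, ev T ((Function.surjInv hp.surj (p c) : ↥golayCode) : WW) = ev T (c : WW) :=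
    fun c => ev_eq_of_p_eq hp hT (Function.surjInv_eq hp.surj (p c))
  refine ⟨{
    toFun := fun x => ev T ((Function.surjInv hp.surj x : ↥golayCode) : WW)
    map_add' := fun x y => ?_
    map_smul' := fun r x => ?_ }, key⟩
  · obtain ⟨c, rfl⟩ := hp.surj x
    obtain ⟨d, rfl⟩ := hp.surj y
    rw [← map_add p, key, key, key, Submodule.coe_add, map_add]
  · obtain ⟨c, rfl⟩ := hp.surj x
    rw [← map_smul p, key, key, Submodule.coe_smul, map_smul, RingHom.id_apply]

theorem octad_p_inj {c d : ↥golayCode} (hc : hammingNorm (c : WW) = 8) (hd : hammingNorm (d : WW) = 8)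
    (h : p c = p d) : c = d := by
  classical
  have h0 : p (c - d) = 0 := by rw [map_sub, h, sub_self]
  rcases (hp.ker _).mp h0 with e | e
  · exact sub_eq_zero.mp (Subtype.ext e)
  · exfalso
    rw [Submodule.coe_sub, ZModModule.sub_eq_add] at e
    have hle : ((supp (c : WW)) ∆ (supp (d : WW))).card = 24 := by
      have e' : vec (supp (c : WW) ∆ supp (d : WW)) = (1 : WW) := by
        rw [vec_symmDiff, vec_supp, vec_supp, e]
      rw [← supp_vec (supp (c : WW) ∆ supp (d : WW)), e']
      simp [supp]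
    have := CfsgLib.ExtraspecialLarge.card_symmDiff_le (supp (c : WW)) (supp (d : WW))
    rw [hammingNorm_eq_card_supp] at hc hd
    omega

/-- The pull-back of a duad functional by a symmetry is a duad functional. -/
theorem exists_duad_pullback {g : L ≃ₗ[ZMod 2] L} (hO : ∀ y, y ∈ octadImg p ↔ g y ∈ octadImg p)
    {T : Finset GolayPt} (hT : T.card = 2) :
    ∃ T' : Finset GolayPt, T'.card = 2 ∧
      ∀ c d : ↥golayCode, g (p c) = p d → ev T' (c : WW) = ev T (d : WW) := by
  classical
  obtain ⟨f, hf⟩ := exists_dn hp (T := T) (by rw [hT]; exact even_two)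
  let F : ↥golayCode →ₗ[ZMod 2] ZMod 2 := f.comp (g.toLinearMap.comp p)
  have h1 : F ⟨1, one_mem_golayCode⟩ = 0 := by
    have h0 : p ⟨1, one_mem_golayCode⟩ = 0 := (hp.ker _).mpr (Or.inr rfl)
    show f (g (p ⟨1, one_mem_golayCode⟩)) = 0
    rw [h0, map_zero, map_zero]
  obtain ⟨T', hT', hF⟩ := exists_leader_even F h1
  have hrel : ∀ c d : ↥golayCode, g (p c) = p d → ev T' (c : WW) = ev T (d : WW) := by
    intro c d e
    rw [← hF c, ← hf d, ← e]
    rfl
  have hcount : oddCount T' = oddCount T := by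
    have hoct : ∀ (o : Finset GolayPt) (ho : o ∈ octads),
        hammingNorm ((⟨vec o, vec_mem_of_octad ho⟩ : ↥golayCode) : WW) = 8 := fun o ho => by
      show hammingNorm (vec o) = 8
      rw [hammingNorm_eq_card_supp, supp_vec]
      exact ho.2
    let imgOf : ∀ S : Finset GolayPt, (L → ZMod 2) → Type _ := fun _ k => {x : L // x ∈ octadImg p ∧ k x = 1}
    have heq : ∀ (S : Finset GolayPt) (k : L → ZMod 2),
        (∀ c : ↥golayCode, k (p c) = ev S (c : WW)) →
        oddCount S = Nat.card {x : L // x ∈ octadImg p ∧ k x = 1} := by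
      intro S k hk
      refine Nat.card_congr (Equiv.ofBijective
        (fun o => ⟨p ⟨vec o.1, vec_mem_of_octad o.2.1⟩, ⟨_, hoct _ o.2.1, rfl⟩, by
          rw [hk]; exact o.2.2⟩) ⟨?_, ?_⟩)
      · rintro ⟨o, ho, h⟩ ⟨o', ho', h'⟩ e
        have e' := octad_p_inj hp (hoct o ho) (hoct o' ho') (congrArg Subtype.val e)
        exact Subtype.ext (vec_injective (congrArg Subtype.val e'))
      · rintro ⟨x, ⟨c, hc, rfl⟩, hx⟩
        refine ⟨⟨supp (c : WW), octad_of_weight c.2 hc, ?_⟩, Subtype.ext ?_⟩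
        · rw [vec_supp, ← hk]; exact hx
        · show p ⟨vec (supp (c : WW)), _⟩ = p c
          congr 1
          exact Subtype.ext (vec_supp _)
    rw [heq T' (fun x => f (g x)) (fun c => hF c), heq T f hf]
    exact Nat.card_congr (g.toEquiv.subtypeEquiv fun x => and_congr (hO x) Iff.rfl)
  refine ⟨T', ?_, hrel⟩
  rw [oddCount_two hT] at hcount
  rcases hT' with h | h | h
  · exfalso
    rw [Finset.card_eq_zero.mp h, oddCount] at hcount
    have : IsEmpty {o : Finset GolayPt // o ∈ octads ∧ ev (∅ : Finset GolayPt) (vec o) = 1} :=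
      ⟨fun o => zero_ne_one (α := ZMod 2) (by have := o.2.2; rwa [ev_apply, Finset.sum_empty] at this)⟩
    rw [Nat.card_of_isEmpty] at hcount
    norm_num at hcount
  · exact h
  · rw [oddCount_four h] at hcount
    norm_num at hcount

/-- A symmetry of the octad images is given by a permutation in `M24`. -/
theorem exists_perm {g : L ≃ₗ[ZMod 2] L} (hO : ∀ y, y ∈ octadImg p ↔ g y ∈ octadImg p) :
    ∃ σ ∈ M24, ∀ c d : ↥golayCode, (d : WW) = (c : WW) ∘ σ → g (p c) = p d := by
  classical
  choose φ hφc hφ using fun T : {T : Finset GolayPt // T.card = 2} =>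
    exists_duad_pullback hp hO T.2
  have hex : ∀ c : ↥golayCode, ∃ d : ↥golayCode, g (p c) = p d := fun c => by
    obtain ⟨d, hd⟩ := hp.surj (g (p c))
    exact ⟨d, hd.symm⟩
  let Q : GolayPt → GolayPt → Finset GolayPt := fun i j =>
    if h : i ≠ j then φ ⟨{i, j}, Finset.card_pair h⟩ else ∅
  have hQc : ∀ {i j}, i ≠ j → (Q i j).card = 2 := fun {i j} h => by
    simp only [Q, dif_pos h]; exact hφc _
  have hQ : ∀ {i j}, i ≠ j → ∀ c d : ↥golayCode, g (p c) = p d →
      ev (Q i j) (c : WW) = (d : WW) i + (d : WW) j := fun {i j} h c d e => by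
    simp only [Q, dif_pos h]
    rw [hφ ⟨{i, j}, Finset.card_pair h⟩ c d e, ev_pair h]
  have hQinj : ∀ {i j k l}, i ≠ j → k ≠ l → Q i j = Q k l →
      (i = k ∧ j = l) ∨ (i = l ∧ j = k) := by
    intro i j k l hij hkl e
    refine pairs_eq (duad_inj (Finset.card_pair hij) (Finset.card_pair hkl) fun w hw => ?_)
    obtain ⟨c, hc⟩ := hp.surj (g.symm (p ⟨w, hw⟩))
    have e1 : g (p c) = p ⟨w, hw⟩ := by rw [hc, g.apply_symm_apply]
    rw [ev_pair hij, ev_pair hkl, ← hQ hij c _ e1, ← hQ hkl c _ e1, e]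
  -- two duads at one point share a point, and their symmetric difference is the third duad
  have hadd : ∀ {o q r}, o ≠ q → o ≠ r → q ≠ r → Q o q ∆ Q o r = Q q r := by
    intro o q r hoq hor hqr
    have hf : ∀ w ∈ golayCode, ev (Q o q ∆ Q o r) w = ev (Q q r) w := by
      intro w hw
      obtain ⟨d, hd⟩ := hex ⟨w, hw⟩
      rw [ev_symmDiff, show ev (Q o q) w = (d : WW) o + (d : WW) q from hQ hoq ⟨w, hw⟩ d hd,
        show ev (Q o r) w = (d : WW) o + (d : WW) r from hQ hor ⟨w, hw⟩ d hd,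
        show ev (Q q r) w = (d : WW) q + (d : WW) r from hQ hqr ⟨w, hw⟩ d hd]
      calc (d : WW) o + (d : WW) q + ((d : WW) o + (d : WW) r)
          = ((d : WW) o + (d : WW) o) + ((d : WW) q + (d : WW) r) := by abel
        _ = (d : WW) q + (d : WW) r := by rw [add_self_two, zero_add]
    have hc := card_symmDiff_add (Q o q) (Q o r)
    rw [hQc hoq, hQc hor] at hc
    have h0 : (Q o q ∆ Q o r).card ≠ 0 := fun e => by
      rcases hQinj hoq hor (symmDiff_eq_bot.mp (Finset.card_eq_zero.mp e)) with ⟨-, h⟩ | ⟨h, -⟩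
      · exact hqr h
      · exact hor h
    rcases (show (Q o q ∆ Q o r).card = 2 ∨ (Q o q ∆ Q o r).card = 4 by omega) with h | h
    · exact duad_inj h (hQc hqr) hf
    · exfalso
      have := oddCount_congr hf
      rw [oddCount_four h, oddCount_two (hQc hqr)] at this
      norm_num at this
  -- the common point of the duads at `none`
  let o : GolayPt := none
  let a : GolayPt := some 0
  let b : GolayPt := some 1
  have hoa : o ≠ a := by decide
  have hob : o ≠ b := by decide
  have hab : a ≠ b := by decide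
  have hsh : ∀ {q r}, o ≠ q → o ≠ r → q ≠ r →
      ∃ x u v, Q o q = {x, u} ∧ Q o r = {x, v} ∧ Q q r = {u, v} ∧ x ≠ u ∧ x ≠ v ∧ u ≠ v := by
    intro q r hoq hor hqr
    have hc := card_symmDiff_add (Q o q) (Q o r)
    rw [hQc hoq, hQc hor, hadd hoq hor hqr, hQc hqr] at hc
    obtain ⟨x, hx⟩ := Finset.card_eq_one.mp (by omega : (Q o q ∩ Q o r).card = 1)
    have hxm : x ∈ Q o q ∩ Q o r := by rw [hx]; exact Finset.mem_singleton_self x
    obtain ⟨hxq, hxr⟩ := Finset.mem_inter.mp hxm
    obtain ⟨u, hu⟩ := Finset.card_eq_one.mp (by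
      rw [Finset.card_erase_of_mem hxq, hQc hoq] : ((Q o q).erase x).card = 1)
    obtain ⟨v, hv⟩ := Finset.card_eq_one.mp (by
      rw [Finset.card_erase_of_mem hxr, hQc hor] : ((Q o r).erase x).card = 1)
    have h1 : Q o q = {x, u} := by rw [← Finset.insert_erase hxq, hu]
    have h2 : Q o r = {x, v} := by rw [← Finset.insert_erase hxr, hv]
    have hux : u ≠ x := (Finset.mem_erase.mp (hu ▸ Finset.mem_singleton_self u)).1
    have hvx : v ≠ x := (Finset.mem_erase.mp (hv ▸ Finset.mem_singleton_self v)).1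
    have huv : u ≠ v := fun e => by
      rcases hQinj hoq hor (by rw [h1, h2, e]) with ⟨-, h⟩ | ⟨h, -⟩
      · exact hqr h
      · exact hor h
    refine ⟨x, u, v, h1, h2, ?_, Ne.symm hux, Ne.symm hvx, huv⟩
    rw [← hadd hoq hor hqr, h1, h2]
    ext y
    simp only [Finset.mem_symmDiff, Finset.mem_insert, Finset.mem_singleton]
    by_cases hy1 : y = x <;> by_cases hy2 : y = u <;> by_cases hy3 : y = v <;> simp_all
  obtain ⟨x, u, v, hxa, hxb, huvab, hxu, hxv, huv⟩ := hsh hoa hob hab
  have hxall : ∀ {q}, o ≠ q → x ∈ Q o q := by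
    intro q hoq
    by_contra hxq
    have hqa : q ≠ a := fun e => hxq (by rw [e, hxa]; simp)
    have hqb : q ≠ b := fun e => hxq (by rw [e, hxb]; simp)
    obtain ⟨x1, u1, v1, e1, e2, -, -⟩ := hsh hoq hoa hqa
    obtain ⟨x2, u2, v2, e3, e4, -, -⟩ := hsh hoq hob hqb
    have hu : u ∈ Q o q := by
      have m1 : x1 ∈ Q o q := by rw [e1]; simp
      have m2 : x1 ∈ ({x, u} : Finset GolayPt) := by rw [← hxa, e2]; simp
      simp only [Finset.mem_insert, Finset.mem_singleton] at m2
      rcases m2 with rfl | rfl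
      · exact absurd m1 hxq
      · exact m1
    have hv : v ∈ Q o q := by
      have m1 : x2 ∈ Q o q := by rw [e3]; simp
      have m2 : x2 ∈ ({x, v} : Finset GolayPt) := by rw [← hxb, e4]; simp
      simp only [Finset.mem_insert, Finset.mem_singleton] at m2
      rcases m2 with rfl | rfl
      · exact absurd m1 hxq
      · exact m1
    have : Q o q = ({u, v} : Finset GolayPt) := (Finset.eq_of_subset_of_card_le (by
      intro y hy; simp only [Finset.mem_insert, Finset.mem_singleton] at hy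
      rcases hy with rfl | rfl
      exacts [hu, hv]) (by rw [hQc hoq, Finset.card_pair huv])).symm
    rcases hQinj hoq hab (this.trans huvab.symm) with ⟨h, -⟩ | ⟨h, -⟩
    · exact hoa h
    · exact hob h
  have hoth : ∀ q : {q : GolayPt // o ≠ q}, ∃ y, Q o q.1 = {x, y} ∧ y ≠ x := by
    rintro ⟨q, hoq⟩
    obtain ⟨y, hy⟩ := Finset.card_eq_one.mp (by
      rw [Finset.card_erase_of_mem (hxall hoq), hQc hoq] : ((Q o q).erase x).card = 1)
    exact ⟨y, by rw [← Finset.insert_erase (hxall hoq), hy],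
      (Finset.mem_erase.mp (hy ▸ Finset.mem_singleton_self y)).1⟩
  choose s hs hsx using hoth
  let σf : GolayPt → GolayPt := fun q => if h : o ≠ q then s ⟨q, h⟩ else x
  have hσo : σf o = x := dif_neg (not_not.mpr rfl)
  have hσ : ∀ {q}, (h : o ≠ q) → Q o q = {x, σf q} ∧ σf q ≠ x := fun {q} h => by
    simp only [σf, dif_pos h]; exact ⟨hs ⟨q, h⟩, hsx ⟨q, h⟩⟩
  have hσinj : Function.Injective σf := by
    intro q r e
    by_cases hq : o ≠ q <;> by_cases hr : o ≠ r
    · rcases hQinj hq hr (by rw [(hσ hq).1, (hσ hr).1, e]) with ⟨-, h⟩ | ⟨h, -⟩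
      · exact h
      · exact absurd h hr
    · rw [← not_not.mp hr, hσo] at e; exact absurd e (hσ hq).2
    · rw [← not_not.mp hq, hσo] at e; exact absurd e.symm (hσ hr).2
    · rw [← not_not.mp hq, ← not_not.mp hr]
  let σ : PP := Equiv.ofBijective σf (Finite.injective_iff_bijective.mp hσinj)
  have hpairs : ∀ {q}, o ≠ q → ∀ c d : ↥golayCode, g (p c) = p d →
      (c : WW) (σ o) + (c : WW) (σ q) = (d : WW) o + (d : WW) q := by
    intro q hoq c d e
    show (c : WW) (σf o) + (c : WW) (σf q) = _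
    rw [← hQ hoq c d e, (hσ hoq).1, hσo, ev_pair (hσ hoq).2.symm]
  have hcomp : ∀ c : ↥golayCode, ∃ d : ↥golayCode, (d : WW) = (c : WW) ∘ σ ∧ g (p c) = p d := by
    intro c
    obtain ⟨d, hd⟩ := hex c
    have hconst : ∀ q, (c : WW) (σ q) + (d : WW) q = (c : WW) (σ o) + (d : WW) o := by
      intro q
      by_cases hoq : o ≠ q
      · have := hpairs hoq c d hd
        revert this
        generalize (c : WW) (σ o) = a1
        generalize (c : WW) (σ q) = a2
        generalize (d : WW) o = a3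
        generalize (d : WW) q = a4
        revert a1 a2 a3 a4
        decide
      · rw [← not_not.mp hoq]
    rcases zmod_two_cases ((c : WW) (σ o) + (d : WW) o) with e | e
    · refine ⟨d, funext fun q => ?_, hd⟩
      exact (eq_of_add_eq_zero ((hconst q).trans e)).symm
    · refine ⟨d + ⟨1, one_mem_golayCode⟩, funext fun q => ?_, ?_⟩
      · have := (hconst q).trans e
        show (d : WW) q + 1 = (c : WW) (σ q)
        revert this
        generalize (c : WW) (σ q) = a1
        generalize (d : WW) q = a2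
        revert a1 a2
        decide
      · rw [map_add, (hp.ker ⟨1, one_mem_golayCode⟩).mpr (Or.inr rfl), add_zero, hd]
  refine ⟨σ, ?_, fun c d e => ?_⟩
  · rw [← inv_mem_iff]
    rw [MulAction.mem_stabilizer_iff]
    apply Set.eq_of_subset_of_ncard_le
    · rintro _ ⟨S, ⟨w, hw, rfl⟩, rfl⟩
      obtain ⟨d, hd, -⟩ := hcomp ⟨w, hw⟩
      refine ⟨(d : WW), d.2, ?_⟩
      show support₂ (d : WW) = σ⁻¹ • support₂ w
      ext y
      rw [← Finset.inv_smul_mem_iff]
      simp [support₂, hd]
    · rw [Set.ncard_smul_set]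
    · exact Set.toFinite _
  · obtain ⟨d', hd', he⟩ := hcomp c
    rw [he, show d' = d from Subtype.ext (hd'.trans e.symm)]

/-- The permutation of a symmetry is unique. -/
theorem perm_unique {σ τ : PP} (h : ∀ c : ↥golayCode, ∀ d e : ↥golayCode,
    (d : WW) = (c : WW) ∘ σ → (e : WW) = (c : WW) ∘ τ → p d = p e)
    (hσ : σ ∈ M24) (hτ : τ ∈ M24) : σ = τ := by
  classical
  have hpair : ∀ i j : GolayPt, i ≠ j → ({σ i, σ j} : Finset GolayPt) = {τ i, τ j} := by
    intro i j hij
    refine duad_inj (Finset.card_pair (σ.injective.ne hij)) (Finset.card_pair (τ.injective.ne hij))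
      fun w hw => ?_
    have hd : w ∘ ⇑σ ∈ golayCode := by
      simpa using CfsgLib.GolayExt.comp_symm_mem_golayCode (inv_mem hσ) hw
    have he : w ∘ ⇑τ ∈ golayCode := by
      simpa using CfsgLib.GolayExt.comp_symm_mem_golayCode (inv_mem hτ) hw
    have := ev_eq_of_p_eq hp (T := {i, j}) (by rw [Finset.card_pair hij]; exact even_two)
      (h ⟨w, hw⟩ ⟨_, hd⟩ ⟨_, he⟩ rfl rfl)
    rw [ev_pair hij, ev_pair hij] at this
    rw [ev_pair (σ.injective.ne hij), ev_pair (τ.injective.ne hij)]
    exact this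
  refine Equiv.ext fun i => ?_
  obtain ⟨j, k, hij, hik, hjk⟩ : ∃ j k : GolayPt, i ≠ j ∧ i ≠ k ∧ j ≠ k := by
    revert i; decide
  rcases pairs_eq (hpair i j hij) with ⟨h1, -⟩ | ⟨h1, -⟩
  · exact h1
  · rcases pairs_eq (hpair i k hik) with ⟨h2, -⟩ | ⟨h2, -⟩
    · exact h2
    · exact absurd (τ.injective (h1.symm.trans h2)) hjk

/-- A group of symmetries of the octad images embeds in `M24`. -/
theorem exists_hom {X : Type*} [Group X] (ρ : X →* (L ≃ₗ[ZMod 2] L)) (hinj : Function.Injective ρ)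
    (hO : ∀ x, ∀ y ∈ octadImg p, ρ x y ∈ octadImg p) :
    ∃ τ : X →* ↥M24, Function.Injective τ ∧ ∀ x, ∀ c d : ↥golayCode,
      (d : WW) = (c : WW) ∘ ⇑((τ x : PP)⁻¹) → ρ x (p c) = p d := by
  classical
  have hiff : ∀ x y, y ∈ octadImg p ↔ ρ x y ∈ octadImg p := fun x y => ⟨hO x y, fun h => by
    have h2 := hO x⁻¹ _ h
    rwa [show ρ x⁻¹ (ρ x y) = y by
      rw [map_inv]; exact (ρ x).symm_apply_apply y] at h2⟩
  choose s hs hact using fun x => exists_perm hp (hiff x)
  have hcode : ∀ {σ : PP}, σ ∈ M24 → ∀ c : ↥golayCode, (c : WW) ∘ ⇑σ ∈ golayCode := fun {σ} h c => by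
    simpa using CfsgLib.GolayExt.comp_symm_mem_golayCode (inv_mem h) c.2
  have hmul : ∀ x y, s (x * y) = s y * s x := by
    intro x y
    refine perm_unique hp (fun c d e hd he => ?_) (hs _) (mul_mem (hs y) (hs x))
    rw [← hact (x * y) c d hd, map_mul]
    show ρ x (ρ y (p c)) = p e
    rw [hact y c ⟨_, hcode (hs y) c⟩ rfl, hact x _ e (by rw [he]; rfl)]
  refine ⟨{ toFun := fun x => ⟨(s x)⁻¹, inv_mem (hs x)⟩, map_one' := ?_, map_mul' := ?_ }, ?_, ?_⟩
  · refine Subtype.ext ?_
    show (s 1)⁻¹ = 1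
    have := hmul 1 1
    rw [mul_one, left_eq_mul] at this
    rw [this, inv_one]
  · intro x y
    refine Subtype.ext ?_
    show (s (x * y))⁻¹ = (s x)⁻¹ * (s y)⁻¹
    rw [hmul, mul_inv_rev]
  · intro x y e
    have e' : s x = s y := inv_injective (congrArg Subtype.val e)
    refine hinj (LinearEquiv.ext fun z => ?_)
    obtain ⟨c, rfl⟩ := hp.surj z
    rw [hact x c ⟨_, hcode (hs x) c⟩ rfl, hact y c ⟨_, hcode (hs x) c⟩ (by rw [← e'])]
  · intro x c d hd
    exact hact x c d (by simpa using hd)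

/-- A group of symmetries of order `|M24|` is `M24`. -/
theorem nonempty_mulEquiv {X : Type*} [Group X] (ρ : X →* (L ≃ₗ[ZMod 2] L))
    (hinj : Function.Injective ρ) (hO : ∀ x, ∀ y ∈ octadImg p, ρ x y ∈ octadImg p)
    (hcard : Nat.card X = Nat.card ↥M24) : Nonempty (X ≃* ↥M24) := by
  obtain ⟨τ, hτ, -⟩ := exists_hom hp ρ hinj hO
  exact ⟨MulEquiv.ofBijective τ ((Nat.bijective_iff_injective_and_card τ).mpr ⟨hτ, hcard⟩)⟩

end CfsgLib.ConwayType.GolayModel
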