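import Cfsg.Agent.Lib.ConwayType.Golay.Exists
import Cfsg.Agent.Lib.ClassicalLinear.Card

/-!
The stabiliser of a standard four-space in the half group induces the whole linear group on it; the
normaliser of its elementary abelian group inside the centraliser of `z`.
-/

set_option autoImplicit false
set_option linter.unusedSectionVars false
set_option maxRecDepth 100000
set_option synthInstance.maxSize 1000
set_option maxHeartbeats 4000000

namespace CfsgLib.ConwayType.Golay

open CfsgLib.ExtraspecialLarge CfsgLib.ConwayType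

/-- The stabiliser of the space in `J`. -/
def stabW (J : Subgroup O) (i : Bool) : Subgroup O where
  carrier := {g | g ∈ J ∧ (∀ c, InW i (ap g (wVec i c))) ∧ ∀ c, InW i (ap g⁻¹ (wVec i c))}
  one_mem' := ⟨J.one_mem, fun c => ⟨c, by rw [ap_one]⟩, fun c => ⟨c, by rw [inv_one, ap_one]⟩⟩
  mul_mem' {a b} ha hb := by
    refine ⟨J.mul_mem ha.1 hb.1, fun c => ?_, fun c => ?_⟩
    · obtain ⟨c', e⟩ := hb.2.1 c
      rw [ap_mul, e]; exact ha.2.1 c'
    · obtain ⟨c', e⟩ := ha.2.2 c
      rw [mul_inv_rev, ap_mul, e]; exact hb.2.2 c'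
  inv_mem' {a} ha := ⟨J.inv_mem ha.1, ha.2.2, by rw [inv_inv]; exact ha.2.1⟩

theorem mem_stabW_iff {J : Subgroup O} {i : Bool} {g : O} :
    g ∈ stabW J i ↔ g ∈ J ∧ ∀ c, InW i (ap g (wVec i c)) := by
  refine ⟨fun h => ⟨h.1, h.2.1⟩, fun h => ⟨h.1, h.2, fun c => ?_⟩⟩
  choose f hf using h.2
  have hinj : Function.Injective f := fun c c' e =>
    wVec_inj i c c' (ap_inj g (by rw [hf, hf, e]))
  obtain ⟨c', rfl⟩ := Finite.surjective_of_injective hinj c
  exact ⟨c', by rw [← hf, ap_inv_ap]⟩

/-- The coordinates of the image of a vector of the space. -/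
noncomputable def imgC {J : Subgroup O} {i : Bool} (g : ↥(stabW J i)) (c : Fin 4 → ZMod 2) : Fin 4 → ZMod 2 :=
  Classical.choose (g.2.2.1 c)

theorem imgC_spec {J : Subgroup O} {i : Bool} (g : ↥(stabW J i)) (c : Fin 4 → ZMod 2) :
    ap (g : O) (wVec i c) = wVec i (imgC g c) :=
  Classical.choose_spec (g.2.2.1 c)

/-- The induced permutation of the coordinates. -/
noncomputable def res (J : Subgroup O) (i : Bool) : ↥(stabW J i) →* Equiv.Perm (Fin 4 → ZMod 2) :=
  MonoidHom.toHomPerm
    { toFun := fun g => imgC g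
      map_one' := funext fun c => wVec_inj i _ _ (by rw [← imgC_spec]; exact ap_one _)
      map_mul' := fun g h => funext fun c => wVec_inj i _ _ (by
        rw [← imgC_spec, Subgroup.coe_mul, ap_mul, imgC_spec, imgC_spec]; rfl) }

theorem res_spec {J : Subgroup O} {i : Bool} (g : ↥(stabW J i)) (c : Fin 4 → ZMod 2) :
    ap (g : O) (wVec i c) = wVec i (res J i g c) := imgC_spec g c

/-- The action of the special linear group on coordinates. -/
noncomputable def linPerm : Matrix.SpecialLinearGroup (Fin 4) (ZMod 2) →* Equiv.Perm (Fin 4 → ZMod 2) :=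
  MonoidHom.toHomPerm
    { toFun := fun A c => (A : Matrix (Fin 4) (Fin 4) (ZMod 2)).mulVec c
      map_one' := funext fun c => (Matrix.one_mulVec c).trans rfl
      map_mul' := fun A B => funext fun c => by
        simp only [Matrix.SpecialLinearGroup.coe_mul, ← Matrix.mulVec_mulVec]; rfl }

theorem linPerm_apply (A : Matrix.SpecialLinearGroup (Fin 4) (ZMod 2)) (c : Fin 4 → ZMod 2) :
    linPerm A c = (A : Matrix (Fin 4) (Fin 4) (ZMod 2)).mulVec c := rfl

theorem linPerm_injective : Function.Injective linPerm := fun A B e =>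
  Subtype.ext (Matrix.ext_of_mulVec_single fun j => by
    rw [← linPerm_apply, ← linPerm_apply, e])

theorem card_SL_four_two {ι : Type} [Fintype ι] [DecidableEq ι] [Nonempty ι] {F : Type} [Field F]
    [Fintype F] (hι : Fintype.card ι = 4) (hF : Fintype.card F = 2) :
    Nat.card (Matrix.SpecialLinearGroup ι F) = 20160 := by
  have h := CfsgLib.ClassicalLinear.card_SL (ι := ι) (F := F)
  generalize Nat.card (Matrix.SpecialLinearGroup ι F) = N at h ⊢
  rw [Fin.prod_univ_eq_prod_range (fun i => Fintype.card F ^ Fintype.card ι - Fintype.card F ^ i), hι, hF] at h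
  simpa [Finset.prod_range_succ] using h

theorem card_SL4 : Nat.card (Matrix.SpecialLinearGroup (Fin 4) (ZMod 2)) = 20160 :=
  card_SL_four_two (Fintype.card_fin 4) (ZMod.card 2)

/-- The basis of the space. -/
def basV (i : Bool) (j : Fin 4) : V := ![eV, e2V, e3V, xV i] j

/-- The dual vectors. -/
def dualV (i : Bool) (j : Fin 4) : V := ![fV, f2V, f3V, xV' i] j

theorem basV_spec : ∀ (i : Bool) (j : Fin 4), q (basV i j) = 0 ∧ basV i j ≠ 0 ∧
    ∀ k, k ≠ j → bl (basV i j) (dualV i k) = 0 := by decide +kernel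

theorem sgf_transvection : ∀ (i : Bool) (j k : Fin 4), j ≠ k → ∀ c : Fin 4 → ZMod 2,
    sgf (basV i j) (dualV i k) (wVec i c) = wVec i (fun l => c l + if l = j then c k else 0) := by
  decide +kernel

theorem transvection_mulVec : ∀ (j k : Fin 4) (c : Fin 4 → ZMod 2),
    (Matrix.transvection j k (1 : ZMod 2)).mulVec c = fun l => c l + if l = j then c k else 0 := by
  intro j k c
  rw [Matrix.transvection, Matrix.add_mulVec, Matrix.one_mulVec]
  funext l
  by_cases h : l = j
  · subst h; simp [Matrix.single_mulVec]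
  · simp [Matrix.single_mulVec, h]

variable {J : Subgroup O} (hJ : Half J)
include hJ

/-- Every linear map of the space is induced. -/
theorem range_res (i : Bool) : (res J i).range = linPerm.range := by
  apply le_antisymm
  · rintro _ ⟨g, rfl⟩
    have hadd : ∀ c c', res J i g (c + c') = res J i g c + res J i g c' := fun c c' =>
      wVec_inj i _ _ (by rw [← res_spec, ← wVec_add, ← wVec_add, ap_add, res_spec, res_spec])
    have hsmul : ∀ (t : ZMod 2) c, res J i g (t • c) = t • res J i g c := by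
      intro t c
      rcases z2_cases t with rfl | rfl
      · have := hadd 0 0
        rw [add_zero] at this
        simpa using this
      · simp
    let f : (Fin 4 → ZMod 2) →ₗ[ZMod 2] (Fin 4 → ZMod 2) :=
      { toFun := res J i g, map_add' := hadd, map_smul' := hsmul }
    have hdet : (LinearMap.toMatrix' f).det = 1 := by
      refine (z2_cases _).resolve_left fun h0 => ?_
      obtain ⟨v, hv, hv0⟩ := Matrix.exists_mulVec_eq_zero_iff.2 h0
      rw [LinearMap.toMatrix'_mulVec] at hv0
      have h00 : res J i g 0 = 0 := by simpa using hsmul 0 0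
      exact hv ((res J i g).injective (hv0.trans h00.symm))
    refine ⟨⟨LinearMap.toMatrix' f, hdet⟩, Equiv.ext fun c => ?_⟩
    show (LinearMap.toMatrix' f).mulVec c = res J i g c
    exact LinearMap.toMatrix'_mulVec f c
  · rw [MonoidHom.range_eq_map, ← CfsgLib.ClassicalLinear.eq_top_of_transvection_mem
      (H := (res J i).range.comap linPerm) ?_]
    · exact Subgroup.map_comap_le _ _
    intro j k hjk t
    rcases z2_cases t with rfl | rfl
    · rw [show Matrix.SpecialLinearGroup.transvection hjk (0 : ZMod 2) = 1 from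
        Subtype.ext (Matrix.transvection_zero j k)]
      exact one_mem _
    obtain ⟨hq, hne, horth⟩ := basV_spec i j
    have hb := horth k hjk.symm
    have hg : T (basV i j) (dualV i k) hq hb ∈ stabW J i := mem_stabW_iff.2
      ⟨hJ.T_mem hq hne hb, fun c => ⟨_, by rw [ap_T]; exact sgf_transvection i j k hjk c⟩⟩
    refine ⟨⟨_, hg⟩, Equiv.ext fun c => wVec_inj i _ _ ?_⟩
    rw [← res_spec, linPerm_apply]
    show ap (T (basV i j) (dualV i k) hq hb) (wVec i c) = _
    rw [ap_T, sgf_transvection i j k hjk c]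
    exact congrArg (wVec i) (transvection_mulVec j k c).symm

omit hJ in
theorem T_line_mem (hJ : Half J) (i : Bool) (k : Fin 6) : lineT i k ∈ J :=
  hJ.T_mem _ (line_mem i k).2.2 _

/-- The order of the stabiliser. -/
theorem card_stabW (i : Bool) : Nat.card ↥(stabW J i) = 64 * 20160 := by
  classical
  have hzp : ∀ k t, zp (lineT i k) t ∈ J := fun k t => zp_mem (T_line_mem hJ i k) t
  have hpJ : ∀ b, prodT i b ∈ J := fun b =>
    J.mul_mem (hzp _ _) (J.mul_mem (hzp _ _) (J.mul_mem (hzp _ _) (J.mul_mem (hzp _ _)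
      (J.mul_mem (hzp _ _) (hzp _ _)))))
  have hfix : ∀ b c, ap (prodT i b) (wVec i c) = wVec i c := fun b c => by rw [ap_prodT, prodF_fix]
  have hkc : Nat.card ↥(res J i).ker = 64 := by
    have hbij : Nat.card ↥(res J i).ker = Nat.card (Fin 6 → ZMod 2) := by
      refine (Nat.card_eq_of_bijective (fun b : Fin 6 → ZMod 2 =>
        (⟨⟨prodT i b, mem_stabW_iff.2 ⟨hpJ b, fun c => ⟨c, hfix b c⟩⟩⟩,
          Equiv.ext fun c => wVec_inj i _ _ (by rw [← res_spec]; exact hfix b c)⟩ : ↥(res J i).ker))
        ⟨?_, ?_⟩).symm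
      · intro b b' e
        have e1 : prodT i b = prodT i b' := congrArg (fun a : ↥(res J i).ker => ((a : ↥(stabW J i)) : O)) e
        exact prodF_inj i b b' fun u _ => by rw [← ap_prodT, ← ap_prodT, e1]
      · rintro ⟨g, hk⟩
        have h1 : ∀ c, ap (g : O) (wVec i c) = wVec i c := fun c => by
          rw [res_spec, show res J i g = 1 from hk]; rfl
        obtain ⟨b, hb⟩ := exists_prod i (g : O) h1
        exact ⟨b, Subtype.ext (Subtype.ext (O_ext_basis fun u hu => by rw [ap_prodT]; exact (hb u hu).symm))⟩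
    rw [hbij]; simp [Nat.card_eq_fintype_card]
  have := Subgroup.card_eq_card_quotient_mul_card_subgroup (res J i).ker
  rw [Nat.card_congr (QuotientGroup.quotientKerEquivRange _).toEquiv, range_res hJ i, hkc,
    ← Nat.card_congr (MonoidHom.ofInjective linPerm_injective).toEquiv, card_SL4] at this
  rw [this]

/-- Nonzero vectors of the space are conjugate under its stabiliser. -/
theorem exists_stab_map (i : Bool) (A : Matrix.SpecialLinearGroup (Fin 4) (ZMod 2)) :
    ∃ g ∈ stabW J i, ∀ c, ap g (wVec i c) = wVec i ((A : Matrix (Fin 4) (Fin 4) (ZMod 2)).mulVec c) := by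
  have : linPerm A ∈ (res J i).range := by rw [range_res hJ i]; exact ⟨A, rfl⟩
  obtain ⟨g, hg⟩ := this
  exact ⟨g, g.2, fun c => by rw [res_spec, hg]; rfl⟩

omit hJ

variable {G : Type*} [Group G] [Finite G]
variable {z : G} {Qf : G → Subgroup G} {θ : G → V} {ρ : G → O} {y h : G}

section Setting

variable (S : Setting z Qf θ ρ J)
include S

theorem centralizer_AU {i : Bool} (hab : IsMulCommutative ↥(AU z Qf θ (InW i))) :
    Subgroup.centralizer (AU z Qf θ (InW i) : Set G) = AU z Qf θ (InW i) := by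
  apply le_antisymm
  · intro a ha
    refine mem_AU.2 fun x hx hU => ?_
    exact Subgroup.mem_centralizer_iff.1 ha x ((mem_AU_Q S hx).2 hU)
  · intro a ha
    refine Subgroup.mem_centralizer_iff.2 fun b hb => ?_
    exact congrArg Subtype.val (hab.is_comm.comm (⟨b, hb⟩ : ↥(AU z Qf θ (InW i))) ⟨a, ha⟩)

/-- An element of the centraliser of `z` normalises the group exactly when it stabilises the space. -/
theorem normalizer_iff {i : Bool} {c : G} (hc : c * z = z * c) :
    c ∈ Subgroup.normalizer (AU z Qf θ (InW i) : Set G) ↔ ρ c ∈ stabW J i := by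
  constructor
  · intro hn
    refine mem_stabW_iff.2 ⟨S.ρ_mem c hc, fun d => ?_⟩
    obtain ⟨x, hx, hθ⟩ := S.θ_surj (wVec i d)
    have hxA : x ∈ AU z Qf θ (InW i) := (mem_AU_Q S hx).2 ⟨d, hθ⟩
    have h1 := (mem_AU_Q S (S.conj_mem_Q hc hx)).1 ((Subgroup.mem_normalizer_iff.1 hn x).1 hxA)
    rw [S.ρ_act c hc x hx, hθ] at h1
    exact h1
  · intro hs
    have key : ∀ c : G, c * z = z * c → ρ c ∈ stabW J i → ∀ a ∈ AU z Qf θ (InW i),
        c * a * c⁻¹ ∈ AU z Qf θ (InW i) := by
      intro c hc hs a ha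
      refine mem_AU.2 fun x hx hU => ?_
      have hx' : c⁻¹ * x * c ∈ Qf z := by
        have := S.conj_mem_Q (comm_inv hc) hx
        rwa [inv_inv] at this
      have hθ : θ x = ap (ρ c) (θ (c⁻¹ * x * c)) := by
        rw [← S.ρ_act c hc _ hx']; congr 1; group
      obtain ⟨d, hd⟩ := hU
      have hU' : InW i (θ (c⁻¹ * x * c)) := by
        have := hs.2.2 d
        rwa [← hd, hθ, ap_inv_ap] at this
      have h1 := mem_AU.1 ha _ hx' hU'
      calc x * (c * a * c⁻¹) = c * ((c⁻¹ * x * c) * a) * c⁻¹ := by group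
        _ = c * (a * (c⁻¹ * x * c)) * c⁻¹ := by rw [h1]
        _ = _ := by group
    refine Subgroup.mem_normalizer_iff.2 fun a => ⟨key c hc hs a, fun h => ?_⟩
    have h1 := key c⁻¹ (comm_inv hc) (by rw [S.ρ_inv hc]; exact inv_mem hs) _ h
    rwa [show c⁻¹ * (c * a * c⁻¹) * c⁻¹⁻¹ = a by group] at h1

/-- The order of the normaliser inside the centraliser of `z`. -/
theorem card_normalizer_inf (i : Bool) :
    Nat.card ↥(Subgroup.normalizer (AU z Qf θ (InW i) : Set G) ⊓ Subgroup.centralizer ({z} : Set G)) =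
      Nat.card ↥(Qf z) * (64 * 20160) := by
  classical
  set M := Subgroup.normalizer (AU z Qf θ (InW i) : Set G) ⊓ Subgroup.centralizer ({z} : Set G)
  have hM : ∀ c : ↥M, (c : G) * z = z * c := fun c => Subgroup.mem_centralizer_singleton_iff.1 c.2.2
  let f : ↥M →* O := MonoidHom.mk' (fun c => ρ (c : G)) fun a b => S.ρ_mul (hM a) (hM b)
  have hr : f.range = stabW J i := by
    ext g
    constructor
    · rintro ⟨c, rfl⟩; exact (normalizer_iff S (hM c)).1 c.2.1
    · intro hg
      obtain ⟨c, hc, rfl⟩ := S.ρ_surj g hg.1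
      exact ⟨⟨c, (normalizer_iff S hc).2 hg, Subgroup.mem_centralizer_singleton_iff.2 hc⟩, rfl⟩
  have hk : f.ker = (Qf z).subgroupOf M := by
    ext c
    rw [MonoidHom.mem_ker, Subgroup.mem_subgroupOf]
    exact S.ρ_ker _ (hM c)
  have hle : Qf z ≤ M := fun x hx => ⟨(normalizer_iff S (S.comm_z hx)).2 (by
    rw [S.ρ_of_mem hx]; exact one_mem _), Subgroup.mem_centralizer_singleton_iff.2 (S.comm_z hx)⟩
  have := Subgroup.card_eq_card_quotient_mul_card_subgroup f.ker
  rw [Nat.card_congr (QuotientGroup.quotientKerEquivRange f).toEquiv, hr, card_stabW S.half i, hk,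
    Nat.card_congr (Subgroup.subgroupOfEquivOfLe hle).toEquiv] at this
  rw [this, Nat.mul_comm]

end Setting

end CfsgLib.ConwayType.Golay
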