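import Cfsg.Agent.Lib.ConwayType.Golay.LeviLift

/-!
A 2-subgroup of order `2^10` in the normaliser of the elementary abelian group over the first
four-space, meeting it trivially.
-/

set_option autoImplicit false
set_option linter.unusedSectionVars false
set_option maxRecDepth 100000
set_option synthInstance.maxSize 1000
set_option maxHeartbeats 4000000

namespace CfsgLib.ConwayType.Golay

open CfsgLib.ExtraspecialLarge CfsgLib.ConwayType CfsgLib.ConwayType.Golay.Unitriangular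

theorem root_pairs :
    (InE (pf (levPairs[0]!) e2V) ∧ InE (pf (levPairs[0]!) f3V) ∧ InE (pf (levPairs[0]!) eV) ∧
      InE (pf (levPairs[0]!) f4V)) ∧
    (InE (pf (levPairs[1]!) eV) ∧ InE (pf (levPairs[1]!) f2V) ∧ InE (pf (levPairs[1]!) e3V) ∧
      InE (pf (levPairs[1]!) f4V)) ∧
    (InE (pf (levPairs[2]!) eV) ∧ InE (pf (levPairs[2]!) f2V) ∧ InE (pf (levPairs[2]!) f3V)) ∧
    (InE (pf (levPairs[3]!) e2V) ∧ InE (pf (levPairs[3]!) e3V) ∧ InE (pf (levPairs[3]!) f4V)) := by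
  decide +kernel

theorem X_inF' : ∀ v : V, InF v → InF (sgf eV f3V v) ∧ InF (sgf e2V f4V v) ∧ InF (sgf eV f4V v) := by
  rw [forall_vec]; decide +kernel

variable {G : Type*} [Group G] [Finite G]
variable {z : G} {Qf : G → Subgroup G} {θ : G → V} {ρ : G → O} {J : Subgroup O}
variable (S : Setting z Qf θ ρ J)
include S

theorem ρ_bp {g : G} (hg : g * z = z * g) (i : Bool) : ρ (bp g i) = bp (ρ g) i := by
  cases i
  · exact S.ρ_one
  · rfl

theorem bp_comm_z {g : G} (hg : g * z = z * g) (i : Bool) : bp g i * z = z * bp g i := by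
  cases i <;> simp [bp, hg]

theorem ρ_nf {a b c x y w : G} (ha : a * z = z * a) (hb : b * z = z * b) (hc : c * z = z * c)
    (hx : x * z = z * x) (hy : y * z = z * y) (hw : w * z = z * w)
    (t : Bool × Bool × Bool × Bool × Bool × Bool) :
    ρ (nf a b c x y w t) = nf (ρ a) (ρ b) (ρ c) (ρ x) (ρ y) (ρ w) t := by
  obtain ⟨i, j, k, l, m, n⟩ := t
  have h1 := comm_mul (bp_comm_z S hc m) (bp_comm_z S hb n)
  have h2 := comm_mul (bp_comm_z S ha l) h1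
  have h3 := comm_mul (bp_comm_z S hy k) h2
  have h4 := comm_mul (bp_comm_z S hx j) h3
  simp only [nf]
  rw [S.ρ_mul (bp_comm_z S hw i) h4, S.ρ_mul (bp_comm_z S hx j) h3, S.ρ_mul (bp_comm_z S hy k) h2,
    S.ρ_mul (bp_comm_z S ha l) h1, S.ρ_mul (bp_comm_z S hc m) (bp_comm_z S hb n), ρ_bp S ha, ρ_bp S hb,
    ρ_bp S hc, ρ_bp S hx, ρ_bp S hy, ρ_bp S hw]

variable {A : Subgroup G} (E : EGroup z Qf θ ρ A)
include E

/-- The 2-subgroup for the splitting. -/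
theorem exists_twoGroup
    (hN : ∀ c, c * z = z * c → (∀ v, InE v → InE (ap (ρ c) v)) → c ∈ Subgroup.normalizer (A : Set G)) :
    ∃ K : Subgroup G, Nat.card K = 2 ^ 10 ∧ K ≤ Subgroup.normalizer (A : Set G) ∧ K ⊓ A = ⊥ := by
  classical
  obtain ⟨F₀, F⟩ := exists_fBase S
  obtain ⟨B₀, hB₀, R₀⟩ := exists_good_group S F E (levPairs[0]!) (by decide +kernel)
  obtain ⟨B₁, hB₁, R₁⟩ := exists_good_group S F E (levPairs[1]!) (by decide +kernel)
  obtain ⟨B₂, hB₂, R₂⟩ := exists_good_group S F E (levPairs[2]!) (by decide +kernel)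
  obtain ⟨B₃, hB₃, R₃⟩ := exists_good_group S F E (levPairs[3]!) (by decide +kernel)
  obtain ⟨⟨p0a, p0b, p0c, p0d⟩, ⟨p1a, p1b, p1c, p1d⟩, ⟨p2a, p2b, p2c⟩, ⟨p3a, p3b, p3c⟩⟩ := root_pairs
  have n1 : eV ≠ 0 := by decide
  have n2 : e2V ≠ 0 := by decide
  have n3 : e3V ≠ 0 := by decide
  have f12 := fun w hw => (X_inF w hw).1
  have f23 := fun w hw => (X_inF w hw).2.1
  have f34 := fun w hw => (X_inF w hw).2.2
  have f13 := fun w hw => (X_inF' w hw).1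
  have f24 := fun w hw => (X_inF' w hw).2.1
  have f14 := fun w hw => (X_inF' w hw).2.2
  -- what each of the four groups gives
  have g0_23 := R₀ e2V f3V p0a p0b f23 n2 q_e2V (by decide)
  have g0_24 := R₀ e2V f4V p0a p0d f24 n2 q_e2V (by decide)
  have g0_13 := R₀ eV f3V p0c p0b f13 n1 q_eV (by decide)
  have g0_14 := R₀ eV f4V p0c p0d f14 n1 q_eV (by decide)
  have g1_12 := R₁ eV f2V p1a p1b f12 n1 q_eV (by decide)
  have g1_34 := R₁ e3V f4V p1c p1d f34 n3 q_e3V (by decide)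
  have g1_14 := R₁ eV f4V p1a p1d f14 n1 q_eV (by decide)
  have g2_12 := R₂ eV f2V p2a p2b f12 n1 q_eV (by decide)
  have g2_13 := R₂ eV f3V p2a p2c f13 n1 q_eV (by decide)
  have g3_34 := R₃ e3V f4V p3b p3c f34 n3 q_e3V (by decide)
  have g3_24 := R₃ e2V f4V p3a p3c f24 n2 q_e2V (by decide)
  obtain ⟨a, haz, haN, hρa⟩ := g1_12.1
  obtain ⟨b, hbz, hbN, hρb⟩ := g0_23.1
  obtain ⟨c, hcz, hcN, hρc⟩ := g1_34.1
  change ρ a = X12 at hρa
  change ρ b = X23 at hρb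
  change ρ c = X34 at hρc
  set N := Subgroup.centralizer ({z} : Set G) ⊓ Subgroup.normalizer (F₀ : Set G) with hNdef
  have hmem : ∀ {g : G}, g ∈ N ↔ g * z = z * g ∧ g ∈ Subgroup.normalizer (F₀ : Set G) := fun {g} => by
    rw [hNdef, Subgroup.mem_inf, Subgroup.mem_centralizer_singleton_iff]
  set x := a * b * a * b with hx
  set y := b * c * b * c with hy
  set w := a * y * a * y with hw
  have haR : a ∈ N := hmem.2 ⟨haz, haN⟩
  have hbR : b ∈ N := hmem.2 ⟨hbz, hbN⟩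
  have hcR : c ∈ N := hmem.2 ⟨hcz, hcN⟩
  have hxR : x ∈ N := N.mul_mem (N.mul_mem (N.mul_mem haR hbR) haR) hbR
  have hyR : y ∈ N := N.mul_mem (N.mul_mem (N.mul_mem hbR hcR) hbR) hcR
  have hwR : w ∈ N := N.mul_mem (N.mul_mem (N.mul_mem haR hyR) haR) hyR
  obtain ⟨hxz, hxN⟩ := hmem.1 hxR
  obtain ⟨hyz, hyN⟩ := hmem.1 hyR
  obtain ⟨hwz, hwN⟩ := hmem.1 hwR
  have hρx : ρ x = X13 := by
    rw [hx, S.ρ_mul (comm_mul (comm_mul haz hbz) haz) hbz, S.ρ_mul (comm_mul haz hbz) haz,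
      S.ρ_mul haz hbz, hρa, hρb, X13_eq]
  have hρy : ρ y = X24 := by
    rw [hy, S.ρ_mul (comm_mul (comm_mul hbz hcz) hbz) hcz, S.ρ_mul (comm_mul hbz hcz) hbz,
      S.ρ_mul hbz hcz, hρb, hρc, X24_eq]
  have hρw : ρ w = X14 := by
    rw [hw, S.ρ_mul (comm_mul (comm_mul haz hyz) haz) hyz, S.ρ_mul (comm_mul haz hyz) haz,
      S.ρ_mul haz hyz, hρa, hρy, X14_eq]
  have hFN : F₀ ≤ N := fun f hf => hmem.2 ⟨S.comm_z (F.le hf), Subgroup.le_normalizer hf⟩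
  haveI : (F₀.subgroupOf N).Normal :=
    (Subgroup.normal_subgroupOf_iff_le_normalizer hFN).mpr inf_le_right
  let π := QuotientGroup.mk' (F₀.subgroupOf N)
  have hsame : ∀ {g k : G} (hg : g ∈ N) (hk : k ∈ N), k⁻¹ * g ∈ F₀ → π ⟨g, hg⟩ = π ⟨k, hk⟩ := by
    intro g k hg hk h
    exact (QuotientGroup.eq.mpr (show ((⟨k, hk⟩ : ↥N)⁻¹ * ⟨g, hg⟩) ∈ F₀.subgroupOf N from h)).symm
  have hlift : ∀ {B : Subgroup G} {g : G} (hg : g ∈ N),
      (∃ b ∈ B, b * z = z * b ∧ b ∈ Subgroup.normalizer (F₀ : Set G) ∧ b⁻¹ * g ∈ F₀) →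
      ∃ k : ↥N, (k : G) ∈ B ∧ π ⟨g, hg⟩ = π k := by
    rintro B g hg ⟨k, hkB, hkz, hkN, hk⟩
    exact ⟨⟨k, hmem.2 ⟨hkz, hkN⟩⟩, hkB, hsame hg _ hk⟩
  have hsq : ∀ {B : Subgroup G}, (∀ b ∈ B, b * b = 1) → ∀ {g : G} (hg : g ∈ N),
      (∃ b ∈ B, b * z = z * b ∧ b ∈ Subgroup.normalizer (F₀ : Set G) ∧ b⁻¹ * g ∈ F₀) →
      π ⟨g, hg⟩ * π ⟨g, hg⟩ = 1 := by
    intro B hB g hg h
    obtain ⟨k, hkB, e⟩ := hlift hg h
    rw [e, ← map_mul, show k * k = 1 from Subtype.ext (hB _ hkB), map_one]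
  have hcomm : ∀ {B : Subgroup G}, (∀ b ∈ B, b * b = 1) → ∀ {g g' : G} (hg : g ∈ N) (hg' : g' ∈ N),
      (∃ b ∈ B, b * z = z * b ∧ b ∈ Subgroup.normalizer (F₀ : Set G) ∧ b⁻¹ * g ∈ F₀) →
      (∃ b ∈ B, b * z = z * b ∧ b ∈ Subgroup.normalizer (F₀ : Set G) ∧ b⁻¹ * g' ∈ F₀) →
      π ⟨g, hg⟩ * π ⟨g', hg'⟩ = π ⟨g', hg'⟩ * π ⟨g, hg⟩ := by
    intro B hB g g' hg hg' h h'
    obtain ⟨k, hkB, e⟩ := hlift hg h
    obtain ⟨k', hkB', e'⟩ := hlift hg' h'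
    have hc : (k : G) * k' = k' * k := by
      calc (k : G) * k' = ((k : G) * k')⁻¹ := (inv_eq_of_mul_eq_one_right (hB _ (B.mul_mem hkB hkB'))).symm
        _ = k' * k := by
          rw [mul_inv_rev, inv_eq_of_mul_eq_one_right (hB _ hkB), inv_eq_of_mul_eq_one_right (hB _ hkB')]
    rw [e, e', ← map_mul, ← map_mul, show k * k' = k' * k from Subtype.ext hc]
  have hRel : Rel (π ⟨a, haR⟩) (π ⟨b, hbR⟩) (π ⟨c, hcR⟩) (π ⟨x, hxR⟩) (π ⟨y, hyR⟩) (π ⟨w, hwR⟩) :=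
    { a2 := hsq hB₁ haR (g1_12.2 a haz haN hρa)
      b2 := hsq hB₀ hbR (g0_23.2 b hbz hbN hρb)
      c2 := hsq hB₁ hcR (g1_34.2 c hcz hcN hρc)
      x2 := hsq hB₀ hxR (g0_13.2 x hxz hxN hρx)
      y2 := hsq hB₀ hyR (g0_24.2 y hyz hyN hρy)
      w2 := hsq hB₀ hwR (g0_14.2 w hwz hwN hρw)
      hx := by rw [← map_mul, ← map_mul, ← map_mul]; rfl
      hy := by rw [← map_mul, ← map_mul, ← map_mul]; rfl
      hw := by rw [← map_mul, ← map_mul, ← map_mul]; rfl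
      ac := hcomm hB₁ haR hcR (g1_12.2 a haz haN hρa) (g1_34.2 c hcz hcN hρc)
      ax := hcomm hB₂ haR hxR (g2_12.2 a haz haN hρa) (g2_13.2 x hxz hxN hρx)
      bx := hcomm hB₀ hbR hxR (g0_23.2 b hbz hbN hρb) (g0_13.2 x hxz hxN hρx)
      dy := hcomm hB₀ hbR hyR (g0_23.2 b hbz hbN hρb) (g0_24.2 y hyz hyN hρy)
      cy := hcomm hB₃ hcR hyR (g3_34.2 c hcz hcN hρc) (g3_24.2 y hyz hyN hρy)
      xy := hcomm hB₀ hxR hyR (g0_13.2 x hxz hxN hρx) (g0_24.2 y hyz hyN hρy)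
      aw := hcomm hB₁ haR hwR (g1_12.2 a haz haN hρa) (g1_14.2 w hwz hwN hρw)
      bw := hcomm hB₀ hbR hwR (g0_23.2 b hbz hbN hρb) (g0_14.2 w hwz hwN hρw)
      cw := hcomm hB₁ hcR hwR (g1_34.2 c hcz hcN hρc) (g1_14.2 w hwz hwN hρw)
      xw := hcomm hB₀ hxR hwR (g0_13.2 x hxz hxN hρx) (g0_14.2 w hwz hwN hρw)
      yw := hcomm hB₀ hyR hwR (g0_24.2 y hyz hyN hρy) (g0_14.2 w hwz hwN hρw) }
  set C := Subgroup.closure ({π ⟨a, haR⟩, π ⟨b, hbR⟩, π ⟨c, hcR⟩} : Set (↥N ⧸ F₀.subgroupOf N))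
    with hC
  have haC : π ⟨a, haR⟩ ∈ C := Subgroup.subset_closure (by simp)
  have hbC : π ⟨b, hbR⟩ ∈ C := Subgroup.subset_closure (by simp)
  have hcC : π ⟨c, hcR⟩ ∈ C := Subgroup.subset_closure (by simp)
  set K := (C.comap π).map N.subtype with hK
  have hKN : K ≤ N := Subgroup.map_subtype_le _
  have hmemK : ∀ {g : G} (hg : g ∈ N), π ⟨g, hg⟩ ∈ C → g ∈ K := fun {g} hg h => ⟨⟨g, hg⟩, h, rfl⟩
  have hcard : Nat.card K ≤ 2 ^ 10 := by
    have h1 : Nat.card K = Nat.card ↥(C.comap π) :=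
      (Nat.card_congr ((C.comap π).equivMapOfInjective _ N.subtype_injective).toEquiv).symm
    have h2 : Nat.card ↥(C.comap π) = Nat.card ↥C * Nat.card ↥(F₀.subgroupOf N) := by
      have h3 := (C.comap π).card_mul_index
      have h4 := C.card_mul_index
      rw [Subgroup.index_comap_of_surjective C (QuotientGroup.mk'_surjective _)] at h3
      refine Nat.eq_of_mul_eq_mul_right (Nat.pos_of_ne_zero (Subgroup.index_ne_zero_of_finite (H := C))) ?_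
      rw [h3, Subgroup.card_eq_card_quotient_mul_card_subgroup (F₀.subgroupOf N), ← h4]
      ring
    have h5 : Nat.card ↥(F₀.subgroupOf N) = 16 := by
      rw [Nat.card_congr (Subgroup.subgroupOfEquivOfLe hFN).toEquiv, F.card]
    rw [h1, h2, h5]
    have := hRel.card_closure_le
    calc Nat.card ↥C * 16 ≤ 64 * 16 := Nat.mul_le_mul_right 16 this
      _ = 2 ^ 10 := by norm_num
  have haK : a ∈ K := hmemK haR haC
  have hbK : b ∈ K := hmemK hbR hbC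
  have hcK : c ∈ K := hmemK hcR hcC
  have hxK : x ∈ K := K.mul_mem (K.mul_mem (K.mul_mem haK hbK) haK) hbK
  have hyK : y ∈ K := K.mul_mem (K.mul_mem (K.mul_mem hbK hcK) hbK) hcK
  have hwK : w ∈ K := K.mul_mem (K.mul_mem (K.mul_mem haK hyK) haK) hyK
  have hFK : F₀ ≤ K := fun f hf => hmemK (hFN hf) (by
    rw [show π ⟨f, hFN hf⟩ = 1 from (QuotientGroup.eq_one_iff _).2 hf]; exact C.one_mem)
  have hbp : ∀ {g : G}, g ∈ K → ∀ i, bp g i ∈ K := fun {g} hg i => by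
    cases i
    · exact K.one_mem
    · exact hg
  have hnfK : ∀ t, nf a b c x y w t ∈ K := fun t => K.mul_mem (hbp hwK _) (K.mul_mem (hbp hxK _)
    (K.mul_mem (hbp hyK _) (K.mul_mem (hbp haK _) (K.mul_mem (hbp hcK _) (hbp hbK _)))))
  have hKz : ∀ {g : G}, g ∈ K → g * z = z * g := fun hg => (hmem.1 (hKN hg)).1
  -- the injection
  let Φ : (Bool × Bool × Bool × Bool × Bool × Bool) × ↥F₀ → ↥K := fun p =>
    ⟨nf a b c x y w p.1 * p.2, K.mul_mem (hnfK _) (hFK p.2.2)⟩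
  have hΦρ : ∀ p, ρ (Φ p : G) = nfO p.1 := fun p => by
    show ρ (_ * _) = _
    rw [S.ρ_mul (hKz (hnfK _)) (S.comm_z (F.le p.2.2)), S.ρ_of_mem (F.le p.2.2), mul_one,
      ρ_nf S haz hbz hcz hxz hyz hwz, hρa, hρb, hρc, hρx, hρy, hρw]
    rfl
  have hΦ : Function.Injective Φ := by
    rintro ⟨t, f⟩ ⟨t', f'⟩ e
    have ht : t = t' := nfO_inj (by rw [← hΦρ (t, f), ← hΦρ (t', f'), e])
    subst ht
    exact Prod.ext rfl (Subtype.ext (mul_left_cancel (congrArg Subtype.val e)))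
  have hcard2 : Nat.card ((Bool × Bool × Bool × Bool × Bool × Bool) × ↥F₀) = 2 ^ 10 := by
    rw [Nat.card_prod, F.card]; simp
  have hK10 : Nat.card K = 2 ^ 10 :=
    le_antisymm hcard (hcard2 ▸ Nat.card_le_card_of_injective Φ hΦ)
  have hΦsurj : ∀ g ∈ K, ∃ p, (Φ p : G) = g := fun g hg => by
    obtain ⟨p, hp⟩ := ((Nat.bijective_iff_injective_and_card Φ).mpr ⟨hΦ, by rw [hcard2, hK10]⟩).2 ⟨g, hg⟩
    exact ⟨p, congrArg Subtype.val hp⟩
  refine ⟨K, hK10, ?_, ?_⟩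
  · intro g hg
    obtain ⟨p, rfl⟩ := hΦsurj g hg
    refine hN _ (hKz hg) ?_
    rw [hΦρ]
    exact nfO_inE p.1
  · rw [eq_bot_iff]
    rintro g ⟨hgK, hgA⟩
    obtain ⟨⟨t, f⟩, rfl⟩ := hΦsurj g hgK
    have ht : t = (false, false, false, false, false, false) := by
      refine nfO_fix t fun v hv => ?_
      rw [← hΦρ (t, f)]
      exact E.fix _ hgA v hv
    subst ht
    have hgf : (Φ ((false, false, false, false, false, false), f) : G) = f := by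
      simp [Φ, nf, bp]
    rw [hgf] at hgA ⊢
    obtain ⟨f, hf⟩ := f
    -- an element of `A` in `F₀` is trivial
    rw [Subgroup.mem_bot]
    refine F.inj f hf (eq_zero_of_inF _ (F.inF f hf) fun v hv => ?_)
    obtain ⟨e, he, rfl⟩ := S.θ_surj v
    have heA : e ∈ A := E.memQ e he (basisE _ hv)
    refine S.bl_of_comm (F.le hf) he ?_
    calc f * e = (f * e)⁻¹ := (inv_eq_of_mul_eq_one_right (E.sq _ (A.mul_mem hgA heA))).symm
      _ = e * f := by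
        rw [mul_inv_rev, inv_eq_of_mul_eq_one_right (E.sq _ hgA), inv_eq_of_mul_eq_one_right (E.sq _ heA)]

end CfsgLib.ConwayType.Golay
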