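import Cfsg.Agent.Lib.ConwayType.Golay.Exists
import Cfsg.Agent.Lib.ConwayType.Golay.SylowComplement
import Cfsg.Agent.Lib.JFour.Complement

/-!
Coordinates in which the first standard four-space has an elementary abelian centraliser, and the splitting
of its normaliser once the order of the latter is known.
-/

set_option autoImplicit false
set_option linter.unusedSectionVars false
set_option maxRecDepth 100000
set_option synthInstance.maxSize 1000
set_option maxHeartbeats 4000000

namespace CfsgLib.ConwayType.Golay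

open CfsgLib.ExtraspecialLarge CfsgLib.ConwayType

theorem inW_true_iff : ∀ v : V, InW true v ↔ InE v := by
  rw [forall_vec]; decide +kernel

theorem swap_inW : ∀ v : V, InW true (rf (vec 0 0 0 1 0 0 0 1) v) ↔ InW false v := by
  rw [forall_vec]; decide +kernel

variable {G : Type*} [Group G] [Finite G]
variable {z : G} {Qf : G → Subgroup G} {θ : G → V} {ρ : G → O} {J : Subgroup O} {y h : G}

/-- Coordinates changed by an isometry fixing `eV`. -/
theorem PairSetting_congr (P : PairSetting z Qf θ ρ J y h) (g : O) (hge : ap g eV = eV) :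
    PairSetting z Qf (fun x => ap g (θ x)) (fun c => g * ρ c * g⁻¹) J y h := by
  refine { toSetting := ?_, y_mem := P.y_mem, θy := by rw [P.θy, hge], hz := P.hz, hy := P.hy }
  exact
    { core := P.core
      θ_mul := fun x hx x' hx' => by rw [P.θ_mul x hx x' hx', ap_add]
      θ_surj := fun v => by
        obtain ⟨x, hx, e⟩ := P.θ_surj (ap g⁻¹ v)
        exact ⟨x, hx, by rw [e, ap_ap_inv]⟩
      θ_ker := fun x hx => by
        rw [← P.θ_ker x hx]
        exact ⟨fun e => ap_inj g (e.trans (ap_zero g).symm), fun e => by rw [e, ap_zero]⟩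
      θ_sq := fun x hx => by rw [P.θ_sq x hx, q_ap]
      ρ_act := fun c hc x hx => by
        rw [P.ρ_act c hc x hx, ap_mul, ap_mul, ap_inv_ap]
      half := P.half
      ρ_mem := fun c hc => P.half.conj_mem g (P.ρ_mem c hc)
      ρ_surj := fun j hj => by
        obtain ⟨c, hc, e⟩ := P.ρ_surj (g⁻¹ * j * g⁻¹⁻¹) (P.half.conj_mem g⁻¹ hj)
        exact ⟨c, hc, by rw [e]; group⟩
      ρ_ker := fun c hc => by rw [conj_eq_one_iff, P.ρ_ker c hc] }

/-- In suitable coordinates the first standard four-space is good. -/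
theorem exists_standard (P : PairSetting z Qf θ ρ J y h) :
    ∃ (θ' : G → V) (ρ' : G → O), PairSetting z Qf θ' ρ' J y h ∧
      Cfsg.IsElementaryAbelian 2 (AU z Qf θ' (InW true)) := by
  obtain ⟨i, hi⟩ := exists_abelian P
  cases i
  · have hq : q (vec 0 0 0 1 0 0 0 1) = 1 := by decide
    set g := R (vec 0 0 0 1 0 0 0 1) hq with hg
    have hge : ap g eV = eV := by rw [hg, ap_R]; decide
    refine ⟨_, _, PairSetting_congr P g hge, ?_⟩
    have e : AU z Qf (fun x => ap g (θ x)) (InW true) = AU z Qf θ (InW false) := by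
      ext a
      rw [mem_AU, mem_AU]
      simp only [hg, ap_R, swap_inW]
    rw [e]; exact hi
  · exact ⟨θ, ρ, P, hi⟩

variable (P : PairSetting z Qf θ ρ J y h)
include P

theorem eGroup (hA : Cfsg.IsElementaryAbelian 2 (AU z Qf θ (InW true))) :
    EGroup z Qf θ ρ (AU z Qf θ (InW true)) where
  sq a ha := by rw [← pow_two]; exact hA.2 a ha
  comm a ha := comm_z_of_mem P.toSetting ha
  memQ x hx hE := (mem_AU_Q P.toSetting hx).2 ((inW_true_iff _).2 hE)
  fix a ha v hv := by
    obtain ⟨c, rfl⟩ := (inW_true_iff v).2 hv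
    exact ρ_fix P.toSetting ha c
  root u v hu hv hu0 := by
    obtain ⟨-, s, -, hs, hρ, -⟩ := exists_root_AU P ((inW_true_iff u).2 hu) hu0 ((inW_true_iff v).2 hv)
    exact ⟨s, hs, hρ⟩

omit P in
theorem mem_normalizer_AU (S : Setting z Qf θ ρ J) {U : V → Prop} {c : G} (hc : c * z = z * c)
    (hU : ∀ v, U v → U (ap (ρ c) v)) : c ∈ Subgroup.normalizer (AU z Qf θ U : Set G) := by
  classical
  have hU' : ∀ v, U (ap (ρ c)⁻¹ v) ↔ U v := by
    intro v
    refine ⟨fun h => by have := hU _ h; rwa [ap_ap_inv] at this, fun h => ?_⟩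
    let f : {v // U v} → {v // U v} := fun w => ⟨ap (ρ c) w.1, hU _ w.2⟩
    obtain ⟨w, hw⟩ := Finite.surjective_of_injective
      (f := f) (fun a b e => Subtype.ext (ap_inj _ (congrArg Subtype.val e))) ⟨v, h⟩
    rw [show v = ap (ρ c) w.1 from (congrArg Subtype.val hw).symm, ap_inv_ap]
    exact w.2
  have h := AU_map (U := U) S hc
  simp only [hU'] at h
  rw [Subgroup.mem_normalizer_iff]
  intro a
  constructor
  · intro ha
    have : c * a * c⁻¹ ∈ (AU z Qf θ U).map (MulAut.conj c).toMonoidHom := ⟨a, ha, rfl⟩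
    rwa [h] at this
  · intro ha
    rw [← h] at ha
    obtain ⟨b, hb, e⟩ := ha
    have : b = a := by simpa using e
    exact this ▸ hb

/-- The normaliser splits, given its order. -/
theorem exists_complement (hA : Cfsg.IsElementaryAbelian 2 (AU z Qf θ (InW true))) {m : ℕ}
    (hm : ¬ 2 ∣ m)
    (hcard : Nat.card ↥(Subgroup.normalizer (AU z Qf θ (InW true) : Set G)) = 2 ^ 11 * (2 ^ 10 * m)) :
    ∃ K : Subgroup ↥(Subgroup.normalizer (AU z Qf θ (InW true) : Set G)),
      ((AU z Qf θ (InW true)).subgroupOf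
        (Subgroup.normalizer (AU z Qf θ (InW true) : Set G))).IsComplement' K := by
  set A := AU z Qf θ (InW true) with hAdef
  obtain ⟨K, hK, hKN, hKA⟩ := exists_twoGroup P.toSetting (eGroup P hA) fun c hc hU =>
    mem_normalizer_AU P.toSetting hc fun v hv => (inW_true_iff _).2 (hU v ((inW_true_iff v).1 hv))
  obtain ⟨C, hCN, hCA, hsup, -⟩ :=
    CfsgLib.JFour.exists_complement_of_twoGroup hA (card_AU P true) hcard hm hKN hK hKA
  set N := Subgroup.normalizer (A : Set G) with hN
  haveI : (A.subgroupOf N).Normal :=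
    (Subgroup.normal_subgroupOf_iff_le_normalizer Subgroup.le_normalizer).mpr le_rfl
  refine ⟨C.subgroupOf N, Subgroup.isComplement'_of_disjoint_and_mul_eq_univ ?_ ?_⟩
  · rw [disjoint_iff, eq_bot_iff]
    rintro x ⟨h1, h2⟩
    refine Subtype.ext (Subgroup.mem_bot.mp (hCA ▸ Subgroup.mem_inf.mpr ⟨h2, h1⟩))
  · rw [← Subgroup.normal_mul, ← Subgroup.subgroupOf_sup Subgroup.le_normalizer hCN, sup_comm, hsup,
      Subgroup.subgroupOf_self]
    rfl

end CfsgLib.ConwayType.Golay
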